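import Mathlib

/-!
# Isomorphisms of central quotients from a multiplicative relation
-/

set_option autoImplicit false
set_option linter.all false

namespace Cfsg.Agent.H8

section
variable {H S : Type*} [Group H] [Group S] (R : H → S → Prop)
  (hone : R 1 1) (hmul : ∀ h M h' M', R h M → R h' M' → R (h * h') (M * M'))
  (hinv : ∀ h M, R h M → R h⁻¹ M⁻¹)

include hone hmul hinv

/-- if the relation is total on a generating set it is total. -/
theorem rel_total (T : Set H) (hT : Subgroup.closure T = ⊤) (h1 : ∀ h ∈ T, ∃ M, R h M) : ∀ h, ∃ M, R h M := by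
  intro h
  have hh : h ∈ Subgroup.closure T := by rw [hT]; exact Subgroup.mem_top h
  refine Subgroup.closure_induction (p := fun h _ => ∃ M, R h M) h1 ⟨1, hone⟩ ?_ ?_ hh
  · rintro a b _ _ ⟨M, hM⟩ ⟨M', hM'⟩
    exact ⟨M * M', hmul _ _ _ _ hM hM'⟩
  · rintro a _ ⟨M, hM⟩
    exact ⟨M⁻¹, hinv _ _ hM⟩

variable (tot : ∀ h, ∃ M, R h M) (N : Subgroup S) [N.Normal] (h1 : ∀ M, R 1 M → M ∈ N)

include tot h1

/-- the homomorphism attached to the relation. -/
theorem rel_hom : ∃ f : H →* S ⧸ N, ∀ h M, R h M → f h = QuotientGroup.mk' N M := by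
  choose F hF using tot
  have key : ∀ h M M', R h M → R h M' → QuotientGroup.mk' N M = QuotientGroup.mk' N M' := by
    intro h M M' hM hM'
    have h2 := hmul _ _ _ _ (hinv _ _ hM) hM'
    rw [inv_mul_cancel] at h2
    have h3 := h1 _ h2
    rw [QuotientGroup.mk'_apply, QuotientGroup.mk'_apply]
    exact QuotientGroup.eq.2 h3
  refine ⟨⟨⟨fun h => QuotientGroup.mk' N (F h), ?_⟩, ?_⟩, ?_⟩
  · have := key 1 (F 1) 1 (hF 1) hone
    rw [this, map_one]
  · intro a b
    show QuotientGroup.mk' N (F (a * b)) = QuotientGroup.mk' N (F a) * QuotientGroup.mk' N (F b)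
    rw [← map_mul]
    exact key _ _ _ (hF _) (hmul _ _ _ _ (hF a) (hF b))
  · intro h M hM
    exact key _ _ _ (hF h) hM

theorem rel_iso (Z : Subgroup H) [Z.Normal] (h2 : ∀ h M, R h M → (M ∈ N ↔ h ∈ Z))
    [Finite (S ⧸ N)] (hcard : Nat.card (S ⧸ N) ≤ Nat.card (H ⧸ Z)) : Nonempty ((H ⧸ Z) ≃* (S ⧸ N)) := by
  obtain ⟨f, hf⟩ := rel_hom R hone hmul hinv tot N h1
  have hker : f.ker = Z := by
    ext h
    obtain ⟨M, hM⟩ := tot h
    rw [MonoidHom.mem_ker, hf h M hM, ← h2 h M hM, QuotientGroup.mk'_apply, QuotientGroup.eq_one_iff]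
  let g : (H ⧸ Z) →* (S ⧸ N) := QuotientGroup.lift Z f (fun x hx => by
    rw [← hker] at hx; exact hx)
  have hg : Function.Injective g := by
    rw [← MonoidHom.ker_eq_bot_iff, eq_bot_iff]
    intro x hx
    obtain ⟨y, rfl⟩ := QuotientGroup.mk_surjective x
    have h3 : f y = 1 := hx
    rw [Subgroup.mem_bot]
    rw [QuotientGroup.eq_one_iff, ← hker]
    exact h3
  have hb : Function.Bijective g := hg.bijective_of_nat_card_le hcard
  exact ⟨MulEquiv.ofBijective g hb⟩

end

end Cfsg.Agent.H8
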