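import Mathlib
import Cfsg.Agent.H8.CosetEnum
import Cfsg.Agent.H17.StdForms

/-!
# Vectors over `ZMod 3` encoded by natural numbers, the 7-dimensional quadratic form
-/

set_option autoImplicit false
set_option linter.all false

namespace Cfsg.Agent.H8

/-- the index type. -/
abbrev I7 : Type := Unit ⊕ (Fin 3 ⊕ Fin 3)

/-- position of an index. -/
def pos7 : I7 → Nat
  | .inl _ => 0
  | .inr (.inl i) => 1 + i
  | .inr (.inr i) => 4 + i

/-- component of a code. -/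
noncomputable def c3 (c k : Nat) : Nat := Nat.mod (Nat.div c (Nat.pow 3 k)) 3

/-- the vector with a given code. -/
noncomputable def vecZ (c : Nat) : I7 → ZMod 3 := fun k => ((c3 c (pos7 k) : Nat) : ZMod 3)

/-- the vector with given components. -/
def lst7 (t0 t1 t2 t3 t4 t5 t6 : Nat) : I7 → ZMod 3
  | .inl _ => (t0 : ZMod 3)
  | .inr (.inl 0) => (t1 : ZMod 3)
  | .inr (.inl 1) => (t2 : ZMod 3)
  | .inr (.inl 2) => (t3 : ZMod 3)
  | .inr (.inr 0) => (t4 : ZMod 3)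
  | .inr (.inr 1) => (t5 : ZMod 3)
  | .inr (.inr 2) => (t6 : ZMod 3)

/-- bilinear form of a vector with a code. -/
noncomputable def bil (t0 t1 t2 t3 t4 t5 t6 c : Nat) : Nat :=
  Nat.mod (Nat.add (Nat.mul (Nat.mul 2 t0) (c3 c 0)) (Nat.add (Nat.add (Nat.mul t1 (c3 c 4)) (Nat.mul t4 (c3 c 1)))
    (Nat.add (Nat.add (Nat.mul t2 (c3 c 5)) (Nat.mul t5 (c3 c 2))) (Nat.add (Nat.mul t3 (c3 c 6)) (Nat.mul t6 (c3 c 3)))))) 3

noncomputable def ckC (c c' h a t k : Nat) (r : Bool) : Bool :=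
  @Bool.rec (fun _ => Bool) false r
    (Nat.beq (Nat.mod (Nat.add (c3 c k) (Nat.mul h t)) 3) (Nat.mod (Nat.mul a (c3 c' k)) 3))

noncomputable def ckA (t0 t1 t2 t3 t4 t5 t6 c c' h a : Nat) : Bool :=
  ckC c c' h a t0 0 (ckC c c' h a t1 1 (ckC c c' h a t2 2 (ckC c c' h a t3 3 (ckC c c' h a t4 4
    (ckC c c' h a t5 5 (ckC c c' h a t6 6 true))))))

/-- the reflection `x ↦ x + B(t,x) t` maps the line of `c` to the line of `c'`. -/
noncomputable def ckRefl (t0 t1 t2 t3 t4 t5 t6 c c' : Nat) : Bool :=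
  force c fun c => force c' fun c' => force (bil t0 t1 t2 t3 t4 t5 t6 c) fun h =>
    @Bool.rec (fun _ => Bool) (ckA t0 t1 t2 t3 t4 t5 t6 c c' h 2) true (ckA t0 t1 t2 t3 t4 t5 t6 c c' h 1)

theorem ckC_sound {c c' h a t k : Nat} {r : Bool} (hh : ckC c c' h a t k r = true) :
    ((c3 c k : Nat) : ZMod 3) + (h : ZMod 3) * t = a * ((c3 c' k : Nat) : ZMod 3) ∧ r = true := by
  unfold ckC at hh
  cases h1 : Nat.beq (Nat.mod (Nat.add (c3 c k) (Nat.mul h t)) 3) (Nat.mod (Nat.mul a (c3 c' k)) 3)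
  · rw [h1] at hh; exact absurd (show false = true from hh) Bool.false_ne_true
  · rw [h1] at hh
    refine ⟨?_, hh⟩
    have h2 : (c3 c k + h * t) % 3 = (a * c3 c' k) % 3 := Nat.eq_of_beq_eq_true h1
    have h3 := (ZMod.natCast_eq_natCast_iff' (c3 c k + h * t) (a * c3 c' k) 3).2 h2
    push_cast at h3
    exact h3

theorem ckA_sound {t0 t1 t2 t3 t4 t5 t6 c c' h a : Nat} (hh : ckA t0 t1 t2 t3 t4 t5 t6 c c' h a = true) :
    vecZ c + (h : ZMod 3) • lst7 t0 t1 t2 t3 t4 t5 t6 = (a : ZMod 3) • vecZ c' := by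
  unfold ckA at hh
  obtain ⟨h0, hh⟩ := ckC_sound hh
  obtain ⟨h1, hh⟩ := ckC_sound hh
  obtain ⟨h2, hh⟩ := ckC_sound hh
  obtain ⟨h3, hh⟩ := ckC_sound hh
  obtain ⟨h4, hh⟩ := ckC_sound hh
  obtain ⟨h5, hh⟩ := ckC_sound hh
  obtain ⟨h6, hh⟩ := ckC_sound hh
  funext k
  rcases k with u | i | i
  · exact h0
  · fin_cases i
    · exact h1
    · exact h2
    · exact h3
  · fin_cases i
    · exact h4
    · exact h5
    · exact h6

/-- polar form with the vector. -/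
theorem polar_vec (t0 t1 t2 t3 t4 t5 t6 c : Nat) :
    QuadraticMap.polar (Cfsg.quadFormOdd 3 (ZMod 3)) (lst7 t0 t1 t2 t3 t4 t5 t6) (vecZ c) =
      ((bil t0 t1 t2 t3 t4 t5 t6 c : Nat) : ZMod 3) := by
  rw [H17.polar_qOdd]
  have e : ((bil t0 t1 t2 t3 t4 t5 t6 c : Nat) : ZMod 3) =
      ((2 * t0 * c3 c 0 + ((t1 * c3 c 4 + t4 * c3 c 1) + ((t2 * c3 c 5 + t5 * c3 c 2) +
        (t3 * c3 c 6 + t6 * c3 c 3))) : Nat) : ZMod 3) := by
    rw [ZMod.natCast_eq_natCast_iff']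
    exact Nat.mod_mod _ _
  rw [e]
  simp only [Fin.sum_univ_succ, Fin.sum_univ_zero]
  push_cast
  simp only [vecZ, pos7, lst7]
  norm_num [Fin.ext_iff]

theorem ckRefl_sound {t0 t1 t2 t3 t4 t5 t6 c c' : Nat} (hh : ckRefl t0 t1 t2 t3 t4 t5 t6 c c' = true) :
    ∃ a : ZMod 3, a ≠ 0 ∧ vecZ c + (QuadraticMap.polar (Cfsg.quadFormOdd 3 (ZMod 3)) (lst7 t0 t1 t2 t3 t4 t5 t6) (vecZ c)) •
      lst7 t0 t1 t2 t3 t4 t5 t6 = a • vecZ c' := by
  unfold ckRefl at hh
  rw [force_eq, force_eq, force_eq] at hh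
  rw [polar_vec]
  cases h1 : ckA t0 t1 t2 t3 t4 t5 t6 c c' (bil t0 t1 t2 t3 t4 t5 t6 c) 1
  · rw [h1] at hh
    exact ⟨2, by decide, ckA_sound hh⟩
  · have := ckA_sound h1
    exact ⟨1, by decide, by simpa using this⟩

/-- encode the components of a multiple. -/
noncomputable def enc7 (a c : Nat) : Nat :=
  @Nat.rec (fun _ => Nat) (nat_lit 0) (fun k ih => Nat.add ih (Nat.mul (Nat.mod (Nat.mul a (c3 c k)) 3) (Nat.pow 3 k))) 7

theorem enc7_congr (a c a' c' : Nat) (h : ∀ k < 7, (a * c3 c k) % 3 = (a' * c3 c' k) % 3) : enc7 a c = enc7 a' c' := by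
  have key : ∀ n ≤ 7, @Nat.rec (fun _ => Nat) (nat_lit 0) (fun k ih => Nat.add ih (Nat.mul (Nat.mod (Nat.mul a (c3 c k)) 3) (Nat.pow 3 k))) n =
      @Nat.rec (fun _ => Nat) (nat_lit 0) (fun k ih => Nat.add ih (Nat.mul (Nat.mod (Nat.mul a' (c3 c' k)) 3) (Nat.pow 3 k))) n := by
    intro n
    induction n with
    | zero => intro _; rfl
    | succ n ih =>
      intro hn
      have h1 := ih (by omega)
      have h2 := h n (by omega)
      show Nat.add _ (Nat.mul (Nat.mod (Nat.mul a (c3 c n)) 3) (Nat.pow 3 n)) =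
        Nat.add _ (Nat.mul (Nat.mod (Nat.mul a' (c3 c' n)) 3) (Nat.pow 3 n))
      have h3 : Nat.mod (Nat.mul a (c3 c n)) 3 = Nat.mod (Nat.mul a' (c3 c' n)) 3 := h2
      rw [h1, h3]
  exact key 7 (le_refl 7)

noncomputable def ckIo3 (io : Nat → Nat) (c i : Nat) : Bool :=
  force c fun c => @Bool.rec (fun _ => Bool) false (force (enc7 2 c) fun e => Nat.beq (io e) i)
    (force (enc7 1 c) fun e => Nat.beq (io e) i)

theorem ckIo3_sound {io : Nat → Nat} {c i : Nat} (h : ckIo3 io c i = true) :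
    io (enc7 1 c) = i ∧ io (enc7 2 c) = i := by
  unfold ckIo3 at h
  simp only [force_eq] at h
  cases h1 : Nat.beq (io (enc7 1 c)) i
  · rw [h1] at h; exact absurd (show false = true from h) Bool.false_ne_true
  rw [h1] at h
  exact ⟨Nat.eq_of_beq_eq_true h1, Nat.eq_of_beq_eq_true h⟩

theorem zmod3_cases (a : ZMod 3) (ha : a ≠ 0) : a = 1 ∨ a = 2 := by
  revert a; decide

theorem io_unique {io : Nat → Nat} {c i c' i' : Nat} (h : ckIo3 io c i = true) (h' : ckIo3 io c' i' = true)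
    (a : ZMod 3) (ha : a ≠ 0) (e : vecZ c = a • vecZ c') : i = i' := by
  obtain ⟨h1, h2⟩ := ckIo3_sound h
  obtain ⟨h1', h2'⟩ := ckIo3_sound h'
  have key : ∀ m : Nat, (m : ZMod 3) = a → enc7 1 c = enc7 m c' := by
    intro m hm
    apply enc7_congr
    intro k hk
    rw [← ZMod.natCast_eq_natCast_iff', ]
    push_cast
    rw [one_mul, hm]
    have hpos : ∃ j : I7, pos7 j = k := by
      interval_cases k
      · exact ⟨.inl (), rfl⟩
      · exact ⟨.inr (.inl 0), rfl⟩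
      · exact ⟨.inr (.inl 1), rfl⟩
      · exact ⟨.inr (.inl 2), rfl⟩
      · exact ⟨.inr (.inr 0), rfl⟩
      · exact ⟨.inr (.inr 1), rfl⟩
      · exact ⟨.inr (.inr 2), rfl⟩
    obtain ⟨j, hj⟩ := hpos
    have := congrFun e j
    unfold vecZ at this
    rw [Pi.smul_apply, hj] at this
    exact this
  rcases zmod3_cases a ha with rfl | rfl
  · rw [← h1, key 1 rfl, h1']
  · rw [← h1, key 2 rfl, h2']

end Cfsg.Agent.H8
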