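import Cfsg.Agent.H8.Fi22Pres
import Cfsg.Agent.H8.RelIso
import Cfsg.Agent.H8.WordTop
import Cfsg.Agent.H8.Z3Vec
import Cfsg.Agent.H8.T.O7v
import Cfsg.Agent.H5.Orth2
import Cfsg.Agent.S0292

/-!
# The subgroup `Ω₇(3)` of the presented Fischer group `Fi₂₂`
-/

set_option autoImplicit false
set_option linter.all false
set_option maxRecDepth 100000

namespace Cfsg.Agent.H8.Fi22O

open Cfsg.Spor Cfsg.Agent.H5 Cfsg.Agent.H8.Fi22P commutatorElement

theorem ρ₂_injective : Function.Injective ρ₂ := by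
  apply injective_of_simple simple ρ₂ (s 0)
  intro h
  have h1 := hρ₂ 0 (by decide)
  rw [h] at h1
  have h2 := permL_apply Fi22bt.tok 0 (by decide) ⟨1, by decide⟩
  rw [← h1] at h2
  revert h2
  decide +kernel

/-- `h` fixes a point corresponding to a conjugate of `a`. -/
theorem comm_of_fix (h g : Fi22) (hh : ρ₂ h (ρ₂ g ⟨0, by decide⟩) = ρ₂ g ⟨0, by decide⟩) :
    h * (g * s 0 * g⁻¹) = (g * s 0 * g⁻¹) * h := by
  have h1 : g⁻¹ * h * g ∈ wordGroup s Fi22bt.clG := by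
    rw [index_stab.2]
    change ρ₂ (g⁻¹ * h * g) ⟨0, by decide⟩ = ⟨0, by decide⟩
    rw [map_mul, map_mul, Equiv.Perm.mul_apply, Equiv.Perm.mul_apply, hh, ← Equiv.Perm.mul_apply, ← map_mul,
      inv_mul_cancel, map_one]
    rfl
  have h2 := a_central _ h1
  calc h * (g * s 0 * g⁻¹) = g * ((g⁻¹ * h * g) * s 0) * g⁻¹ := by group
    _ = g * (s 0 * (g⁻¹ * h * g)) * g⁻¹ := by rw [h2]
    _ = (g * s 0 * g⁻¹) * h := by group

theorem braid_s (u v : Nat) (h : ([u, v], 3) ∈ Fi22at.rels2) : (s u * s v) * s u * (s u * s v)⁻¹ = s v := by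
  apply braid_conj _ _ (s_sq u) (s_sq v)
  have := base _ h
  simpa using this

def gl : Nat → List Nat
  | 1 => [0, 1]
  | 2 => [1, 2, 0, 1]
  | 3 => [2, 3, 1, 2, 0, 1]
  | 4 => [3, 4, 2, 3, 1, 2, 0, 1]
  | 5 => [4, 5, 3, 4, 2, 3, 1, 2, 0, 1]
  | 6 => [5, 6, 4, 5, 3, 4, 2, 3, 1, 2, 0, 1]
  | 7 => [3, 7, 2, 3, 1, 2, 0, 1]
  | 8 => [7, 8, 3, 7, 2, 3, 1, 2, 0, 1]
  | _ => []

theorem conj_step (u v : Nat) (h : ([u, v], 3) ∈ Fi22at.rels2) (w : List Nat)
    (hw : (w.map s).prod * s 0 * ((w.map s).prod)⁻¹ = s u) :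
    (([u, v] ++ w).map s).prod * s 0 * ((([u, v] ++ w).map s).prod)⁻¹ = s v := by
  have e : (([u, v] ++ w).map s).prod = (s u * s v) * (w.map s).prod := by
    simp only [List.map_append, List.prod_append, List.map_cons, List.map_nil, List.prod_cons, List.prod_nil,
      mul_one]
  rw [e]
  calc (s u * s v) * (w.map s).prod * s 0 * ((s u * s v) * (w.map s).prod)⁻¹
      = (s u * s v) * ((w.map s).prod * s 0 * ((w.map s).prod)⁻¹) * (s u * s v)⁻¹ := by
        rw [mul_inv_rev]; simp only [mul_assoc]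
    _ = s v := by rw [hw]; exact braid_s u v h

theorem gl_conj : ∀ l ∈ [1, 2, 3, 4, 5, 6, 7, 8], ((gl l).map s).prod * s 0 * (((gl l).map s).prod)⁻¹ = s l := by
  have h0 : ((([] : List Nat)).map s).prod * s 0 * (((([] : List Nat)).map s).prod)⁻¹ = s 0 := by simp
  have h1 := conj_step 0 1 (by decide) _ h0
  have h2 := conj_step 1 2 (by decide) _ h1
  have h3 := conj_step 2 3 (by decide) _ h2
  have h4 := conj_step 3 4 (by decide) _ h3
  have h5 := conj_step 4 5 (by decide) _ h4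
  have h6 := conj_step 5 6 (by decide) _ h5
  have h7 := conj_step 3 7 (by decide) _ h3
  have h8 := conj_step 7 8 (by decide) _ h7
  intro l hl
  simp only [List.mem_cons, List.not_mem_nil, or_false] at hl
  rcases hl with rfl | rfl | rfl | rfl | rfl | rfl | rfl | rfl
  · exact h1
  · exact h2
  · exact h3
  · exact h4
  · exact h5
  · exact h6
  · exact h7
  · exact h8

/-- value of a word at a point. -/
theorem rho_rev (w : List Nat) (hw : ∀ l ∈ w, l < 9) (i : Fin 3510) :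
    ((ρ₂ (w.map s).prod i : Fin 3510) : Nat) = trN Fi22bt.T w.reverse i := by
  have h := rho_word s Fi22bt.tok ρ₂ hρ₂ w.reverse (by intro l hl; exact hw l (List.mem_reverse.1 hl)) i
  rw [← h, ← map_inv, word_inv s s_inv, List.reverse_reverse]

theorem T_of (l : Nat) (hl : l < 9) (i : Fin 3510) : ((ρ₂ (s l) i : Fin 3510) : Nat) = Fi22bt.T l i := by
  have h := rho_rev [l] (by simpa using hl) i
  simpa [trN] using h

/-- the subgroup `Ω₇(3)`. -/
abbrev KK : Subgroup Fi22 := wordGroup s Kgens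

theorem s_mem (l : Nat) (hl : l ∈ [1, 2, 3, 4, 5, 6, 7, 8]) : s l ∈ KK := by
  have h2 : [l] ∈ Kgens := by
    simp only [List.mem_cons, List.not_mem_nil, or_false] at hl
    rcases hl with rfl | rfl | rfl | rfl | rfl | rfl | rfl | rfl <;> decide
  have h3 := mem_wordGroup s Kgens _ h2
  simpa using h3

/-- membership in the 351 points. -/
def XX (i : Fin 3510) : Prop := O7v.vo i ≠ 0

theorem ck_all : ∀ l ∈ [1, 2, 3, 4, 5, 6, 7, 8], ∀ i : Fin 3510, XX i → XX (ρ₂ (s l) i) := by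
  have key : ∀ (l : Nat) (f : Nat → Nat → Bool), l < 9 →
      allR (fun i => @Bool.rec (fun _ => Bool) (trT [Fi22bt.T l] (fun j => @Bool.rec (fun _ => Bool) (f i j) false
        (Nat.beq (O7v.vo j) 0)) i) true (Nat.beq (O7v.vo i) 0)) (nat_lit 0) (nat_lit 3510) = true →
      ∀ i : Fin 3510, XX i → XX (ρ₂ (s l) i) := by
    intro l f hl h i hi
    have h1 := allR_zero _ _ h i i.2
    have h2 : Nat.beq (O7v.vo i) 0 = false := by
      cases h3 : Nat.beq (O7v.vo i) 0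
      · rfl
      · exact absurd (Nat.eq_of_beq_eq_true h3) hi
    rw [h2] at h1
    have h4 : trT ([l].map Fi22bt.T) (fun j => @Bool.rec (fun _ => Bool) (f i j) false
        (Nat.beq (O7v.vo j) 0)) i = true := h1
    rw [trT_eq] at h4
    intro h5
    rw [T_of l hl] at h5
    have h6 : Nat.beq (O7v.vo (trN Fi22bt.T [l] i)) 0 = true := by
      have : trN Fi22bt.T [l] i = Fi22bt.T l i := rfl
      rw [this, h5]; rfl
    rw [h6] at h4
    exact absurd (show false = true from h4) Bool.false_ne_true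
  intro l hl
  simp only [List.mem_cons, List.not_mem_nil, or_false] at hl
  rcases hl with rfl | rfl | rfl | rfl | rfl | rfl | rfl | rfl
  · exact key 1 _ (by decide) O7v.ck1
  · exact key 2 _ (by decide) O7v.ck2
  · exact key 3 _ (by decide) O7v.ck3
  · exact key 4 _ (by decide) O7v.ck4
  · exact key 5 _ (by decide) O7v.ck5
  · exact key 6 _ (by decide) O7v.ck6
  · exact key 7 _ (by decide) O7v.ck7
  · exact key 8 _ (by decide) O7v.ck8

theorem inv_XX (h : Fi22) (hh : h ∈ KK) : ∀ i : Fin 3510, XX i ↔ XX (ρ₂ h i) := by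
  refine Subgroup.closure_induction (p := fun g _ => ∀ i : Fin 3510, XX i ↔ XX (ρ₂ g i)) ?_ ?_ ?_ ?_ hh
  · rintro _ ⟨w, hw, rfl⟩ i
    have h1 : ∀ w ∈ Kgens, ∃ l ∈ [1, 2, 3, 4, 5, 6, 7, 8], w = [l] := by decide
    obtain ⟨l, hl, rfl⟩ := h1 w hw
    have e : (([l] : List Nat).map s).prod = s l := by simp
    rw [e]
    constructor
    · exact ck_all l hl i
    · intro h
      have := ck_all l hl _ h
      rw [← Equiv.Perm.mul_apply, ← map_mul, s_sq, map_one] at this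
      exact this
  · intro i; rw [map_one]; rfl
  · intro a b _ _ ha hb i
    rw [map_mul, Equiv.Perm.mul_apply, ← ha, ← hb]
  · intro a _ ha i
    rw [ha (ρ₂ a⁻¹ i), ← Equiv.Perm.mul_apply, ← map_mul, mul_inv_cancel, map_one]
    rfl

/-- an element commuting with `⟨b, …, i⟩` is trivial. -/
theorem triv_of_comm (h : Fi22) (hc : ∀ l ∈ [1, 2, 3, 4, 5, 6, 7, 8], h * s l = s l * h) : h = 1 := by
  set y := ρ₂ h ⟨0, by decide⟩ with hy
  have hfixl : ∀ l ∈ [2, 3, 4, 5, 6, 7, 8], Fi22bt.T l y = y := by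
    intro l hl
    have k1 : ∀ l ∈ [2, 3, 4, 5, 6, 7, 8], l < 9 ∧ l ∈ [1, 2, 3, 4, 5, 6, 7, 8] ∧
      Fi22bt.T l 0 = 0 := by decide +kernel
    obtain ⟨k2, k3, k4⟩ := k1 l hl
    have h1 : ρ₂ (s l) ⟨0, by decide⟩ = ⟨0, by decide⟩ := by
      apply Fin.ext
      rw [T_of l k2]
      exact k4
    rw [← T_of l k2]
    congr 1
    rw [hy, ← Equiv.Perm.mul_apply, ← map_mul, ← hc l k3, map_mul, Equiv.Perm.mul_apply, h1]
  have h12 : (y : Nat) = 0 := by
    have h := allR_zero _ _ O7v.ckZ1 y y.2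
    have b : ∀ l, Fi22bt.T l y = y → Nat.beq (Fi22bt.T l y) y = true := fun l hl => by
      rw [hl]; exact Nat.beq_refl _
    have b2 : Nat.beq (Fi22bt.T2 y) y = true := b 2 (hfixl 2 (by decide))
    have b3 : Nat.beq (Fi22bt.T3 y) y = true := b 3 (hfixl 3 (by decide))
    have b4 : Nat.beq (Fi22bt.T4 y) y = true := b 4 (hfixl 4 (by decide))
    have b5 : Nat.beq (Fi22bt.T5 y) y = true := b 5 (hfixl 5 (by decide))
    have b6 : Nat.beq (Fi22bt.T6 y) y = true := b 6 (hfixl 6 (by decide))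
    have b7 : Nat.beq (Fi22bt.T7 y) y = true := b 7 (hfixl 7 (by decide))
    have b8 : Nat.beq (Fi22bt.T8 y) y = true := b 8 (hfixl 8 (by decide))
    rw [b2, b3, b4, b5, b6, b7, b8] at h
    exact Nat.eq_of_beq_eq_true h
  have h0 : h ∈ wordGroup s Fi22bt.clG := by
    rw [index_stab.2]
    exact Fin.ext h12
  have h3 := a_central h h0
  apply center_trivial
  intro g
  have hg : g ∈ letterGroup s 9 := by rw [s_top]; exact Subgroup.mem_top g
  have h4 : letterGroup s 9 ≤ Subgroup.centralizer {h} := by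
    unfold letterGroup
    rw [Subgroup.closure_le]
    rintro _ ⟨l, hl, rfl⟩
    rw [SetLike.mem_coe, Subgroup.mem_centralizer_singleton_iff]
    interval_cases l
    · exact h3.symm
    all_goals exact (hc _ (by decide)).symm
  have := h4 hg
  rw [Subgroup.mem_centralizer_singleton_iff] at this
  exact this

/-- the kernel on the 351 points. -/
theorem ker351 (h : Fi22) (hfix : ∀ i : Fin 3510, XX i → ρ₂ h i = i) : h = 1 := by
  apply triv_of_comm
  intro l hl
  have h1 := gl_conj l hl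
  rw [← h1]
  apply comm_of_fix
  apply hfix
  have k1 : ∀ l ∈ [1, 2, 3, 4, 5, 6, 7, 8], ∀ m ∈ gl l, m < 9 := by decide
  have k2 : ∀ l ∈ [1, 2, 3, 4, 5, 6, 7, 8], O7v.vo (trN Fi22bt.T (gl l).reverse 0) ≠ 0 := by decide +kernel
  change O7v.vo _ ≠ 0
  rw [rho_rev _ (k1 l hl)]
  exact k2 l hl

/-! ### The orthogonal side -/

/-- the quadratic form. -/
noncomputable abbrev Qf : QuadraticForm (ZMod 3) (I7 → ZMod 3) := H17.qOdd 3 (ZMod 3)

noncomputable abbrev OO : Subgroup (Matrix.GeneralLinearGroup I7 (ZMod 3)) := Cfsg.isometryGroup (ZMod 3) ⇑Qf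

noncomputable abbrev mo (M : OO) : Matrix I7 I7 (ZMod 3) := ((M : Matrix.GeneralLinearGroup I7 (ZMod 3)) : Matrix I7 I7 (ZMod 3))

noncomputable def vec (i : Fin 3510) : I7 → ZMod 3 := vecZ (O7v.vo i)

def RR (h : KK) (M : OO) : Prop :=
  ∀ i : Fin 3510, XX i → ∃ c : ZMod 3, c ≠ 0 ∧ (mo M).mulVec (vec i) = c • vec (ρ₂ (h : Fi22) i)

theorem mo_mul (A B : OO) : mo (A * B) = mo A * mo B := by simp [mo]

theorem mo_one : mo (1 : OO) = 1 := by simp [mo]

theorem RR_one : RR 1 1 := by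
  intro i _
  refine ⟨1, one_ne_zero, ?_⟩
  rw [mo_one]
  simp

theorem RR_mul (h : KK) (M : OO) (h' : KK) (M' : OO) (H : RR h M) (H' : RR h' M') :
    RR (h * h') (M * M') := by
  intro i hi
  obtain ⟨c', hc', e'⟩ := H' i hi
  obtain ⟨c, hc, e⟩ := H (ρ₂ (h' : Fi22) i) ((inv_XX h' h'.2 i).1 hi)
  refine ⟨c' * c, mul_ne_zero hc' hc, ?_⟩
  rw [mo_mul, ← Matrix.mulVec_mulVec, e', Matrix.mulVec_smul, e, smul_smul]
  simp

theorem RR_inv (h : KK) (M : OO) (H : RR h M) : RR h⁻¹ M⁻¹ := by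
  intro i hi
  obtain ⟨c, hc, e⟩ := H (ρ₂ ((h⁻¹ : KK) : Fi22) i) ((inv_XX _ (h⁻¹).2 i).1 hi)
  refine ⟨c⁻¹, inv_ne_zero hc, ?_⟩
  have e1 : mo M⁻¹ * mo M = 1 := by
    rw [← mo_mul, inv_mul_cancel, mo_one]
  have e2 : ρ₂ (h : Fi22) (ρ₂ ((h⁻¹ : KK) : Fi22) i) = i := by
    rw [← Equiv.Perm.mul_apply, ← map_mul]
    simp
  rw [e2] at e
  have e3 := congrArg (fun v => (mo M⁻¹).mulVec v) e
  simp only [Matrix.mulVec_mulVec, e1, Matrix.one_mulVec, Matrix.mulVec_smul] at e3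
  rw [e3, smul_smul, inv_mul_cancel₀ hc, one_smul]

/-- existence of the reflection. -/
theorem exists_refl (v : I7 → ZMod 3) (hv : Cfsg.quadFormOdd 3 (ZMod 3) v = 2) :
    ∃ M : OO, ∀ x, (mo M).mulVec x = x + (QuadraticMap.polar (Cfsg.quadFormOdd 3 (ZMod 3)) v x) • v := by
  have hv2 : Qf v = 2 := by rw [H17.qOdd_apply]; exact hv
  have hv' : Qf v ≠ 0 := by rw [hv2]; decide
  refine ⟨(ogEquiv Qf).symm (refl hv'), fun x => ?_⟩
  have h1 := ogEquiv_apply Qf ((ogEquiv Qf).symm (refl hv')) x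
  rw [MulEquiv.apply_symm_apply] at h1
  change (mo ((ogEquiv Qf).symm (refl hv'))).mulVec x = _
  rw [← h1, refl_apply, hv2]
  have h2 : pB Qf v x = QuadraticMap.polar (Cfsg.quadFormOdd 3 (ZMod 3)) v x := by
    rw [← H17.coe_qOdd]; rfl
  rw [h2]
  have h3 : (2 : ZMod 3)⁻¹ = 2 := inv_eq_of_mul_eq_one_left (by decide)
  rw [h3, sub_eq_add_neg, ← neg_smul]
  congr 2
  have h4 : (-2 : ZMod 3) = 1 := by decide
  rw [← neg_mul, h4, one_mul]

theorem RR_letter (l : Nat) (hl : l ∈ [1, 2, 3, 4, 5, 6, 7, 8]) (hl9 : l < 9) (t0 t1 t2 t3 t4 t5 t6 : Nat)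
    (hv : Cfsg.quadFormOdd 3 (ZMod 3) (lst7 t0 t1 t2 t3 t4 t5 t6) = 2)
    (hck : allR (fun i => @Bool.rec (fun _ => Bool) (trT [Fi22bt.T l] (fun j => @Bool.rec (fun _ => Bool)
        (ckRefl t0 t1 t2 t3 t4 t5 t6 (O7v.vo i) (O7v.vo j)) false
        (Nat.beq (O7v.vo j) 0)) i) true (Nat.beq (O7v.vo i) 0)) (nat_lit 0) (nat_lit 3510) = true) :
    ∃ M, RR ⟨s l, s_mem l hl⟩ M := by
  obtain ⟨M, hM⟩ := exists_refl _ hv
  refine ⟨M, ?_⟩
  intro i hi
  have h := allR_zero _ _ hck i i.2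
  have h2 : Nat.beq (O7v.vo i) 0 = false := by
    cases h3 : Nat.beq (O7v.vo i) 0
    · rfl
    · exact absurd (Nat.eq_of_beq_eq_true h3) hi
  rw [h2] at h
  have h3 : trT ([l].map Fi22bt.T) (fun j => @Bool.rec (fun _ => Bool)
        (ckRefl t0 t1 t2 t3 t4 t5 t6 (O7v.vo i) (O7v.vo j)) false (Nat.beq (O7v.vo j) 0)) i = true := h
  rw [trT_eq] at h3
  cases h4 : Nat.beq (O7v.vo (trN Fi22bt.T [l] i)) 0
  · rw [h4] at h3
    obtain ⟨a, ha, h5⟩ := ckRefl_sound h3
    refine ⟨a, ha, ?_⟩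
    rw [hM]
    unfold vec
    rw [T_of l hl9]
    exact h5
  · rw [h4] at h3
    exact absurd (show false = true from h3) Bool.false_ne_true

theorem RR_tot : ∀ h : KK, ∃ M, RR h M := by
  apply rel_total RR RR_one RR_mul RR_inv
    {h | ∃ M, RR h M} _ (fun h hh => hh)
  apply wordGroup_sub_top'
  intro w hw x hx
  apply Subgroup.subset_closure
  have h1 : ∀ w ∈ Kgens, ∃ l ∈ [1, 2, 3, 4, 5, 6, 7, 8], w = [l] := by decide
  obtain ⟨l, hl, rfl⟩ := h1 w hw
  have hx' : x = ⟨s l, s_mem l hl⟩ := Subtype.ext (by simpa using hx)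
  rw [hx']
  simp only [List.mem_cons, List.not_mem_nil, or_false] at hl
  rcases hl with rfl | rfl | rfl | rfl | rfl | rfl | rfl | rfl
  · exact RR_letter 1 (by decide) (by decide) 0 0 0 1 0 0 2 (by decide +kernel) O7v.ck1
  · exact RR_letter 2 (by decide) (by decide) 0 0 0 1 0 1 2 (by decide +kernel) O7v.ck2
  · exact RR_letter 3 (by decide) (by decide) 0 0 1 0 0 2 0 (by decide +kernel) O7v.ck3
  · exact RR_letter 4 (by decide) (by decide) 0 1 0 0 2 1 0 (by decide +kernel) O7v.ck4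
  · exact RR_letter 5 (by decide) (by decide) 1 0 0 1 1 0 1 (by decide +kernel) O7v.ck5
  · exact RR_letter 6 (by decide) (by decide) 0 2 0 1 2 0 1 (by decide +kernel) O7v.ck6
  · exact RR_letter 7 (by decide) (by decide) 0 1 0 1 1 1 1 (by decide +kernel) O7v.ck7
  · exact RR_letter 8 (by decide) (by decide) 0 1 0 1 1 0 1 (by decide +kernel) O7v.ck8

/-! ### Scalars -/

/-- points of the letters. -/
def xp : Fin 8 → Nat := ![2, 6, 16, 40, 88, 154, 43, 92]

/-- coefficients of the unit vectors. -/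
def cf : I7 → Fin 8 → ZMod 3
  | .inl _, k => (![2, 1, 0, 2, 1, 1, 0, 0] : Fin 8 → ZMod 3) k
  | .inr (.inl 0), k => (![0, 0, 0, 2, 0, 1, 1, 0] : Fin 8 → ZMod 3) k
  | .inr (.inl 1), k => (![2, 1, 1, 0, 0, 0, 0, 0] : Fin 8 → ZMod 3) k
  | .inr (.inl 2), k => (![0, 2, 0, 0, 0, 2, 1, 0] : Fin 8 → ZMod 3) k
  | .inr (.inr 0), k => (![2, 1, 0, 1, 0, 1, 1, 0] : Fin 8 → ZMod 3) k
  | .inr (.inr 1), k => (![2, 1, 0, 0, 0, 0, 0, 0] : Fin 8 → ZMod 3) k
  | .inr (.inr 2), k => (![2, 2, 0, 0, 0, 2, 1, 0] : Fin 8 → ZMod 3) k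

theorem cf_ok : ∀ j k : I7, (∑ m : Fin 8, cf j m * vecZ (O7v.vo (xp m)) k) = (if j = k then 1 else 0) := by
  decide +kernel

theorem xp_lt : ∀ m : Fin 8, xp m < 3510 := by decide

theorem xp_XX : ∀ m : Fin 8, O7v.vo (xp m) ≠ 0 := by decide +kernel

theorem adj_ne : ∀ p ∈ [((0 : Fin 8), (1 : Fin 8)), (1, 2), (2, 3), (3, 4), (4, 5), (2, 6), (6, 7)],
    QuadraticMap.polar (Cfsg.quadFormOdd 3 (ZMod 3)) (vecZ (O7v.vo (xp p.1))) (vecZ (O7v.vo (xp p.2))) ≠ 0 := by
  decide +kernel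

theorem mo_polar (M : OO) (u v : I7 → ZMod 3) :
    QuadraticMap.polar (Cfsg.quadFormOdd 3 (ZMod 3)) ((mo M).mulVec u) ((mo M).mulVec v) =
      QuadraticMap.polar (Cfsg.quadFormOdd 3 (ZMod 3)) u v := by
  have h : ∀ x, Cfsg.quadFormOdd 3 (ZMod 3) ((mo M).mulVec x) = Cfsg.quadFormOdd 3 (ZMod 3) x := by
    intro x
    have := M.2 x x
    rw [H17.coe_qOdd] at this
    exact this
  unfold QuadraticMap.polar
  rw [← Matrix.mulVec_add, h, h, h]

theorem scalar_of_RR (M : OO) (h : RR 1 M) : ∃ c : ZMod 3, mo M = c • 1 := by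
  have h1 : ∀ j : Fin 8, ∃ c : ZMod 3, c ≠ 0 ∧ (mo M).mulVec (vec ⟨xp j, xp_lt j⟩) = c • vec ⟨xp j, xp_lt j⟩ := by
    intro j
    obtain ⟨c, hc0, e⟩ := h ⟨xp j, xp_lt j⟩ (xp_XX j)
    exact ⟨c, hc0, by simpa using e⟩
  choose c hc0 hce using h1
  have adj : ∀ j k : Fin 8, QuadraticMap.polar (Cfsg.quadFormOdd 3 (ZMod 3)) (vecZ (O7v.vo (xp j)))
      (vecZ (O7v.vo (xp k))) ≠ 0 → c j = c k := by
    intro j k hjk
    have h2 := mo_polar M (vec ⟨xp j, xp_lt j⟩) (vec ⟨xp k, xp_lt k⟩)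
    rw [hce j, hce k, ← H17.coe_qOdd] at h2
    have e1 : QuadraticMap.polar (⇑Qf) (c j • vec ⟨xp j, xp_lt j⟩) (c k • vec ⟨xp k, xp_lt k⟩) =
        c j * c k * QuadraticMap.polar (⇑Qf) (vec ⟨xp j, xp_lt j⟩) (vec ⟨xp k, xp_lt k⟩) := by
      rw [QuadraticMap.polar_smul_left, QuadraticMap.polar_smul_right, smul_eq_mul, smul_eq_mul, mul_assoc]
    rw [e1] at h2
    have e2 : QuadraticMap.polar (⇑Qf) (vec ⟨xp j, xp_lt j⟩) (vec ⟨xp k, xp_lt k⟩) ≠ 0 := by
      rw [H17.coe_qOdd]; exact hjk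
    have e3 : c j * c k = 1 := by
      have h3 : (c j * c k - 1) * QuadraticMap.polar (⇑Qf) (vec ⟨xp j, xp_lt j⟩) (vec ⟨xp k, xp_lt k⟩) = 0 := by
        rw [sub_mul, h2, one_mul, sub_self]
      exact sub_eq_zero.1 ((mul_eq_zero.1 h3).resolve_right e2)
    have e4 : ∀ a b : ZMod 3, a * b = 1 → a = b := by decide
    exact e4 _ _ e3
  have a01 := adj 0 1 (adj_ne (0, 1) (by decide))
  have a12 := adj 1 2 (adj_ne (1, 2) (by decide))
  have a23 := adj 2 3 (adj_ne (2, 3) (by decide))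
  have a34 := adj 3 4 (adj_ne (3, 4) (by decide))
  have a45 := adj 4 5 (adj_ne (4, 5) (by decide))
  have a26 := adj 2 6 (adj_ne (2, 6) (by decide))
  have a67 := adj 6 7 (adj_ne (6, 7) (by decide))
  have all : ∀ j : Fin 8, c j = c 0 := by
    intro j
    fin_cases j
    · rfl
    · exact a01.symm
    · exact (a01.trans a12).symm
    · exact (a01.trans (a12.trans a23)).symm
    · exact (a01.trans (a12.trans (a23.trans a34))).symm
    · exact (a01.trans (a12.trans (a23.trans (a34.trans a45)))).symm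
    · exact (a01.trans (a12.trans a26)).symm
    · exact (a01.trans (a12.trans (a26.trans a67))).symm
  refine ⟨c 0, ?_⟩
  have hs : ∀ j : I7, (Pi.single j 1 : I7 → ZMod 3) = ∑ m : Fin 8, cf j m • vecZ (O7v.vo (xp m)) := by
    intro j
    funext k
    rw [Finset.sum_apply]
    simp only [Pi.smul_apply, smul_eq_mul]
    rw [cf_ok, Pi.single_apply]
    by_cases h : k = j
    · rw [if_pos h, if_pos h.symm]
    · rw [if_neg h, if_neg (fun h' => h h'.symm)]
  apply Matrix.ext_of_mulVec_single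
  intro j
  rw [hs j, Matrix.mulVec_sum, Matrix.mulVec_sum]
  apply Finset.sum_congr rfl
  intro m _
  rw [Matrix.mulVec_smul, Matrix.mulVec_smul, Matrix.smul_mulVec, Matrix.one_mulVec]
  have h9 := hce m
  rw [all m] at h9
  change (mo M).mulVec (vecZ (O7v.vo (xp m))) = c 0 • vecZ (O7v.vo (xp m)) at h9
  rw [h9]

/-! ### Perfectness of `⟨b, …, i⟩` -/

noncomputable def ab (x : KK) : Abelianization KK := Abelianization.of x

theorem ab_mul (x y : KK) : ab (x * y) = ab x * ab y := map_mul _ x y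
theorem ab_one : ab 1 = 1 := map_one _
theorem ab_pow (x : KK) (n : ℕ) : ab (x ^ n) = ab x ^ n := map_pow _ x n

theorem cube_comm {P : Type*} [CommGroup P] (x y : P) (hx : x * x = 1) (hy : y * y = 1) (h : (x * y) ^ 3 = 1) :
    x = y := by
  have h1 : (x * y) * (x * y) = 1 := by
    calc (x * y) * (x * y) = (x * x) * (y * y) := by simp only [mul_assoc, mul_left_comm, mul_comm]
      _ = 1 := by rw [hx, hy, one_mul]
  have h2 : x * y = 1 := eq_one_of_sq_of_odd (x * y) 1 h1 h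
  calc x = x * (y * y) := by rw [hy, mul_one]
    _ = y := by rw [← mul_assoc, h2, one_mul]

theorem KK_perfect : commutator KK = ⊤ := by
  have mem_of : ∀ x : KK, ab x = 1 → x ∈ commutator KK := by
    intro x hx
    exact (QuotientGroup.eq_one_iff x).1 hx
  let e : (l : Nat) → l ∈ [1, 2, 3, 4, 5, 6, 7, 8] → KK := fun l hl => ⟨s l, s_mem l hl⟩
  have sq : ∀ l (hl : l ∈ [1, 2, 3, 4, 5, 6, 7, 8]), ab (e l hl) * ab (e l hl) = 1 := by
    intro l hl
    rw [← ab_mul, ← ab_one]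
    congr 1
    exact Subtype.ext (s_sq l)
  have link : ∀ u v (hu : u ∈ [1, 2, 3, 4, 5, 6, 7, 8]) (hv : v ∈ [1, 2, 3, 4, 5, 6, 7, 8]),
      ([u, v], 3) ∈ Fi22at.rels2 → ab (e u hu) = ab (e v hv) := by
    intro u v hu hv h
    apply cube_comm _ _ (sq u hu) (sq v hv)
    rw [← ab_mul, ← ab_pow, ← ab_one]
    congr 1
    apply Subtype.ext
    have := base _ h
    simpa using this
  have h12 := link 1 2 (by decide) (by decide) (by decide)
  have h23 := link 2 3 (by decide) (by decide) (by decide)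
  have h34 := link 3 4 (by decide) (by decide) (by decide)
  have h45 := link 4 5 (by decide) (by decide) (by decide)
  have h56 := link 5 6 (by decide) (by decide) (by decide)
  have h37 := link 3 7 (by decide) (by decide) (by decide)
  have h78 := link 7 8 (by decide) (by decide) (by decide)
  have x1 : ab (e 1 (by decide)) = 1 := by
    have h1 : (e 1 (by decide) * e 2 (by decide) * e 3 (by decide) * e 4 (by decide) * e 5 (by decide) *
        e 6 (by decide) * e 7 (by decide)) ^ 9 = 1 := by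
      apply Subtype.ext
      have := base ([1, 2, 3, 4, 5, 6, 7], 9) (by decide)
      simp only [List.map_cons, List.map_nil, List.prod_cons, List.prod_nil, mul_one] at this
      have e1 : ∀ y : KK, (y : Fi22) = s 1 * (s 2 * (s 3 * (s 4 * (s 5 * (s 6 * s 7))))) →
          ((y ^ 9 : KK) : Fi22) = 1 := by
        intro y hy
        rw [Subgroup.coe_pow, hy]
        exact this
      exact e1 _ (by simp [e, mul_assoc])
    have h2 := congrArg ab h1
    rw [ab_pow, ab_one] at h2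
    simp only [ab_mul] at h2
    rw [← h56, ← h45, ← h34, ← h37, ← h23, ← h12, sq 1 (by decide), one_mul, sq 1 (by decide), one_mul,
      sq 1 (by decide), one_mul] at h2
    exact eq_one_of_sq_of_odd _ 4 (sq 1 (by decide)) h2
  have x2 : ab (e 2 (by decide)) = 1 := h12.symm.trans x1
  have x3 : ab (e 3 (by decide)) = 1 := h23.symm.trans x2
  have x4 : ab (e 4 (by decide)) = 1 := h34.symm.trans x3
  have x5 : ab (e 5 (by decide)) = 1 := h45.symm.trans x4
  have x6 : ab (e 6 (by decide)) = 1 := h56.symm.trans x5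
  have x7 : ab (e 7 (by decide)) = 1 := h37.symm.trans x3
  have x8 : ab (e 8 (by decide)) = 1 := h78.symm.trans x7
  have all : ∀ l (hl : l ∈ [1, 2, 3, 4, 5, 6, 7, 8]), ab (e l hl) = 1 := by
    intro l hl
    have hl' := hl
    simp only [List.mem_cons, List.not_mem_nil, or_false] at hl'
    rcases hl' with rfl | rfl | rfl | rfl | rfl | rfl | rfl | rfl
    · exact x1
    · exact x2
    · exact x3
    · exact x4
    · exact x5
    · exact x6
    · exact x7
    · exact x8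
  apply wordGroup_sub_top'
  intro w hw x hx
  have h1 : ∀ w ∈ Kgens, ∃ l ∈ [1, 2, 3, 4, 5, 6, 7, 8], w = [l] := by decide
  obtain ⟨l, hl, rfl⟩ := h1 w hw
  have hx2 : (x : Fi22) = s l := by simpa using hx
  have hx' : x = e l hl := Subtype.ext hx2
  rw [hx']
  exact mem_of _ (all l hl)

/-! ### The isomorphism -/

theorem RRc_tot : ∀ h : KK, ∃ M : commutator OO, RR h (M : OO) := by
  intro h
  have h1 : h ∈ commutator KK := by rw [KK_perfect]; exact Subgroup.mem_top h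
  let S : Subgroup KK :=
    { carrier := {h | ∃ M : commutator OO, RR h (M : OO)}
      one_mem' := ⟨1, RR_one⟩
      mul_mem' := by
        rintro a b ⟨M, hM⟩ ⟨M', hM'⟩
        exact ⟨M * M', RR_mul _ _ _ _ hM hM'⟩
      inv_mem' := by
        rintro a ⟨M, hM⟩
        exact ⟨M⁻¹, RR_inv _ _ hM⟩ }
  have h2 : commutator KK ≤ S := by
    rw [commutator_def, Subgroup.commutator_le]
    intro a _ b _
    obtain ⟨M, hM⟩ := RR_tot a
    obtain ⟨M', hM'⟩ := RR_tot b
    have h3 : ⁅M, M'⁆ ∈ commutator OO := Subgroup.commutator_mem_commutator (Subgroup.mem_top _) (Subgroup.mem_top _)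
    refine ⟨⟨⁅M, M'⁆, h3⟩, ?_⟩
    show RR ⁅a, b⁆ ⁅M, M'⁆
    rw [commutatorElement_def, commutatorElement_def]
    exact RR_mul _ _ _ _ (RR_mul _ _ _ _ (RR_mul _ _ _ _ hM hM') (RR_inv _ _ hM)) (RR_inv _ _ hM')
  exact h2 h1

theorem eq_one_of_RR_one (h : KK) (H : RR h 1) : h = 1 := by
  apply Subtype.ext
  apply ker351
  intro i hi
  obtain ⟨c, hc, e⟩ := H i hi
  rw [mo_one, Matrix.one_mulVec] at e
  have ck : ∀ j : Fin 3510, XX j → ckIo3 O7v.io (O7v.vo j) j = true := by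
    intro j hj
    have h := allR_zero _ _ O7v.ckIo j j.2
    have h2 : Nat.beq (O7v.vo j) 0 = false := by
      cases h3 : Nat.beq (O7v.vo j) 0
      · rfl
      · exact absurd (Nat.eq_of_beq_eq_true h3) hj
    rw [h2] at h
    exact h
  have := io_unique (ck i hi) (ck _ ((inv_XX h h.2 i).1 hi)) c hc e
  exact (Fin.ext this).symm

theorem center_of_scalar (M : OO) (h : ∃ c : ZMod 3, mo M = c • 1) (g : OO) : g * M = M * g := by
  obtain ⟨c, hc⟩ := h
  apply Subtype.ext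
  apply Units.ext
  change mo (g * M) = mo (M * g)
  rw [mo_mul, mo_mul, hc, Matrix.mul_smul, Matrix.smul_mul, Matrix.mul_one, Matrix.one_mul]

theorem mem_iff (h : KK) (M : commutator OO) (H : RR h (M : OO)) :
    M ∈ Subgroup.center (commutator OO) ↔ h ∈ (⊥ : Subgroup KK) := by
  constructor
  · intro hM
    rw [Subgroup.mem_bot]
    apply Subtype.ext
    apply triv_of_comm
    intro l hl
    obtain ⟨M', hM'⟩ := RRc_tot ⟨s l, s_mem l hl⟩
    have h1 : RR (h * ⟨s l, s_mem l hl⟩ * h⁻¹ * (⟨s l, s_mem l hl⟩ : KK)⁻¹)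
        ((M : OO) * M' * (M : OO)⁻¹ * (M' : OO)⁻¹) :=
      RR_mul _ _ _ _ (RR_mul _ _ _ _ (RR_mul _ _ _ _ H hM') (RR_inv _ _ H)) (RR_inv _ _ hM')
    have h2 : (M : OO) * M' * (M : OO)⁻¹ * (M' : OO)⁻¹ = 1 := by
      have h3 := Subgroup.mem_center_iff.1 hM M'
      have h4 : (M' : OO) * (M : OO) = (M : OO) * M' := congrArg Subtype.val h3
      rw [← h4]; group
    rw [h2] at h1
    have h5 := eq_one_of_RR_one _ h1
    have h6 : h * ⟨s l, s_mem l hl⟩ = ⟨s l, s_mem l hl⟩ * h := by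
      have h7 := mul_inv_eq_one.1 h5
      exact mul_inv_eq_iff_eq_mul.1 h7
    exact congrArg Subtype.val h6
  · intro hh
    rw [Subgroup.mem_bot] at hh
    rw [hh] at H
    rw [Subgroup.mem_center_iff]
    intro g
    exact Subtype.ext (center_of_scalar M (scalar_of_RR M H) g)

theorem card_KK : Nat.card KK = 4585351680 := by
  have h1 := Subgroup.card_mul_index KK
  rw [index_stab_K.1, card_fi22] at h1
  have key : ∀ a : Nat, a * 14080 = 64561751654400 → a = 4585351680 := fun a h => by omega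
  exact key _ h1

theorem card_PO : Nat.card (Cfsg.POmega (ZMod 3) (⇑Qf)) = 4585351680 := by
  have h := Cfsg.Agent.S0292.result (F := ZMod 3) (q := 3) (by decide) (by decide) 3 (by decide)
  rw [H17.coe_qOdd]
  have h2 : 3 ^ (3 ^ 2) * ∏ i ∈ Finset.range 3, (3 ^ (2 * (i + 1)) - 1) = 9170703360 := by decide
  rw [h2] at h
  have key : ∀ a : Nat, 2 * a = 9170703360 → a = 4585351680 := fun a h => by omega
  exact key _ h

theorem iso_O7 : Nonempty (KK ≃* Cfsg.POmega (ZMod 3) (Cfsg.quadFormOdd 3 (ZMod 3))) := by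
  haveI : Finite (Cfsg.POmega (ZMod 3) (⇑Qf)) := Nat.finite_of_card_ne_zero (by rw [card_PO]; decide)
  have h : Nonempty ((KK ⧸ (⊥ : Subgroup KK)) ≃* Cfsg.POmega (ZMod 3) (⇑Qf)) := by
    apply rel_iso (fun (h : KK) (M : commutator OO) => RR h (M : OO)) RR_one
      (fun _ _ _ _ h h' => RR_mul _ _ _ _ h h') (fun _ _ h => RR_inv _ _ h) RRc_tot
      (Subgroup.center (commutator OO))
      (fun M hM => by
        rw [Subgroup.mem_center_iff]
        intro g
        exact Subtype.ext (center_of_scalar M (scalar_of_RR M hM) g))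
      (⊥ : Subgroup KK) mem_iff
    have h2 : Nat.card (KK ⧸ (⊥ : Subgroup KK)) = 4585351680 := by
      rw [← card_KK]
      exact Nat.card_congr (QuotientGroup.quotientBot).toEquiv
    rw [h2]
    exact le_of_eq card_PO
  rw [H17.coe_qOdd] at h
  obtain ⟨e⟩ := h
  exact ⟨(QuotientGroup.quotientBot (G := KK)).symm.trans e⟩

end Cfsg.Agent.H8.Fi22O
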