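import Cfsg.Agent.H29.XS4

/-!
# A criterion for extraspecial groups of order 512
-/

set_option Elab.async false
set_option autoImplicit false
set_option linter.all false
set_option maxHeartbeats 1000000

namespace Cfsg.Agent.H8.XC

open Cfsg.Agent.H29

section

variable {G : Type*} [Group G] (z : G) (q : Fin 8 → G) (σ : Fin 8 → Fin 8) (hσ : ∀ i, σ (σ i) = i)
  (hz2 : z * z = 1) (hzq : ∀ i, q i * z = z * q i)
  (hB : ∀ i j, q (σ i) * q j = (if i = j then z else 1) * (q j * q (σ i)))
  (hsq : ∀ i, q i * q i = 1 ∨ q i * q i = z)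

include hzq in
theorem zc : ∀ x ∈ Subgroup.closure (Set.range q), x * z = z * x := by
  have h : Subgroup.closure (Set.range q) ≤ Subgroup.centralizer ({z} : Set G) := by
    rw [Subgroup.closure_le]
    rintro _ ⟨i, rfl⟩
    exact Subgroup.mem_centralizer_singleton_iff.2 (hzq i)
  intro x hx
  exact Subgroup.mem_centralizer_singleton_iff.1 (h hx)

include hz2 in
theorem inv_right_aux (x y : G) (hyz : y * z = z * y) (hxz : x * z = z * x)
    (h : x * y = y * x ∨ x * y = z * (y * x)) : x * y⁻¹ = y⁻¹ * x ∨ x * y⁻¹ = z * (y⁻¹ * x) := by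
  rcases h with h | h
  · left
    rw [eq_inv_mul_iff_mul_eq, ← mul_assoc, ← h, mul_inv_cancel_right]
  · right
    have hzi : z⁻¹ = z := inv_eq_of_mul_eq_one_right hz2
    have h1 : y * (x * y⁻¹) = z * x := by
      have : y * x = z * (x * y) := by rw [h, ← mul_assoc, hz2, one_mul]
      rw [← mul_assoc, this, mul_assoc, mul_inv_cancel_right]
    have h2 : x * y⁻¹ = y⁻¹ * (z * x) := by rw [← h1, inv_mul_cancel_left]
    rw [h2, ← mul_assoc, ← mul_assoc]
    congr 1
    have h3 : y⁻¹ * z * y = z := by rw [mul_assoc, ← hyz, inv_mul_cancel_left]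
    calc y⁻¹ * z = (y⁻¹ * z * y) * y⁻¹ := by rw [mul_inv_cancel_right]
      _ = z * y⁻¹ := by rw [h3]

theorem mul_right_aux (x y w : G) (hyz : y * z = z * y) (hz2 : z * z = 1)
    (h : x * y = y * x ∨ x * y = z * (y * x)) (h' : x * w = w * x ∨ x * w = z * (w * x)) :
    x * (y * w) = (y * w) * x ∨ x * (y * w) = z * ((y * w) * x) := by
  rcases h with h | h <;> rcases h' with h' | h'
  · left; rw [← mul_assoc, h, mul_assoc, h', ← mul_assoc]
  · right; rw [← mul_assoc, h, mul_assoc, h', ← mul_assoc y z, hyz]; simp only [mul_assoc]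
  · right; rw [← mul_assoc, h, mul_assoc, mul_assoc, h']; simp only [mul_assoc]
  · left
    rw [← mul_assoc, h, mul_assoc, mul_assoc, h', ← mul_assoc y z, hyz]
    simp only [← mul_assoc]
    rw [hz2, one_mul]

include hz2 in
theorem symm_aux (x y : G) (h : x * y = y * x ∨ x * y = z * (y * x)) : y * x = x * y ∨ y * x = z * (x * y) := by
  rcases h with h | h
  · left; exact h.symm
  · right; rw [h, ← mul_assoc, hz2, one_mul]

include hz2 hzq in
theorem right_all (x : G) (hxz : x * z = z * x) (h : ∀ j, x * q j = q j * x ∨ x * q j = z * (q j * x)) :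
    ∀ y ∈ Subgroup.closure (Set.range q), x * y = y * x ∨ x * y = z * (y * x) := by
  intro y hy
  have key : y ∈ Subgroup.closure (Set.range q) ∧ (x * y = y * x ∨ x * y = z * (y * x)) := by
    induction hy using Subgroup.closure_induction with
    | mem y hy =>
      obtain ⟨i, rfl⟩ := hy
      exact ⟨Subgroup.subset_closure ⟨i, rfl⟩, h i⟩
    | one => exact ⟨Subgroup.one_mem _, Or.inl (by rw [mul_one, one_mul])⟩
    | mul a b _ _ ha hb =>
      exact ⟨Subgroup.mul_mem _ ha.1 hb.1, mul_right_aux z x a b (zc z q hzq a ha.1) hz2 ha.2 hb.2⟩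
    | inv a _ ha =>
      exact ⟨Subgroup.inv_mem _ ha.1, inv_right_aux z hz2 x a (zc z q hzq a ha.1) hxz ha.2⟩
  exact key.2

include hσ hz2 hzq hB in
theorem comm_all : ∀ x ∈ Subgroup.closure (Set.range q), ∀ y ∈ Subgroup.closure (Set.range q),
    x * y = y * x ∨ x * y = z * (y * x) := by
  have h0 : ∀ i j, q i * q j = q j * q i ∨ q i * q j = z * (q j * q i) := by
    intro i j
    have h := hB (σ i) j
    rw [hσ] at h
    by_cases hc : σ i = j
    · rw [if_pos hc] at h; exact Or.inr h
    · rw [if_neg hc, one_mul] at h; exact Or.inl h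
  have h1 : ∀ i, ∀ x ∈ Subgroup.closure (Set.range q), q i * x = x * q i ∨ q i * x = z * (x * q i) := fun i =>
    right_all z q hz2 hzq (q i) (hzq i) (h0 i)
  intro x hx
  exact right_all z q hz2 hzq x (zc z q hzq x hx) fun j => symm_aux z hz2 _ _ (h1 j x hx)

include hσ hz2 hzq hB hsq in
theorem sq_all : ∀ x ∈ Subgroup.closure (Set.range q), x * x = 1 ∨ x * x = z := by
  intro x hx
  have key : x ∈ Subgroup.closure (Set.range q) ∧ (x * x = 1 ∨ x * x = z) := by
    induction hx using Subgroup.closure_induction with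
    | mem y hy =>
      obtain ⟨i, rfl⟩ := hy
      exact ⟨Subgroup.subset_closure ⟨i, rfl⟩, hsq i⟩
    | one => exact ⟨Subgroup.one_mem _, Or.inl (by rw [mul_one])⟩
    | mul a b _ _ ha hb =>
      refine ⟨Subgroup.mul_mem _ ha.1 hb.1, ?_⟩
      have hc := comm_all z q σ hσ hz2 hzq hB b hb.1 a ha.1
      have haz := zc z q hzq a ha.1
      have e : a * b * (a * b) = a * (b * a) * b := by simp only [mul_assoc]
      have e2 : ∀ t, t = 1 ∨ t = z → (a * a) * (b * b) = t → (t = 1 ∨ t = z) := fun t h _ => h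
      have e3 : (a * a) * (b * b) = 1 ∨ (a * a) * (b * b) = z := by
        rcases ha.2 with h1 | h1 <;> rcases hb.2 with h2 | h2 <;> rw [h1, h2]
        · left; rw [one_mul]
        · right; rw [one_mul]
        · right; rw [mul_one]
        · left; exact hz2
      rcases hc with h | h
      · rw [e, h, show a * (a * b) * b = (a * a) * (b * b) by simp only [mul_assoc]]
        exact e3
      · rw [e, h, show a * (z * (a * b)) * b = (a * z) * (a * (b * b)) by simp only [mul_assoc], haz,
          show z * a * (a * (b * b)) = z * ((a * a) * (b * b)) by simp only [mul_assoc]]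
        rcases e3 with h3 | h3 <;> rw [h3]
        · right; rw [mul_one]
        · left; exact hz2
    | inv a _ ha =>
      refine ⟨Subgroup.inv_mem _ ha.1, ?_⟩
      rw [← mul_inv_rev]
      rcases ha.2 with h | h <;> rw [h]
      · left; exact inv_one
      · right; exact inv_eq_of_mul_eq_one_right hz2
  exact key.2

include hσ hz2 hzq hB in
theorem cval (x : G) (hx : x ∈ Subgroup.closure (Set.range q)) (j : Fin 8) :
    x * q j * x⁻¹ * (q j)⁻¹ = 1 ∨ x * q j * x⁻¹ * (q j)⁻¹ = z := by
  rcases comm_all z q σ hσ hz2 hzq hB x hx (q j) (Subgroup.subset_closure ⟨j, rfl⟩) with h | h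
  · left; rw [h]; group
  · right; rw [h]; group

/-- the commutator map -/
noncomputable def Φ : Subgroup.closure (Set.range q) →* (Fin 8 → G) where
  toFun x j := (x : G) * q j * (x : G)⁻¹ * (q j)⁻¹
  map_one' := by
    funext j
    change (1 : G) * q j * (1 : G)⁻¹ * (q j)⁻¹ = 1
    rw [one_mul, inv_one, mul_one, mul_inv_cancel]
  map_mul' x y := by
    funext j
    change ((x : G) * y) * q j * ((x : G) * y)⁻¹ * (q j)⁻¹ = ((x : G) * q j * (x : G)⁻¹ * (q j)⁻¹) * ((y : G) * q j * (y : G)⁻¹ * (q j)⁻¹)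
    have hy := cval z q σ hσ hz2 hzq hB y y.2 j
    have hx := cval z q σ hσ hz2 hzq hB x x.2 j
    have hxz := zc z q hzq x x.2
    have e : ((x : G) * y) * q j * ((x : G) * y)⁻¹ * (q j)⁻¹ =
        (x : G) * ((y : G) * q j * (y : G)⁻¹ * (q j)⁻¹) * (q j * (x : G)⁻¹ * (q j)⁻¹) := by group
    rw [e]
    rcases hy with h | h <;> rw [h]
    · rw [mul_one, mul_one]; group
    · rw [hxz]
      have e2 : z * (x : G) * (q j * (x : G)⁻¹ * (q j)⁻¹) = z * ((x : G) * q j * (x : G)⁻¹ * (q j)⁻¹) := by group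
      rw [e2]
      rcases hx with h' | h' <;> rw [h']
      rw [mul_one, one_mul]

end

theorem crit {G : Type*} [Group G] [Finite G] (z : G) (q : Fin 8 → G) (σ : Fin 8 → Fin 8) (hσ : ∀ i, σ (σ i) = i)
    (hz1 : z ≠ 1) (hz2 : z * z = 1) (hzq : ∀ i, q i * z = z * q i)
    (hB : ∀ i j, q (σ i) * q j = (if i = j then z else 1) * (q j * q (σ i)))
    (hsq : ∀ i, q i * q i = 1 ∨ q i * q i = z) :
    512 ≤ Nat.card (Subgroup.closure (Set.range q)) ∧
      (Nat.card (Subgroup.closure (Set.range q)) ≤ 512 → XS (Subgroup.closure (Set.range q)) z) := by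
  classical
  set E := Subgroup.closure (Set.range q) with hE
  have hqE : ∀ i, q i ∈ E := fun i => Subgroup.subset_closure ⟨i, rfl⟩
  have hzE : z ∈ E := by
    have h := hB 0 0
    rw [if_pos rfl] at h
    have : z = q (σ 0) * q 0 * (q (σ 0))⁻¹ * (q 0)⁻¹ := by rw [h]; group
    rw [this]
    exact E.mul_mem (E.mul_mem (E.mul_mem (hqE _) (hqE _)) (E.inv_mem (hqE _))) (E.inv_mem (hqE _))
  have hzc := zc z q hzq
  set F := Φ z q σ hσ hz2 hzq hB with hF
  have hFv : ∀ (x : E) (j : Fin 8), F x j = (x : G) * q j * (x : G)⁻¹ * (q j)⁻¹ := fun x j => rfl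
  -- the range
  have hr : ∀ s : Finset (Fin 8), (fun j => if j ∈ s then z else 1) ∈ F.range := by
    intro s
    induction s using Finset.induction_on with
    | empty =>
      refine ⟨1, ?_⟩
      rw [map_one]
      funext j
      simp
    | insert i s hi ih =>
      obtain ⟨x, hx⟩ := ih
      refine ⟨⟨q (σ i), hqE _⟩ * x, ?_⟩
      rw [map_mul, hx]
      funext j
      rw [Pi.mul_apply, hFv]
      have h := hB i j
      change q (σ i) * q j * (q (σ i))⁻¹ * (q j)⁻¹ * (if j ∈ s then z else 1) = if j ∈ insert i s then z else 1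
      have h2 : q (σ i) * q j * (q (σ i))⁻¹ * (q j)⁻¹ = if i = j then z else 1 := by rw [h]; group
      rw [h2]
      by_cases hij : i = j
      · subst hij
        rw [if_pos rfl, if_neg hi, mul_one, if_pos (Finset.mem_insert_self _ _)]
      · rw [if_neg hij, one_mul]
        by_cases hjs : j ∈ s
        · rw [if_pos hjs, if_pos (Finset.mem_insert_of_mem hjs)]
        · rw [if_neg hjs, if_neg]
          intro hm
          rcases Finset.mem_insert.1 hm with h3 | h3
          · exact hij h3.symm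
          · exact hjs h3
  haveI : Finite (Fin 8 → G) := inferInstance
  have hrc : 256 ≤ Nat.card F.range := by
    have h1 : Nat.card (Finset (Fin 8)) = 256 := by
      rw [Nat.card_eq_fintype_card, Fintype.card_finset, Fintype.card_fin]; norm_num
    rw [← h1]
    apply Nat.card_le_card_of_injective (fun s : Finset (Fin 8) => (⟨_, hr s⟩ : F.range))
    intro s t hst
    have h2 : (fun j => if j ∈ s then z else 1) = (fun j => if j ∈ t then z else (1 : G)) := congrArg Subtype.val hst
    ext j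
    have h3 := congrFun h2 j
    by_cases hs : j ∈ s <;> by_cases ht : j ∈ t
    · simp [hs, ht]
    · simp only [hs, ht, if_true, if_false] at h3; exact absurd h3 hz1
    · simp only [hs, ht, if_true, if_false] at h3; exact absurd h3.symm hz1
    · simp [hs, ht]
  have hkm : ∀ x : E, x ∈ F.ker ↔ ∀ j, (x : G) * q j = q j * x := by
    intro x
    rw [MonoidHom.mem_ker, funext_iff]
    refine forall_congr' fun j => ?_
    rw [hFv, Pi.one_apply, mul_inv_eq_one, mul_inv_eq_iff_eq_mul]
  have hzk : (⟨z, hzE⟩ : E) ∈ F.ker := (hkm _).2 fun j => (hzq j).symm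
  have hkc : 2 ≤ Nat.card F.ker := by
    have hne : (⟨⟨z, hzE⟩, hzk⟩ : F.ker) ≠ 1 := by
      intro h
      apply hz1
      exact congrArg (fun x : F.ker => ((x : E) : G)) h
    haveI : Nontrivial F.ker := ⟨⟨_, _, hne⟩⟩
    exact Finite.one_lt_card
  have hmul : Nat.card E = Nat.card F.range * Nat.card F.ker := by
    rw [Subgroup.card_eq_card_quotient_mul_card_subgroup F.ker, Nat.card_congr (QuotientGroup.quotientKerEquivRange F).toEquiv]
  refine ⟨by rw [hmul]; nlinarith, ?_⟩
  intro hle
  have hk2 : Nat.card F.ker = 2 := by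
    rw [hmul] at hle
    by_contra hne
    have h3 : 3 ≤ Nat.card F.ker := by omega
    nlinarith
  have cent : ∀ x ∈ E, (∀ y ∈ E, x * y = y * x) → x = 1 ∨ x = z := by
    intro x hx h
    by_contra hc
    push Not at hc
    have hxk : (⟨x, hx⟩ : E) ∈ F.ker := (hkm _).2 fun j => h _ (hqE j)
    have e1 : (⟨⟨z, hzE⟩, hzk⟩ : F.ker) ≠ 1 := fun h => hz1 (congrArg (fun x : F.ker => ((x : E) : G)) h)
    have e2 : (⟨⟨x, hx⟩, hxk⟩ : F.ker) ≠ 1 := fun h => hc.1 (congrArg (fun x : F.ker => ((x : E) : G)) h)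
    obtain ⟨y, _, hu⟩ := (Nat.card_eq_two_iff' (1 : F.ker)).1 hk2
    have e3 := (hu _ e2).trans (hu _ e1).symm
    exact hc.2 (congrArg (fun x : F.ker => ((x : E) : G)) e3)
  have hall := comm_all z q σ hσ hz2 hzq hB
  have hsqa := sq_all z q σ hσ hz2 hzq hB hsq
  apply XS.mk'
  · intro x
    refine ⟨2, ?_⟩
    apply Subtype.ext
    change (x : G) ^ (2 ^ 2) = 1
    have : (x : G) ^ (2 ^ 2) = (x * x) * (x * x) := by rw [show (2 : ℕ) ^ 2 = 2 * 2 from rfl, pow_mul, pow_two, pow_two]
    rw [this]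
    rcases hsqa x x.2 with h | h <;> rw [h]
    · rw [one_mul]
    · exact hz2
  · exact hz1
  · exact hz2
  · exact hzE
  · exact hzc
  · exact cent
  · exact hall
  · exact hsqa
  · refine ⟨q (σ 0), hqE _, q 0, hqE _, ?_⟩
    intro h
    have h2 := hB 0 0
    rw [if_pos rfl, h] at h2
    exact hz1 (mul_right_cancel (by rw [one_mul]; exact h2.symm))

end Cfsg.Agent.H8.XC
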