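import Cfsg.Agent.H8.Sp6Low
import Cfsg.Agent.H8.ExtraCrit
import Cfsg.Prelude.Def_Solvable

/-!
# Involution centralisers `2^{1+8}.Sp(6,2)` from affine labels
-/

set_option Elab.async false
set_option autoImplicit false
set_option linter.all false
set_option maxHeartbeats 1000000

namespace Cfsg.Agent.H8.Aff

open Matrix Cfsg.Agent.H8.Sp6

section

variable {G : Type*} [Group G] {X : Type*} (A : X → G → X) (hA1 : ∀ x, A x 1 = x)
  (hAm : ∀ x g h, A x (g * h) = A (A x g) h) {m : ℕ} (f : Fin m → X) (lab : Fin m → V6)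

def RA (g : G) (M : SP) : Prop := ∃ c : V6, ∀ i, ∃ j, A (f i) g = f j ∧ lab j = (lab i) ᵥ* (M : Mt6) + c

include hAm in
theorem RA.mul {g h : G} {M N : SP} (h1 : RA A f lab g M) (h2 : RA A f lab h N) : RA A f lab (g * h) (M * N) := by
  obtain ⟨c, hc⟩ := h1
  obtain ⟨d, hd⟩ := h2
  refine ⟨c ᵥ* (N : Mt6) + d, fun i => ?_⟩
  obtain ⟨j, hj1, hj2⟩ := hc i
  obtain ⟨k, hk1, hk2⟩ := hd j
  refine ⟨k, by rw [hAm, hj1, hk1], ?_⟩
  rw [hk2, hj2, Matrix.add_vecMul, Matrix.vecMul_vecMul, Submonoid.coe_mul, add_assoc]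

include hA1 in
theorem RA.one : RA A f lab (1 : G) 1 :=
  ⟨0, fun i => ⟨i, hA1 _, by rw [Submonoid.coe_one, Matrix.vecMul_one, add_zero]⟩⟩

theorem RA.unique (hf : Function.Injective f)
    (hsp : ∀ M N : Mt6, (∀ i j, (lab i - lab j) ᵥ* M = (lab i - lab j) ᵥ* N) → M = N)
    {g : G} {M N : SP} (h1 : RA A f lab g M) (h2 : RA A f lab g N) : M = N := by
  obtain ⟨c, hc⟩ := h1
  obtain ⟨d, hd⟩ := h2
  apply Subtype.ext
  apply hsp
  intro i j
  have key : ∀ i, (lab i) ᵥ* (M : Mt6) + c = lab i ᵥ* (N : Mt6) + d := by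
    intro i
    obtain ⟨a, ha1, ha2⟩ := hc i
    obtain ⟨b, hb1, hb2⟩ := hd i
    have : a = b := hf (ha1.symm.trans hb1)
    rw [← ha2, ← hb2, this]
  rw [Matrix.sub_vecMul, Matrix.sub_vecMul]
  have h1 := key i
  have h2 := key j
  calc lab i ᵥ* (M : Mt6) - lab j ᵥ* (M : Mt6) = (lab i ᵥ* (M : Mt6) + c) - (lab j ᵥ* (M : Mt6) + c) := by abel
    _ = (lab i ᵥ* (N : Mt6) + d) - (lab j ᵥ* (N : Mt6) + d) := by rw [h1, h2]
    _ = _ := by abel

include hA1 hAm in
theorem exists_of_closure [Finite G] (S : Set G) (h : ∀ g ∈ S, ∃ M, RA A f lab g M) :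
    ∀ g ∈ Subgroup.closure S, ∃ M, RA A f lab g M := by
  have hpow : ∀ (g : G) (M : SP), RA A f lab g M → ∀ k : ℕ, RA A f lab (g ^ k) (M ^ k) := by
    intro g M hg k
    induction k with
    | zero => rw [pow_zero, pow_zero]; exact RA.one A hA1 f lab
    | succ k ih => rw [pow_succ, pow_succ]; exact ih.mul A hAm f lab hg
  intro g hg
  induction hg using Subgroup.closure_induction with
  | mem x hx => exact h x hx
  | one => exact ⟨1, RA.one A hA1 f lab⟩
  | mul x y _ _ hx hy =>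
    obtain ⟨M, hM⟩ := hx
    obtain ⟨N, hN⟩ := hy
    exact ⟨M * N, hM.mul A hAm f lab hN⟩
  | inv x _ hx =>
    obtain ⟨M, hM⟩ := hx
    have e : x⁻¹ = x ^ (orderOf x - 1) := by
      rw [eq_comm, ← mul_eq_one_iff_eq_inv, ← pow_succ, Nat.sub_add_cancel (orderOf_pos x), pow_orderOf_eq_one]
    rw [e]
    exact ⟨_, hpow x M hM _⟩

include hA1 hAm in
theorem main [Finite G] (hf : Function.Injective f)
    (hsp : ∀ M N : Mt6, (∀ i j, (lab i - lab j) ᵥ* M = (lab i - lab j) ᵥ* N) → M = N)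
    (z c1 c2 : G) (q : Fin 8 → G) (σ : Fin 8 → Fin 8) (hσ : ∀ i, σ (σ i) = i)
    (hz1 : z ≠ 1) (hz2 : z * z = 1) (hzq : ∀ i, q i * z = z * q i)
    (hB : ∀ i j, q (σ i) * q j = (if i = j then z else 1) * (q j * q (σ i)))
    (hsq : ∀ i, q i * q i = 1 ∨ q i * q i = z)
    (h1 : RA A f lab c1 M1) (h2 : RA A f lab c2 M2) (hq : ∀ i, RA A f lab (q i) 1)
    (hc1 : c1 * z = z * c1) (hc2 : c2 * z = z * c2)
    (hcard : Nat.card (Subgroup.centralizer ({z} : Set G)) ≤ 743178240) :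
    orderOf z = 2 ∧ Cfsg.IsExtraspecial 2 (Cfsg.pCore 2 ↥(Subgroup.centralizer ({z} : Set G))) ∧
      Nat.card (Cfsg.pCore 2 ↥(Subgroup.centralizer ({z} : Set G))) = 2 ^ 9 ∧
      Nonempty (↥(Subgroup.centralizer ({z} : Set G)) ⧸ Cfsg.pCore 2 ↥(Subgroup.centralizer ({z} : Set G)) ≃*
        Matrix.symplecticGroup (Fin 3) (ZMod 2)) := by
  classical
  refine ⟨orderOf_eq_prime (by rw [pow_two]; exact hz2) hz1, ?_⟩
  set C := Subgroup.centralizer ({z} : Set G) with hC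
  set H := Subgroup.closure (({c1, c2} : Set G) ∪ Set.range q) with hH
  have hHC : H ≤ C := by
    rw [hH, Subgroup.closure_le]
    rintro g ((rfl | rfl) | ⟨i, rfl⟩)
    · exact Subgroup.mem_centralizer_singleton_iff.2 hc1
    · exact Subgroup.mem_centralizer_singleton_iff.2 hc2
    · exact Subgroup.mem_centralizer_singleton_iff.2 (hzq i)
  have hex : ∀ g ∈ H, ∃ M, RA A f lab g M := by
    apply exists_of_closure A hA1 hAm f lab
    rintro g ((rfl | rfl) | ⟨i, rfl⟩)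
    · exact ⟨M1, h1⟩
    · exact ⟨M2, h2⟩
    · exact ⟨1, hq i⟩
  have huniq : ∀ {g : G} {M N : SP}, RA A f lab g M → RA A f lab g N → M = N := fun h h' => RA.unique A f lab hf hsp h h'
  let ψ : H →* SP :=
    { toFun := fun g => (hex g g.2).choose
      map_one' := huniq (hex 1 H.one_mem).choose_spec (RA.one A hA1 f lab)
      map_mul' := fun g h => huniq (hex _ (H.mul_mem g.2 h.2)).choose_spec
        ((hex g g.2).choose_spec.mul A hAm f lab (hex h h.2).choose_spec) }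
  have hψ : ∀ (g : G) (hg : g ∈ H) (M : SP), RA A f lab g M → ψ ⟨g, hg⟩ = M := fun g hg M h => huniq (hex g hg).choose_spec h
  have hc1m : c1 ∈ H := Subgroup.subset_closure (Or.inl (Or.inl rfl))
  have hc2m : c2 ∈ H := Subgroup.subset_closure (Or.inl (Or.inr rfl))
  have hqm : ∀ i, q i ∈ H := fun i => Subgroup.subset_closure (Or.inr ⟨i, rfl⟩)
  have hrt : ψ.range = ⊤ := by
    rw [eq_top_iff, ← M_top, Subgroup.closure_le]
    rintro M (rfl | rfl)
    · exact ⟨⟨c1, hc1m⟩, hψ _ _ _ h1⟩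
    · exact ⟨⟨c2, hc2m⟩, hψ _ _ _ h2⟩
  have hsurj : Function.Surjective ψ := MonoidHom.range_eq_top.1 hrt
  have hzm : z ∈ H := by
    have h := hB 0 0
    rw [if_pos rfl] at h
    have : z = q (σ 0) * q 0 * (q (σ 0))⁻¹ * (q 0)⁻¹ := by rw [h]; group
    rw [this]
    exact H.mul_mem (H.mul_mem (H.mul_mem (hqm _) (hqm _)) (H.inv_mem (hqm _))) (H.inv_mem (hqm _))
  obtain ⟨x1, x2⟩ := XC.crit (⟨z, hzm⟩ : H) (fun i => (⟨q i, hqm i⟩ : H)) σ hσ
    (fun h => hz1 (congrArg Subtype.val h)) (Subtype.ext hz2) (fun i => Subtype.ext (hzq i))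
    (by
      intro i j
      apply Subtype.ext
      have h := hB i j
      by_cases hij : i = j
      · rw [if_pos hij] at h ⊢; exact h
      · rw [if_neg hij] at h ⊢; exact h)
    (fun i => (hsq i).imp (fun h => Subtype.ext h) (fun h => Subtype.ext h))
  set E : Subgroup H := Subgroup.closure (Set.range fun i => (⟨q i, hqm i⟩ : H)) with hE
  have hEk : E ≤ ψ.ker := by
    rw [hE, Subgroup.closure_le]
    rintro _ ⟨i, rfl⟩
    exact MonoidHom.mem_ker.2 (hψ _ _ _ (hq i))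
  have hEc : Nat.card E ≤ Nat.card ψ.ker := Subgroup.card_le_of_le hEk
  have hmul : Nat.card H = 1451520 * Nat.card ψ.ker := by
    rw [Subgroup.card_eq_card_quotient_mul_card_subgroup ψ.ker,
      Nat.card_congr (QuotientGroup.quotientKerEquivOfSurjective ψ hsurj).toEquiv, SP_card]
  have hHle : Nat.card H ≤ Nat.card C := Subgroup.card_le_of_le hHC
  have hk : Nat.card ψ.ker = 512 := by omega
  have hHeq : H = C := Subgroup.eq_of_le_of_card_ge hHC (by omega)
  have hEeq : E = ψ.ker := Subgroup.eq_of_le_of_card_ge hEk (by omega)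
  have hxs := x2 (by omega)
  have hcore : Cfsg.pCore 2 H = ψ.ker := by
    apply le_antisymm
    · apply sSup_le
      rintro N ⟨hN, hp⟩
      haveI := hN
      haveI : (N.map ψ).Normal := Subgroup.Normal.map hN ψ hsurj
      have := no_two (N.map ψ) (hp.map ψ)
      exact (Subgroup.map_eq_bot_iff N).1 this
    · apply le_sSup
      refine ⟨inferInstance, ?_⟩
      exact IsPGroup.of_card (n := 9) (by rw [hk]; norm_num)
  rw [← hHeq]
  refine ⟨?_, ?_, ?_⟩
  · rw [hcore, ← hEeq]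
    exact hxs.isExtraspecial
  · rw [hcore, hk]; norm_num
  · exact ⟨(QuotientGroup.quotientMulEquivOfEq hcore).trans (QuotientGroup.quotientKerEquivOfSurjective ψ hsurj)⟩

end

end Cfsg.Agent.H8.Aff
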