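import Cfsg.Agent.H8.RelGroup

/-!
# Central extensions of groups generated by involutions (Coxeter-type presentations)
-/

set_option autoImplicit false
set_option linter.all false
set_option maxRecDepth 100000
set_option maxHeartbeats 400000

namespace Cfsg.Agent.H8.CE

section central

variable {Γ G : Type*} [Group Γ] [Group G] (σ : Γ →* G) (hc : σ.ker ≤ Subgroup.center Γ)

include hc in
theorem cen (x : Γ) (h : σ x = 1) (g : Γ) : g * x = x * g :=
  Subgroup.mem_center_iff.1 (hc (MonoidHom.mem_ker.2 h)) g

include hc in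
theorem conj_congr {g g' : Γ} (h : σ g = σ g') (x : Γ) : g * x * g⁻¹ = g' * x * g'⁻¹ := by
  have h1 : σ (g⁻¹ * g') = 1 := by rw [map_mul, map_inv, h]; simp
  have h2 := cen σ hc _ h1 x
  have e : g' = g * (g⁻¹ * g') := by group
  rw [e]
  generalize g⁻¹ * g' = a at h2
  calc g * x * g⁻¹ = g * (x * a) * a⁻¹ * g⁻¹ := by group
    _ = g * (a * x) * a⁻¹ * g⁻¹ := by rw [h2]
    _ = g * a * x * (g * a)⁻¹ := by group

include hc in
/-- choose a lift of `y` which is braided with the lift `X`. -/
theorem lift_edge (hs : Function.Surjective σ) (X : Γ) (x y : G) (hX : σ X = x) (hx : x * x = 1) (hy : y * y = 1)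
    (h3 : (x * y) ^ 3 = 1) : ∃ Y, σ Y = y ∧ X * Y * X = Y * X * Y := by
  obtain ⟨Y0, hY0⟩ := hs y
  have hσ : σ ((X * Y0) * X * (X * Y0)⁻¹) = y := by
    simp only [map_mul, map_inv, hX, hY0, mul_inv_rev]
    have hx' : x⁻¹ = x := (eq_inv_of_mul_eq_one_left hx).symm
    have hy' : y⁻¹ = y := (eq_inv_of_mul_eq_one_left hy).symm
    rw [hx', hy']
    have h4 : x * y * (x * y) * (x * y) = 1 := by rw [← h3, pow_succ, pow_two]
    calc x * y * x * (y * x) = (x * y * (x * y) * (x * y)) * y⁻¹ * 1 := by
          rw [hy']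
          simp only [mul_assoc, hy, mul_one]
      _ = y := by rw [h4, hy']; simp
  refine ⟨(X * Y0) * X * (X * Y0)⁻¹, hσ, ?_⟩
  set Y := (X * Y0) * X * (X * Y0)⁻¹ with hYdef
  have h5 : Y = (X * Y) * X * (X * Y)⁻¹ := by
    conv_lhs => rw [hYdef]
    apply conj_congr σ hc
    rw [map_mul, map_mul, hY0, hσ]
  calc X * Y * X = ((X * Y) * X * (X * Y)⁻¹) * (X * Y) := by group
    _ = Y * (X * Y) := by rw [← h5]
    _ = Y * X * Y := by group

include hc in
theorem sq_braid (X Y : Γ) (h : X * Y * X = Y * X * Y) (hx : σ X * σ X = 1) : X * X = Y * Y := by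
  have h1 : X * Y * X = Y * (X * Y) := by rw [h]; group
  have e : Y = (X * Y) * X * (X * Y)⁻¹ := by rw [h1]; group
  have h2 := cen σ hc (X * X) (by rw [map_mul, hx]) (X * Y)
  have h3 : Y * Y = (X * Y) * (X * X) * (X * Y)⁻¹ := by
    calc Y * Y = ((X * Y) * X * (X * Y)⁻¹) * ((X * Y) * X * (X * Y)⁻¹) := by rw [← e]
      _ = (X * Y) * (X * X) * (X * Y)⁻¹ := by group
  rw [h3, h2]; group

/-- commutator. -/
def K (x y : Γ) : Γ := x * y * x⁻¹ * y⁻¹

theorem K_mul (x y : Γ) : x * y = K x y * (y * x) := by unfold K; group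

theorem K_inv (x y : Γ) : (K x y)⁻¹ = K y x := by unfold K; group

theorem comm_of_K (x y : Γ) (h : K x y = 1) : x * y = y * x := by
  rw [K_mul x y, h, one_mul]

theorem K_of_comm (x y : Γ) (h : x * y = y * x) : K x y = 1 := by
  unfold K; rw [h]; group

theorem K_ker (x y : Γ) (h : σ x * σ y = σ y * σ x) : σ (K x y) = 1 := by
  unfold K; rw [map_mul, map_mul, map_mul, map_inv, map_inv, h]; group

include hc in
theorem K_congr (x y y' : Γ) (h : σ y = σ y') : K x y = K x y' := by
  have h1 := conj_congr σ hc h x⁻¹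
  unfold K
  calc x * y * x⁻¹ * y⁻¹ = x * (y * x⁻¹ * y⁻¹) := by group
    _ = x * (y' * x⁻¹ * y'⁻¹) := by rw [h1]
    _ = x * y' * x⁻¹ * y'⁻¹ := by group

include hc in
theorem K_step (x w y : Γ) (hb : x * w * x = w * x * w) (hx : σ x * σ y = σ y * σ x)
    (hw : σ w * σ y = σ y * σ w) : K x y = K w y := by
  have h1 : (x * w) * x * (x * w)⁻¹ = w := by
    rw [hb]; group
  have hk := cen σ hc _ (K_ker σ x y hx) (x * w)
  have h2 : σ ((x * w) * y * (x * w)⁻¹) = σ y := by
    rw [map_mul, map_mul, map_inv, map_mul]
    have : σ x * σ w * σ y = σ y * (σ x * σ w) := by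
      rw [mul_assoc, hw, ← mul_assoc, hx, mul_assoc]
    rw [this]; group
  have e : K x y = K ((x * w) * x * (x * w)⁻¹) ((x * w) * y * (x * w)⁻¹) := by
    have : K ((x * w) * x * (x * w)⁻¹) ((x * w) * y * (x * w)⁻¹) = (x * w) * K x y * (x * w)⁻¹ := by
      unfold K; group
    rw [this, hk]; group
  rw [e, h1]
  exact K_congr σ hc w _ _ h2

include hc in
theorem K_sq (x y : Γ) (hx : σ x * σ x = 1) (h : σ x * σ y = σ y * σ x) : K x y * K x y = 1 := by
  have hk := cen σ hc _ (K_ker σ x y h)
  have h2 := cen σ hc (x * x) (by rw [map_mul, hx]) y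
  have e1 : x * (x * y) = K x y * K x y * (y * (x * x)) := by
    calc x * (x * y) = x * (K x y * (y * x)) := by rw [← K_mul]
      _ = (x * K x y) * (y * x) := by group
      _ = (K x y * x) * (y * x) := by rw [hk]
      _ = K x y * (x * y) * x := by group
      _ = K x y * (K x y * (y * x)) * x := by rw [← K_mul]
      _ = K x y * K x y * (y * (x * x)) := by group
  rw [h2] at e1
  have e2 : x * (x * y) = x * x * y := by group
  rw [e2] at e1
  have e3 : K x y * K x y = (x * x * y) * (x * x * y)⁻¹ := by
    nth_rewrite 1 [e1]; group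
  rw [e3]; group

end central

section words

variable {Γ : Type*} [Group Γ]

/-- commuting up to a central factor. -/
theorem prod_comm_central (z y : Γ) (hz : ∀ g, g * z = z * g) (L : List Γ)
    (h : ∀ x ∈ L, x * y = z * (y * x)) : L.prod * y = z ^ L.length * (y * L.prod) := by
  induction L with
  | nil => simp
  | cons x L ih =>
    have h1 := ih (fun x hx => h x (List.mem_cons_of_mem _ hx))
    have h2 := h x (List.mem_cons_self ..)
    have hzp : ∀ g, g * z ^ L.length = z ^ L.length * g := fun g => (Commute.pow_right (hz g) _)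
    rw [List.prod_cons, List.length_cons, pow_succ]
    calc x * L.prod * y = x * (L.prod * y) := by group
      _ = x * (z ^ L.length * (y * L.prod)) := by rw [h1]
      _ = (x * z ^ L.length) * (y * L.prod) := by group
      _ = (z ^ L.length * x) * (y * L.prod) := by rw [hzp]
      _ = z ^ L.length * (x * y) * L.prod := by group
      _ = z ^ L.length * (z * (y * x)) * L.prod := by rw [h2]
      _ = z ^ L.length * z * (y * (x * L.prod)) := by group

/-- scaling the letters by a central element. -/
theorem prod_scale (t : Nat → Γ) (e : Γ) (he : ∀ g, g * e = e * g) (w : List Nat) :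
    (w.map (fun l => t l * e)).prod = (w.map t).prod * e ^ w.length := by
  induction w with
  | nil => simp
  | cons l w ih =>
    rw [List.map_cons, List.prod_cons, ih, List.map_cons, List.prod_cons, List.length_cons, pow_succ]
    have h1 : (w.map t).prod * e = e * (w.map t).prod := he _
    have h2 : e ^ w.length * e = e * e ^ w.length := (he _)
    calc t l * e * ((w.map t).prod * e ^ w.length) = t l * (e * (w.map t).prod) * e ^ w.length := by group
      _ = t l * ((w.map t).prod * e) * e ^ w.length := by rw [h1]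
      _ = t l * (w.map t).prod * (e * e ^ w.length) := by group
      _ = t l * (w.map t).prod * (e ^ w.length * e) := by rw [h2]

theorem prod_scale' (t t' : Nat → Γ) (e : Γ) (he : ∀ g, g * e = e * g) (w : List Nat)
    (h : ∀ l ∈ w, t' l = t l * e) :
    (w.map t').prod = (w.map t).prod * e ^ w.length := by
  rw [← prod_scale t e he w]
  congr 1
  exact List.map_congr_left h

/-- inverse of a word when all letters have the same central square. -/
theorem prod_inv_sq (t : Nat → Γ) (c : Γ) (hcc : ∀ g, g * c = c * g) (w : List Nat)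
    (h : ∀ l ∈ w, t l * t l = c) : (w.map t).prod * (w.reverse.map t).prod = c ^ w.length := by
  induction w with
  | nil => simp
  | cons l w ih =>
    have h1 := ih (fun x hx => h x (List.mem_cons_of_mem _ hx))
    have h2 := h l (List.mem_cons_self ..)
    have hcp : t l * c ^ w.length = c ^ w.length * t l := (Commute.pow_right (hcc (t l)) _)
    rw [List.reverse_cons, List.map_append, List.prod_append, List.map_cons, List.prod_cons, List.map_singleton,
      List.prod_singleton, List.length_cons, pow_succ]
    calc t l * (w.map t).prod * ((w.reverse.map t).prod * t l)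
        = t l * ((w.map t).prod * (w.reverse.map t).prod) * t l := by group
      _ = t l * c ^ w.length * t l := by rw [h1]
      _ = c ^ w.length * t l * t l := by rw [hcp]
      _ = c ^ w.length * (t l * t l) := by group
      _ = c ^ w.length * c := by rw [h2]

/-- one source rotation. -/
def rotK (C : Nat → Nat → Bool) (w : List Nat) (k : Nat) : Option (List Nat) :=
  match w.drop k with
  | [] => none
  | x :: v => if (w.take k).all (C x) then some (w.take k ++ v ++ [x]) else none

def rots (C : Nat → Nat → Bool) : List Nat → List Nat → Option (List Nat)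
  | w, [] => some w
  | w, k :: ks => match rotK C w k with
    | none => none
    | some w' => rots C w' ks

theorem rotK_sound (t : Nat → Γ) (C : Nat → Nat → Bool) (hC : ∀ x y, C x y = true → t x * t y = t y * t x)
    (w w' : List Nat) (k : Nat) (h : rotK C w k = some w') :
    ∃ g : Γ, (w'.map t).prod = g⁻¹ * (w.map t).prod * g := by
  unfold rotK at h
  split at h
  · exact absurd h (by simp)
  · rename_i x v hd
    by_cases h1 : (w.take k).all (C x) = true
    · rw [if_pos h1, Option.some.injEq] at h
      refine ⟨t x, ?_⟩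
      have hw : w = w.take k ++ x :: v := by rw [← hd, List.take_append_drop]
      have hcm : t x * ((w.take k).map t).prod = ((w.take k).map t).prod * t x := by
        have : Commute (t x) (((w.take k).map t).prod) := by
          apply Commute.list_prod_right
          intro y hy
          obtain ⟨l, hl, rfl⟩ := List.mem_map.1 hy
          exact hC x l (List.all_eq_true.1 h1 l hl)
        exact this
      rw [← h]
      conv_rhs => rw [hw]
      simp only [List.map_append, List.map_cons, List.map_nil, List.prod_append, List.prod_cons, List.prod_nil, mul_one]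
      generalize ((w.take k).map t).prod = u at hcm
      calc u * (v.map t).prod * t x = (t x)⁻¹ * (t x * u) * (v.map t).prod * t x := by group
        _ = (t x)⁻¹ * (u * t x) * (v.map t).prod * t x := by rw [hcm]
        _ = (t x)⁻¹ * (u * (t x * (v.map t).prod)) * t x := by group
    · rw [if_neg h1] at h
      exact absurd h (by simp)

theorem rots_sound (t : Nat → Γ) (C : Nat → Nat → Bool) (hC : ∀ x y, C x y = true → t x * t y = t y * t x)
    (ks : List Nat) : ∀ w w', rots C w ks = some w' → ∃ g : Γ, (w'.map t).prod = g⁻¹ * (w.map t).prod * g := by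
  induction ks with
  | nil =>
    intro w w' h
    unfold rots at h
    rw [Option.some.injEq] at h
    subst h
    exact ⟨1, by simp⟩
  | cons k ks ih =>
    intro w w' h
    unfold rots at h
    split at h
    · exact absurd h (by simp)
    · rename_i w1 h1
      obtain ⟨g, hg⟩ := rotK_sound t C hC w w1 k h1
      obtain ⟨g', hg'⟩ := ih w1 w' h
      refine ⟨g * g', ?_⟩
      rw [hg', hg]; group

/-- powers of a product of two involutions which are central have order at most 2. -/
theorem dih_sq (x y : Γ) (m : Nat) (hx : x * x = 1) (hy : y * y = 1) (hc : ∀ g, g * (x * y) ^ m = (x * y) ^ m * g) :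
    (x * y) ^ m * (x * y) ^ m = 1 := by
  have hx' : x⁻¹ = x := (eq_inv_of_mul_eq_one_left hx).symm
  have hy' : y⁻¹ = y := (eq_inv_of_mul_eq_one_left hy).symm
  have h1 : x⁻¹ * (x * y) ^ m * x = (y * x) ^ m := by
    have : (x⁻¹ * (x * y) * x) ^ m = x⁻¹ * (x * y) ^ m * x := by
      have := conj_pow (a := x⁻¹) (b := x * y) (i := m)
      rw [inv_inv] at this
      exact this
    rw [← this]; congr 1; group
  have h2 : (y * x) ^ m = ((x * y) ^ m)⁻¹ := by
    rw [← inv_pow]; congr 1
    rw [mul_inv_rev, hx', hy']
  have h3 : x⁻¹ * (x * y) ^ m * x = (x * y) ^ m := by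
    rw [mul_assoc, ← hc x]; group
  rw [h3, h2] at h1
  nth_rewrite 1 [h1]
  group

theorem braid_cube (x y : Γ) (hx : x * x = 1) (hy : y * y = 1) (h : x * y * x = y * x * y) : (x * y) ^ 3 = 1 := by
  calc (x * y) ^ 3 = (x * y * x) * (y * x * y) := by rw [pow_succ, pow_two]; group
    _ = (x * y * x) * (x * y * x) := by rw [h]
    _ = x * y * (x * x) * y * x := by group
    _ = 1 := by rw [hx, mul_one, mul_assoc x y y, hy, mul_one, hx]

theorem comm_sq (x y : Γ) (hx : x * x = 1) (hy : y * y = 1) (h : x * y = y * x) : (x * y) ^ 2 = 1 := by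
  calc (x * y) ^ 2 = (x * y) * (x * y) := by rw [pow_two]
    _ = (x * y) * (y * x) := by rw [h]
    _ = x * (y * y) * x := by group
    _ = 1 := by rw [hy, mul_one, hx]

/-- word identities through a word of the form `[l] ++ z ++ [l] ++ z`. -/
theorem comm_of_word (x z : Γ) (hx : x * x = 1) (hz : z * z = 1) (h : x * z * (x * z) = 1) : x * z = z * x := by
  have h5 : x * z = (x * z)⁻¹ := eq_inv_of_mul_eq_one_left h
  rw [mul_inv_rev, ← eq_inv_of_mul_eq_one_left hx, ← eq_inv_of_mul_eq_one_left hz] at h5
  exact h5

end words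

/-- a central stem extension with a section is trivial. -/
theorem ker_bot_of_section {Γ G : Type*} [Group Γ] [Group G] (σ : Γ →* G) (hc : σ.ker ≤ Subgroup.center Γ)
    (hst : σ.ker ≤ commutator Γ) (ψ : G →* Γ) (h : ∀ g, σ (ψ g) = g) : σ.ker = ⊥ := by
  have key : commutator Γ ≤ ψ.range := by
    rw [commutator_def, Subgroup.commutator_le]
    intro x _ y _
    have hx : σ x = σ (ψ (σ x)) := (h _).symm
    have hy : σ y = σ (ψ (σ y)) := (h _).symm
    have e1 : K x y = K x (ψ (σ y)) := K_congr σ hc x _ _ hy
    have e2 : K (ψ (σ y)) x = K (ψ (σ y)) (ψ (σ x)) := K_congr σ hc _ _ _ hx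
    have e3 : K x y = K (ψ (σ x)) (ψ (σ y)) := by
      rw [e1, ← K_inv, e2, K_inv]
    change K x y ∈ ψ.range
    rw [e3]
    exact mul_mem (mul_mem (mul_mem ⟨_, rfl⟩ ⟨_, rfl⟩) (inv_mem ⟨_, rfl⟩)) (inv_mem ⟨_, rfl⟩)
  rw [eq_bot_iff]
  intro a ha
  obtain ⟨g, rfl⟩ := key (hst ha)
  have h1 : g = 1 := by rw [← h g]; exact ha
  rw [h1, map_one]
  exact Subgroup.mem_bot.2 rfl

end Cfsg.Agent.H8.CE
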