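import Cfsg.Agent.H8.T.Co2Cz
import Cfsg.Agent.H8.T.Co2Cb
import Cfsg.Agent.H8.LtCo2

/-!
# Centraliser of an involution of LtCo2.G
-/

set_option Elab.async false
set_option autoImplicit false
set_option linter.all false
set_option maxRecDepth 100000
set_option maxHeartbeats 2000000

namespace Cfsg.Agent.H8.Co2C

open Cfsg.Spor
open Cfsg.Agent.H8

noncomputable def s : Nat → LtCo2.G := OT.extI Cfsg.Agent.H8.LtCo2.s 3 bws

theorem s_lt (l : Nat) (h : l < 3) : s l = Cfsg.Agent.H8.LtCo2.s l := OT.extI_lt _ _ _ l h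

noncomputable def ρ : LtCo2.G →* Equiv.Perm (Fin 4600) := Cfsg.Agent.H8.LtCo2.ρ

theorem hρ : ∀ l < 61, ρ (s l) = permL tok l :=
  OT.extI_rho tok ρ bws Cfsg.Agent.H8.LtCo2.s 3 (by
    intro l hl
    have h0 : ρ (Cfsg.Agent.H8.LtCo2.s l) = permL Cfsg.Agent.H8.LtC2.tok l := Cfsg.Agent.H8.LtCo2.hρ l hl
    rw [h0]
    ext j
    rw [permL_apply Cfsg.Agent.H8.LtC2.tok l hl, permL_apply tok l (lt_trans hl (by decide)), hii l hl,
      hTT _ (Cfsg.Agent.H8.LtC2.tok.inv_lt l hl)]) (by decide) hwb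

theorem inj : Function.Injective ρ := Cfsg.Agent.H8.LtCo2.ρ_injective

theorem cardG : Nat.card LtCo2.G = 42305421312000 := Cfsg.Agent.H8.LtCo2.cardG

instance finG : Finite LtCo2.G := Nat.finite_of_card_ne_zero (by rw [cardG]; decide)

noncomputable def z : LtCo2.G := (([39] : List Nat).map s).prod

theorem Zchain : wordGroup s ZG0 = ⊤ ∧ (∀ g ∈ wordGroup s ZG0, ZQ0 (act ρ ⟨3258, by decide⟩ g : Fin 4600) ≠ 0) ∧ (∀ g ∈ wordGroup s ZG0, act ρ ⟨3258, by decide⟩ g = ⟨3258, by decide⟩ → g ∈ wordGroup s ZG1) ∧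
    (∀ g ∈ wordGroup s ZG1, ZQ1 (act ρ ⟨3903, by decide⟩ g : Fin 4600) ≠ 0) ∧ (∀ g ∈ wordGroup s ZG1, act ρ ⟨3903, by decide⟩ g = ⟨3903, by decide⟩ → g ∈ wordGroup s ZG2) ∧
    (∀ g ∈ wordGroup s ZG2, ZQ2 (act ρ ⟨1104, by decide⟩ g : Fin 4600) ≠ 0) ∧ (∀ g ∈ wordGroup s ZG2, act ρ ⟨1104, by decide⟩ g = ⟨1104, by decide⟩ → g ∈ wordGroup s ZG3) ∧
    (∀ g ∈ wordGroup s ZG3, ZQ3 (act ρ ⟨728, by decide⟩ g : Fin 4600) ≠ 0) ∧ (∀ g ∈ wordGroup s ZG3, act ρ ⟨728, by decide⟩ g = ⟨728, by decide⟩ → g ∈ wordGroup s ZG4) ∧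
    (∀ g ∈ wordGroup s ZG4, ZQ4 (act ρ ⟨41, by decide⟩ g : Fin 4600) ≠ 0) ∧ (∀ g ∈ wordGroup s ZG4, act ρ ⟨41, by decide⟩ g = ⟨41, by decide⟩ → g ∈ wordGroup s ZG5) ∧
    (∀ g ∈ wordGroup s ZG5, ZQ5 (act ρ ⟨44, by decide⟩ g : Fin 4600) ≠ 0) ∧ (∀ g ∈ wordGroup s ZG5, act ρ ⟨44, by decide⟩ g = ⟨44, by decide⟩ → g ∈ wordGroup s ([] : List (List Nat))) ∧ Nat.card (wordGroup s ZG5) = 512 := by
  have k0 := card_step s tok ρ hρ ZQ0 4600 ZG0 ZG1 (by decide) ⟨3258, by decide⟩ Zr0 Zc0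
    (by decide) (by decide +kernel) inferInstance
  have k1 := card_step s tok ρ hρ ZQ1 891 ZG1 ZG2 (by decide) ⟨3903, by decide⟩ Zr1 Zc1
    (by decide) (by decide +kernel) inferInstance
  have k2 := card_step s tok ρ hρ ZQ2 336 ZG2 ZG3 (by decide) ⟨1104, by decide⟩ Zr2 Zc2
    (by decide) (by decide +kernel) inferInstance
  have k3 := card_step s tok ρ hρ ZQ3 10 ZG3 ZG4 (by decide) ⟨728, by decide⟩ Zr3 Zc3
    (by decide) (by decide +kernel) inferInstance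
  have k4 := card_step s tok ρ hρ ZQ4 6 ZG4 ZG5 (by decide) ⟨41, by decide⟩ Zr4 Zc4
    (by decide) (by decide +kernel) inferInstance
  have k5 := card_step s tok ρ hρ ZQ5 512 ZG5 ([] : List (List Nat)) (by decide) ⟨44, by decide⟩ Zr5 Zc5
    (by decide) (by decide +kernel) inferInstance
  have k : Nat.card (wordGroup s ZG0) ≤ 42305421312000 := by rw [← cardG]; exact Subgroup.card_le_card_group _
  have kl : 0 < Nat.card (wordGroup s ([] : List (List Nat))) := Nat.card_pos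
  have e0 : Nat.card (wordGroup s ZG0) = 42305421312000 := by omega
  have e1 : Nat.card (wordGroup s ZG1) = 9196830720 := by omega
  have e2 : Nat.card (wordGroup s ZG2) = 10321920 := by omega
  have e3 : Nat.card (wordGroup s ZG3) = 30720 := by omega
  have e4 : Nat.card (wordGroup s ZG4) = 3072 := by omega
  have e5 : Nat.card (wordGroup s ZG5) = 512 := by omega
  have e6 : Nat.card (wordGroup s ([] : List (List Nat))) = 1 := by omega
  have x0 := exact_step s tok ρ ZQ0 4600 ZG0 ZG1 (by decide) ⟨3258, by decide⟩ Zr0 Zc0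
    (by decide) (by decide +kernel) inferInstance hρ (by rw [e0, e1])
  have x1 := exact_step s tok ρ ZQ1 891 ZG1 ZG2 (by decide) ⟨3903, by decide⟩ Zr1 Zc1
    (by decide) (by decide +kernel) inferInstance hρ (by rw [e1, e2])
  have x2 := exact_step s tok ρ ZQ2 336 ZG2 ZG3 (by decide) ⟨1104, by decide⟩ Zr2 Zc2
    (by decide) (by decide +kernel) inferInstance hρ (by rw [e2, e3])
  have x3 := exact_step s tok ρ ZQ3 10 ZG3 ZG4 (by decide) ⟨728, by decide⟩ Zr3 Zc3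
    (by decide) (by decide +kernel) inferInstance hρ (by rw [e3, e4])
  have x4 := exact_step s tok ρ ZQ4 6 ZG4 ZG5 (by decide) ⟨41, by decide⟩ Zr4 Zc4
    (by decide) (by decide +kernel) inferInstance hρ (by rw [e4, e5])
  have x5 := exact_step s tok ρ ZQ5 512 ZG5 ([] : List (List Nat)) (by decide) ⟨44, by decide⟩ Zr5 Zc5
    (by decide) (by decide +kernel) inferInstance hρ (by rw [e5, e6])
  exact ⟨Subgroup.eq_top_of_card_eq _ (by rw [e0, cardG]), x0.1, x0.2, x1.1, x1.2, x2.1, x2.2, x3.1, x3.2, x4.1, x4.2, x5.1, x5.2, e5⟩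

theorem Zbot : wordGroup s ([] : List (List Nat)) = ⊥ := by
  unfold wordGroup
  rw [eq_bot_iff, Subgroup.closure_le]
  rintro g ⟨w, hw, _⟩
  simp at hw

/-- an element fixing the base is trivial. -/
theorem Zbase (g : LtCo2.G) (h0 : act ρ ⟨3258, by decide⟩ g = (⟨3258, by decide⟩ : Fin 4600)) (h1 : act ρ ⟨3903, by decide⟩ g = (⟨3903, by decide⟩ : Fin 4600)) (h2 : act ρ ⟨1104, by decide⟩ g = (⟨1104, by decide⟩ : Fin 4600)) (h3 : act ρ ⟨728, by decide⟩ g = (⟨728, by decide⟩ : Fin 4600)) (h4 : act ρ ⟨41, by decide⟩ g = (⟨41, by decide⟩ : Fin 4600)) (h5 : act ρ ⟨44, by decide⟩ g = (⟨44, by decide⟩ : Fin 4600)) : g = 1 := by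
  have g0 : g ∈ wordGroup s ZG0 := by rw [Zchain.1]; exact Subgroup.mem_top g
  have g1 := Zchain.2.2.1 g g0 h0
  have g2 := Zchain.2.2.2.2.1 g g1 h1
  have g3 := Zchain.2.2.2.2.2.2.1 g g2 h2
  have g4 := Zchain.2.2.2.2.2.2.2.2.1 g g3 h3
  have g5 := Zchain.2.2.2.2.2.2.2.2.2.2.1 g g4 h4
  have g6 := Zchain.2.2.2.2.2.2.2.2.2.2.2.2.1 g g5 h5
  rw [Zbot] at g6
  exact Subgroup.mem_bot.1 g6


theorem weq (u v : List Nat) (hu : ∀ l ∈ u, l < 61) (hv : ∀ l ∈ v, l < 61)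
    (h : ∀ i ∈ ([3258, 3903, 1104, 728, 41, 44] : List Nat), trN T' u i = trN T' v i) : (u.map s).prod = (v.map s).prod := by
  have key : ∀ b : Fin 4600, (b : Nat) ∈ ([3258, 3903, 1104, 728, 41, 44] : List Nat) → act ρ b ((u.map s).prod * ((v.map s).prod)⁻¹) = b := by
    intro b hb
    have h1 : act ρ b (u.map s).prod = act ρ b (v.map s).prod := by
      apply Fin.ext
      rw [act_word s tok ρ hρ b u hu, act_word s tok ρ hρ b v hv]
      exact h b hb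
    rw [act_mul, h1, ← act_mul, mul_inv_cancel, act_one]
  exact mul_inv_eq_one.1 (Zbase _ (key ⟨3258, by decide⟩ (by decide)) (key ⟨3903, by decide⟩ (by decide)) (key ⟨1104, by decide⟩ (by decide)) (key ⟨728, by decide⟩ (by decide)) (key ⟨41, by decide⟩ (by decide)) (key ⟨44, by decide⟩ (by decide)))

/-- the order of the centraliser is at most 743178240. -/
theorem cent_le : Nat.card (Subgroup.centralizer ({z} : Set LtCo2.G)) ≤ 743178240 := by
  have c0 := cent_step s tok ρ hρ [39] (by decide) (wordGroup s ZG0) (wordGroup s ZG1) ⟨3258, by decide⟩ ZQ0 56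
    Zchain.2.1 Zchain.2.2.1 (by decide +kernel) Zf0
  have c1 := cent_step s tok ρ hρ [39] (by decide) (wordGroup s ZG1) (wordGroup s ZG2) ⟨3903, by decide⟩ ZQ1 27
    Zchain.2.2.2.1 Zchain.2.2.2.2.1 (by decide +kernel) Zf1
  have c2 := cent_step s tok ρ hρ [39] (by decide) (wordGroup s ZG2) (wordGroup s ZG3) ⟨1104, by decide⟩ ZQ2 16
    Zchain.2.2.2.2.2.1 Zchain.2.2.2.2.2.2.1 (by decide +kernel) Zf2
  have c3 := cent_step s tok ρ hρ [39] (by decide) (wordGroup s ZG3) (wordGroup s ZG4) ⟨728, by decide⟩ ZQ3 10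
    Zchain.2.2.2.2.2.2.2.1 Zchain.2.2.2.2.2.2.2.2.1 (by decide +kernel) Zf3
  have c4 := cent_step s tok ρ hρ [39] (by decide) (wordGroup s ZG4) (wordGroup s ZG5) ⟨41, by decide⟩ ZQ4 6
    Zchain.2.2.2.2.2.2.2.2.2.1 Zchain.2.2.2.2.2.2.2.2.2.2.1 (by decide +kernel) Zf4
  have cl : Nat.card ↥(Subgroup.centralizer ({(([39] : List Nat).map s).prod} : Set LtCo2.G) ⊓ wordGroup s ZG5) ≤ 512 := by
    rw [← Zchain.2.2.2.2.2.2.2.2.2.2.2.2.2]
    exact Nat.card_le_card_of_injective _ (Subgroup.inclusion_injective inf_le_right)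
  rw [Zchain.1, inf_top_eq] at c0
  unfold z
  omega

end Cfsg.Agent.H8.Co2C
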