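import Cfsg.Agent.H8.Co2Cent
import Cfsg.Agent.H8.AffLab

/-!
# The centraliser of a 2A involution of `Co2`
-/

set_option Elab.async false
set_option autoImplicit false
set_option linter.all false
set_option maxRecDepth 100000
set_option maxHeartbeats 1000000

namespace Cfsg.Agent.H8.Co2I

open Cfsg.Spor Matrix
open Cfsg.Agent.H8 Cfsg.Agent.H8.Co2C Cfsg.Agent.H8.Sp6 Cfsg.Agent.H8.Aff

def PF : List ℕ := [41, 43, 696, 713, 728, 745, 748, 765, 780, 797, 954, 971, 986, 1003, 1006, 1023, 1038, 1055, 1104, 1335, 1338, 1341, 1345, 1350, 1354, 1357, 1360, 1403, 3196, 3239, 3242, 3245, 3249, 3254, 3258, 3261, 3264, 3495, 3544, 3561, 3576, 3593, 3596, 3613, 3628, 3645, 3802, 3819, 3834, 3851, 3854, 3871, 3886, 3903, 4556, 4558]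
def LF : List ℕ := [1, 8, 11, 25, 31, 4, 59, 32, 38, 52, 0, 27, 29, 15, 57, 43, 45, 54, 55, 12, 40, 46, 53, 60, 39, 33, 5, 62, 62, 5, 33, 39, 60, 53, 46, 40, 12, 55, 54, 45, 43, 57, 15, 29, 27, 0, 52, 38, 32, 59, 4, 31, 25, 11, 8, 1]
def NA : List ℕ := [11, 29, 3, 30, 2, 39, 10, 47, 19, 46, 1, 34, 5, 32, 13, 37, 12, 49, 20, 7, 15, 0, 24, 14, 51, 22, 27, 17, 38, 28, 33, 4, 41, 31, 55, 40, 48, 35, 6, 43, 18, 42, 23, 50, 21, 54, 9, 36, 8, 45, 16, 53, 25, 52, 26, 44]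
def NB : List ℕ := [19, 11, 20, 0, 10, 27, 3, 24, 47, 13, 2, 22, 46, 12, 39, 5, 29, 49, 23, 21, 18, 38, 54, 4, 25, 48, 41, 40, 15, 14, 7, 30, 51, 1, 17, 37, 34, 32, 6, 26, 50, 16, 43, 9, 33, 53, 42, 8, 31, 52, 28, 45, 55, 35, 44, 36]

theorem PF_lt : ∀ i < 56, PF.getD i 0 < 4600 := by decide +kernel

def fF (i : Fin 56) : Fin 4600 := ⟨PF.getD i 0, PF_lt i i.2⟩

theorem PF_inj : ∀ i < 56, ∀ j < 56, PF.getD i 0 = PF.getD j 0 → i = j := by decide +kernel

theorem fF_inj : Function.Injective fF := by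
  intro a b h
  exact Fin.ext (PF_inj a a.2 b b.2 (congrArg (fun x : Fin 4600 => (x : ℕ)) h))

def lF (i : Fin 56) : V6 := labOf (LF.getD i 0)

def ia (a : Fin 3 ⊕ Fin 3) : Fin 56 := ⟨([0, 3, 0, 1, 2, 0] : List ℕ).getD (cd a) 0, by revert a; decide⟩
def ja (a : Fin 3 ⊕ Fin 3) : Fin 56 := ⟨([10, 11, 26, 10, 11, 25] : List ℕ).getD (cd a) 0, by revert a; decide⟩

theorem basis_lab : ∀ a : Fin 3 ⊕ Fin 3, (Pi.single a 1 : V6) = lF (ia a) - lF (ja a) := by decide +kernel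

theorem hsp (M N : Mt6) (h : ∀ i j, (lF i - lF j) ᵥ* M = (lF i - lF j) ᵥ* N) : M = N := by
  apply Matrix.ext_of_single_vecMul
  intro a
  rw [basis_lab a]
  exact h _ _

theorem wd (l : Nat) : (([l] : List Nat).map s).prod = s l := by
  rw [List.map_singleton, List.prod_singleton]

theorem act_letter (l : ℕ) (hl : l < 61) (x : Fin 4600) : ((act ρ x (s l) : Fin 4600) : ℕ) = T' l x := by
  have := act_word s tok ρ hρ x [l] (by simpa using hl)
  rw [List.map_singleton, List.prod_singleton] at this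
  exact this

theorem ckA : ∀ i < 56, NA.getD i 0 < 56 ∧ T' 41 (PF.getD i 0) = PF.getD (NA.getD i 0) 0 := by decide +kernel
theorem ckB : ∀ i < 56, NB.getD i 0 < 56 ∧ T' 43 (PF.getD i 0) = PF.getD (NB.getD i 0) 0 := by decide +kernel
theorem laA : ∀ i < 56, labOf (LF.getD (NA.getD i 0) 0) = labOf (LF.getD i 0) ᵥ* (M1 : Mt6) + labOf 8 := by decide +kernel
theorem laB : ∀ i < 56, labOf (LF.getD (NB.getD i 0) 0) = labOf (LF.getD i 0) ᵥ* (M2 : Mt6) + labOf 11 := by decide +kernel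

def qL (i : Fin 8) : ℕ := 45 + 2 * i
def σ (i : Fin 8) : Fin 8 := i + 4

theorem ckQ : ∀ k : Fin 8, ∀ i < 56, T' (qL k) (PF.getD i 0) = PF.getD i 0 := by decide +kernel

def bse : List ℕ := [3258, 3903, 1104, 728, 41, 44]

theorem zs : z = s 39 := wd 39

theorem eq_of (u v : List ℕ) (hu : ∀ l ∈ u, l < 61) (hv : ∀ l ∈ v, l < 61) (h : ∀ i ∈ bse, trN T' u i = trN T' v i) :
    (u.map s).prod = (v.map s).prod := weq u v hu hv h

theorem p2 (a b : ℕ) : (([a, b] : List ℕ).map s).prod = s a * s b := by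
  rw [List.map_cons, List.prod_cons, wd]

theorem p3 (a b c : ℕ) : (([a, b, c] : List ℕ).map s).prod = s a * (s b * s c) := by
  rw [List.map_cons, List.prod_cons, p2]

theorem z_ne : z ≠ 1 := by
  intro h1
  have h := act_letter 39 (by decide) ⟨0, by decide⟩
  rw [← zs, h1, act_one] at h
  exact absurd h (by decide +kernel)

theorem z_sq : z * z = 1 := by
  rw [zs, ← p2]
  exact eq_of [39, 39] [] (by decide) (by decide) (by decide +kernel)

theorem q_z (i : Fin 8) : s (qL i) * z = z * s (qL i) := by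
  rw [zs, ← p2, ← p2]
  have h : ∀ i : Fin 8, (∀ l ∈ [qL i, 39], l < 61) ∧ (∀ l ∈ [39, qL i], l < 61) ∧ ∀ b ∈ bse, trN T' [qL i, 39] b = trN T' [39, qL i] b := by
    decide +kernel
  exact eq_of _ _ (h i).1 (h i).2.1 (h i).2.2

theorem c_z (l : ℕ) (hl : l = 41 ∨ l = 43) : s l * z = z * s l := by
  rw [zs, ← p2, ← p2]
  rcases hl with rfl | rfl
  · exact eq_of _ _ (by decide) (by decide) (by decide +kernel)
  · exact eq_of _ _ (by decide) (by decide) (by decide +kernel)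

theorem q_B (i j : Fin 8) : s (qL (σ i)) * s (qL j) = (if i = j then z else 1) * (s (qL j) * s (qL (σ i))) := by
  have h : ∀ i j : Fin 8, (∀ l ∈ [qL (σ i), qL j], l < 61) ∧ (∀ l ∈ [39, qL j, qL (σ i)], l < 61) ∧ (∀ l ∈ [qL j, qL (σ i)], l < 61) ∧
      ∀ b ∈ bse, trN T' [qL (σ i), qL j] b = trN T' (if i = j then [39, qL j, qL (σ i)] else [qL j, qL (σ i)]) b := by
    decide +kernel
  obtain ⟨h1, h2, h3, h4⟩ := h i j
  by_cases hij : i = j
  · rw [if_pos hij] at h4 ⊢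
    rw [zs, ← p2, ← p3]
    exact eq_of _ _ h1 h2 h4
  · rw [if_neg hij] at h4 ⊢
    rw [one_mul, ← p2, ← p2]
    exact eq_of _ _ h1 h3 h4

def sqf (i : Fin 8) : Bool := ([1, 0, 0, 1, 1, 0, 0, 1] : List ℕ).getD i 0 == 1

theorem q_sq (i : Fin 8) : s (qL i) * s (qL i) = 1 ∨ s (qL i) * s (qL i) = z := by
  have h : ∀ i : Fin 8, (∀ l ∈ [qL i, qL i], l < 61) ∧ (∀ l ∈ (if sqf i then [39] else []), l < 61) ∧
      ∀ b ∈ bse, trN T' [qL i, qL i] b = trN T' (if sqf i then [39] else []) b := by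
    decide +kernel
  obtain ⟨h1, h2, h3⟩ := h i
  have h4 := eq_of _ _ h1 h2 h3
  rw [p2] at h4
  by_cases hs : sqf i = true
  · right; rw [h4, if_pos hs, wd, zs]
  · left; rw [h4, if_neg hs]; rfl

theorem act_fF (l : ℕ) (hl : l < 61) (i : Fin 56) (j : Fin 56) (h : T' l (PF.getD i 0) = PF.getD j 0) :
    act ρ (fF i) (s l) = fF j := by
  apply Fin.ext
  rw [act_letter l hl]
  exact h

theorem final {G1 : Type*} [Group G1] (e : G1 ≃* LtCo2.G) :
    ∃ t : G1, orderOf t = 2 ∧ Cfsg.IsExtraspecial 2 (Cfsg.pCore 2 ↥(Subgroup.centralizer ({t} : Set G1))) ∧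
      Nat.card (Cfsg.pCore 2 ↥(Subgroup.centralizer ({t} : Set G1))) = 2 ^ 9 ∧
      Nonempty (↥(Subgroup.centralizer ({t} : Set G1)) ⧸ Cfsg.pCore 2 ↥(Subgroup.centralizer ({t} : Set G1)) ≃*
        Matrix.symplecticGroup (Fin 3) (ZMod 2)) := by
  haveI : Finite LtCo2.G := finG
  haveI : Finite G1 := Finite.of_equiv _ e.symm.toEquiv
  refine ⟨e.symm z, ?_⟩
  apply Aff.main (fun (x : Fin 4600) (g : G1) => act ρ x (e g)) (fun x => by rw [map_one, act_one])
    (fun x g h => by rw [map_mul, act_mul]) fF lF fF_inj hsp (e.symm z) (e.symm (s 41)) (e.symm (s 43))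
    (fun i => e.symm (s (qL i))) σ (by decide)
  · intro h
    exact z_ne (by rw [← e.apply_symm_apply z, h, map_one])
  · rw [← map_mul, z_sq, map_one]
  · intro i
    rw [← map_mul, q_z, map_mul]
  · intro i j
    rw [← map_mul, q_B, map_mul, map_mul]
    by_cases hij : i = j
    · rw [if_pos hij, if_pos hij]
    · rw [if_neg hij, if_neg hij, map_one]
  · intro i
    rcases q_sq i with h | h
    · left; rw [← map_mul, h, map_one]
    · right; rw [← map_mul, h]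
  · refine ⟨labOf 8, fun i => ⟨⟨NA.getD i 0, (ckA i i.2).1⟩, ?_, laA i i.2⟩⟩
    change act ρ (fF i) (e (e.symm (s 41))) = _
    rw [e.apply_symm_apply]
    exact act_fF 41 (by decide) i ⟨NA.getD i 0, (ckA i i.2).1⟩ (ckA i i.2).2
  · refine ⟨labOf 11, fun i => ⟨⟨NB.getD i 0, (ckB i i.2).1⟩, ?_, laB i i.2⟩⟩
    change act ρ (fF i) (e (e.symm (s 43))) = _
    rw [e.apply_symm_apply]
    exact act_fF 43 (by decide) i ⟨NB.getD i 0, (ckB i i.2).1⟩ (ckB i i.2).2
  · intro k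
    refine ⟨0, fun i => ⟨i, ?_, ?_⟩⟩
    · change act ρ (fF i) (e (e.symm (s (qL k)))) = _
      rw [e.apply_symm_apply]
      have hq : ∀ k : Fin 8, qL k < 61 := by decide
      exact act_fF (qL k) (hq k) i i (ckQ k i i.2)
    · rw [Submonoid.coe_one, Matrix.vecMul_one, add_zero]
  · rw [← map_mul, c_z 41 (Or.inl rfl), map_mul]
  · rw [← map_mul, c_z 43 (Or.inr rfl), map_mul]
  · refine le_trans ?_ cent_le
    apply Nat.card_le_card_of_injective (fun g : Subgroup.centralizer ({e.symm z} : Set G1) =>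
      (⟨e g, Subgroup.mem_centralizer_singleton_iff.2 (by
        have h := Subgroup.mem_centralizer_singleton_iff.1 g.2
        have h2 := congrArg e h
        rw [map_mul, map_mul, e.apply_symm_apply] at h2
        exact h2)⟩ : Subgroup.centralizer ({z} : Set LtCo2.G)))
    intro a b hab
    exact Subtype.ext (e.injective (congrArg Subtype.val hab))

end Cfsg.Agent.H8.Co2I
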