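import Cfsg.Agent.H8.CosetGlue

/-!
# Faster checks for commuting involutions, and tabulated words
-/

set_option autoImplicit false
set_option linter.all false
set_option maxHeartbeats 400000

namespace Cfsg.Agent.H8

/-- commutation of two involutive tables at a point (already checked at smaller points). -/
noncomputable def ckComm (f g : Nat → Nat) (i : Nat) : Bool :=
  force (f i) fun a => @Bool.rec (fun _ => Bool)
    (force (g i) fun b => @Bool.rec (fun _ => Bool) (Nat.beq (g a) (f b)) true (Nat.ble (Nat.succ b) i))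
    true (Nat.ble (Nat.succ a) i)

theorem ckComm_sound (n : Nat) (f g : Nat → Nat) (hf : ∀ i < n, f i < n ∧ f (f i) = i)
    (hg : ∀ i < n, g i < n ∧ g (g i) = i) (h : ∀ i < n, ckComm f g i = true) :
    ∀ i < n, g (f i) = f (g i) := by
  intro i
  induction i using Nat.strong_induction_on with
  | _ i ih =>
    intro hi
    have h1 := h i hi
    unfold ckComm at h1
    rw [force_eq, force_eq] at h1
    cases ha : Nat.ble (Nat.succ (f i)) i with
    | true =>
      have hlt : f i < i := Nat.le_of_ble_eq_true ha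
      have h2 := ih (f i) hlt (hf i hi).1
      rw [(hf i hi).2] at h2
      rw [h2, (hf _ (hg _ (hf i hi).1).1).2]
    | false =>
      rw [ha] at h1
      cases hb : Nat.ble (Nat.succ (g i)) i with
      | true =>
        have hlt : g i < i := Nat.le_of_ble_eq_true hb
        have h2 := ih (g i) hlt (hg i hi).1
        rw [(hg i hi).2] at h2
        rw [← h2, (hg _ (hf _ (hg i hi).1).1).2]
      | false =>
        rw [hb] at h1
        exact Nat.eq_of_beq_eq_true h1

/-- the relation of exponent two. -/
theorem comm_rel {n L : Nat} {T : Nat → Nat → Nat} (hT : TableOK n L T (fun l => l)) (k l : Nat)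
    (hk : k < L) (hl : l < L) (h : ∀ i < n, ckComm (T k) (T l) i = true) :
    ((([k, l] : List Nat).map (permL hT)).prod) ^ 2 = 1 := by
  have hc := ckComm_sound n (T k) (T l) (fun i hi => ⟨hT.lt k hk i hi, hT.inv_apply k hk i hi⟩)
    (fun i hi => ⟨hT.lt l hl i hi, hT.inv_apply l hl i hi⟩) h
  have e : (([k, l] : List Nat).map (permL hT)).prod = permL hT k * permL hT l := by simp
  rw [e, pow_two]
  ext i
  have h1 : ∀ (m : Nat) (hm : m < L) (i : Fin n), ((permL hT m i : Fin n) : Nat) = T m i :=
    fun m hm i => permL_apply hT m hm i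
  simp only [Equiv.Perm.mul_apply, Equiv.Perm.coe_one, id_eq]
  have hlt : ∀ (m : Nat) (hm : m < L) (j : Nat), j < n → T m j < n := fun m hm j hj => hT.lt m hm j hj
  have a1 : ((permL hT l i : Fin n) : Nat) = T l i := h1 l hl i
  have a2 : ((permL hT k (permL hT l i) : Fin n) : Nat) = T k (T l i) := by rw [h1 k hk, a1]
  have a3 : ((permL hT l (permL hT k (permL hT l i)) : Fin n) : Nat) = T l (T k (T l i)) := by rw [h1 l hl, a2]
  rw [h1 k hk, a3]
  have hi := i.2
  rw [hc _ (hlt l hl _ hi), hT.inv_apply l hl _ hi, hT.inv_apply k hk _ hi]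

/-- table lookups agree with a word. -/
theorem trN_of_check (n : Nat) (T : Nat → Nat → Nat) (w : List Nat) (W : Nat → Nat)
    (h : ∀ i < n, trT (w.map T) (fun x => Nat.beq x (W i)) i = true) : ∀ i < n, trN T w i = W i := by
  intro i hi
  have h1 := h i hi
  rw [trT_eq] at h1
  exact Nat.eq_of_beq_eq_true h1

theorem cube_of_check (n : Nat) (U W : Nat → Nat)
    (h : ∀ i < n, trT [U, U, U] (fun x => Nat.beq x (W i)) i = true) : ∀ i < n, U (U (U i)) = W i := by
  intro i hi
  have h1 := trT_eq (fun _ => U) [0, 0, 0] (fun x => Nat.beq x (W i)) i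
  have h2 := h i hi
  have h3 : trT (([0, 0, 0] : List Nat).map (fun _ => U)) (fun x => Nat.beq x (W i)) i = true := h2
  rw [h1] at h3
  exact Nat.eq_of_beq_eq_true h3

theorem trN_wpow (T : Nat → Nat → Nat) (u : List Nat) (k : Nat) : ∀ i, trN T (wpow u k) i = (trN T u)^[k] i := by
  induction k with
  | zero => intro i; rfl
  | succ k ih =>
    intro i
    rw [wpow, trN_append, ih, Function.iterate_succ_apply]

/-- the relation `l₀ u⁹ = 1` through tables of `u` and `u³`. -/
theorem rel_u9 {n L : Nat} {T : Nat → Nat → Nat} (hT : TableOK n L T (fun l => l)) (u : List Nat)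
    (hu : ∀ l ∈ u, l < L) (l0 : Nat) (hl0 : l0 < L) (W W3 : Nat → Nat)
    (h1 : ∀ i < n, trT (u.map T) (fun x => Nat.beq x (W i)) i = true)
    (h2 : ∀ i < n, trT [W, W, W] (fun x => Nat.beq x (W3 i)) i = true)
    (h3 : ∀ i < n, trT [W3, W3, W3] (fun x => Nat.beq x (T l0 i)) i = true) :
    ((([l0] ++ wpow u 9).map (permL hT)).prod) ^ 1 = 1 := by
  have k1 := trN_of_check n T u W h1
  have k2 := cube_of_check n W W3 h2
  have k3 := cube_of_check n W3 (T l0) h3
  have b1 : ∀ i < n, W i < n := fun i hi => by rw [← k1 i hi]; exact trN_lt hT u hu i hi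
  have b3 : ∀ i < n, W3 i < n := fun i hi => by rw [← k2 i hi]; exact b1 _ (b1 _ (b1 _ hi))
  have c3 : ∀ i < n, (trN T u)^[3] i = W3 i := by
    intro i hi
    rw [← k2 i hi]
    simp only [Function.iterate_succ_apply, Function.iterate_zero, id_eq]
    rw [k1 i hi, k1 _ (b1 _ hi), k1 _ (b1 _ (b1 _ hi))]
  have c9 : ∀ i < n, (trN T u)^[9] i = T l0 i := by
    intro i hi
    rw [← k3 i hi, show 9 = 3 + (3 + 3) from rfl, Function.iterate_add_apply, Function.iterate_add_apply,
      c3 i hi, c3 _ (b3 _ hi), c3 _ (b3 _ (b3 _ hi))]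
  rw [pow_one, ← inv_eq_one]
  have hw : ∀ l ∈ [l0] ++ wpow u 9, l < L := by
    intro l hl
    have key : ∀ k, ∀ l ∈ wpow u k, l < L := by
      intro k
      induction k with
      | zero => intro l hl; simp [wpow] at hl
      | succ k ih =>
        intro l hl
        rw [wpow, List.mem_append] at hl
        rcases hl with hl | hl
        · exact hu l hl
        · exact ih l hl
    rw [List.mem_append, List.mem_singleton] at hl
    rcases hl with rfl | hl
    · exact hl0
    · exact key 9 l hl
  ext i
  rw [prod_inv_apply hT _ hw i, trN_append, trN_wpow]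
  change (trN T u)^[9] (T l0 i) = _
  rw [c9 _ (hT.lt l0 hl0 i i.2)]
  exact hT.inv_apply l0 hl0 i i.2

end Cfsg.Agent.H8
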