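import Cfsg.Agent.H8.OutTool

/-!
# Power relators through a table of the word
-/

set_option autoImplicit false
set_option linter.all false

namespace Cfsg.Agent.H8

theorem powT_table {n L : Nat} {T : Nat → Nat → Nat} {inv : Nat → Nat} (hT : TableOK n L T inv) (W : Nat → Nat)
    (u : List Nat) (hu : ∀ l ∈ u, l < L) (hW : ∀ i < n, trN T u i = W i) (i k : Nat) :
    ∀ x < n, powT [W] i k x = powT (u.map T) i k x := by
  have hlt : ∀ u : List Nat, (∀ l ∈ u, l < L) → ∀ x < n, trN T u x < n := by
    intro u
    induction u with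
    | nil => intro _ x hx; exact hx
    | cons l u ih =>
      intro hu x hx
      exact ih (fun l' hl' => hu l' (List.mem_cons_of_mem _ hl')) _ (hT.lt l (hu l List.mem_cons_self) x hx)
  induction k with
  | zero => intro x _; rfl
  | succ k ih =>
    intro x hx
    have e1 : powT [W] i (k + 1) x = trT ([0].map (fun _ => W)) (fun x' => @Bool.rec (fun _ => Bool) (powT [W] i k x') true
      (Nat.ble (Nat.succ x') i)) x := rfl
    have e2 : powT (u.map T) i (k + 1) x = trT (u.map T) (fun x' => @Bool.rec (fun _ => Bool) (powT (u.map T) i k x') true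
      (Nat.ble (Nat.succ x') i)) x := rfl
    have e3 : trN (fun _ => W) [0] x = W x := rfl
    rw [e1, e2, trT_eq (fun _ => W), trT_eq T, e3, ← hW x hx, ih _ (hlt u hu x hx)]

theorem allR_powT_table {n L : Nat} {T : Nat → Nat → Nat} {inv : Nat → Nat} (hT : TableOK n L T inv) (W : Nat → Nat)
    (u : List Nat) (hu : ∀ l ∈ u, l < L) (k : Nat) (h1 : ∀ i < n, OT.ckEqW (u.map T) [W] i = true)
    (h2 : ∀ i < n, powT [W] i k i = true) : ∀ i < n, powT (u.map T) i k i = true := by
  intro i hi
  rw [← powT_table hT W u hu (fun j hj => ?_) i k i hi]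
  · exact h2 i hi
  · have h := h1 j hj
    unfold OT.ckEqW at h
    have e : [W] = [0].map (fun _ => W) := rfl
    rw [e, trT_eq T, trT_eq (fun _ => W)] at h
    exact Nat.eq_of_beq_eq_true h

end Cfsg.Agent.H8
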