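import Cfsg.Agent.H8.RelGroup
import Cfsg.Agent.H8.T.E7tL
import Cfsg.Agent.H8.T.E6t
import Cfsg.Agent.H8.T.D5t
import Cfsg.Agent.H8.T.A4t
import Cfsg.Agent.H8.T.A3t
import Cfsg.Agent.H8.T.A2t
import Cfsg.Agent.H8.T.A1t

/-!
# The Weyl group of type `E₇`: order 2903040. Letters `a, b, c, d, e, f, h`
-/

set_option autoImplicit false
set_option linter.all false
set_option maxRecDepth 100000
set_option maxHeartbeats 400000

namespace Cfsg.Agent.H8.E7P

/-- upper bound, for any group with these relations. -/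
theorem upper_of {G : Type*} [Group G] (s : Nat → G) (hinv : ∀ l, s l = (s l)⁻¹) (h31 : s 31 = 1)
    (base : ∀ p ∈ E7t.rels2, ((p.1.map s).prod) ^ p.2 = 1) :
    Finite (letterGroup s 7) ∧ Nat.card (letterGroup s 7) ≤ 2903040 := by
  have h1 := A1t.upper (subS s [1]) (subS_inv s _ hinv) (subS_31 s _ h31)
    (rels_sub s [1] _ _ base (by decide)) ⊥ (by intro w hw; exact absurd hw (by decide +revert)) inferInstance
  have h2 := A2t.upper (subS s [1, 2]) (subS_inv s _ hinv) (subS_31 s _ h31)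
    (rels_sub s [1, 2] _ _ base (by decide)) _ (sub_mem s [1, 2] [1] 1 _ (by decide)) h1.1
  have h3 := A3t.upper (subS s [1, 2, 3]) (subS_inv s _ hinv) (subS_31 s _ h31)
    (rels_sub s [1, 2, 3] _ _ base (by decide)) _ (sub_mem s [1, 2, 3] [1, 2] 2 _ (by decide)) h2.1
  have h4 := A4t.upper (subS s [1, 2, 3, 4]) (subS_inv s _ hinv) (subS_31 s _ h31)
    (rels_sub s [1, 2, 3, 4] _ _ base (by decide)) _ (sub_mem s [1, 2, 3, 4] [1, 2, 3] 3 _ (by decide)) h3.1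
  have h5 := D5t.upper (subS s [1, 2, 3, 4, 6]) (subS_inv s _ hinv) (subS_31 s _ h31)
    (rels_sub s [1, 2, 3, 4, 6] _ _ base (by decide)) _ (sub_mem s [1, 2, 3, 4, 6] [1, 2, 3, 4] 4 _ (by decide)) h4.1
  have h6 := E6t.upper (subS s [1, 2, 3, 4, 5, 6]) (subS_inv s _ hinv) (subS_31 s _ h31)
    (rels_sub s [1, 2, 3, 4, 5, 6] _ _ base (by decide)) _ (sub_mem s [1, 2, 3, 4, 5, 6] [1, 2, 3, 4, 6] 5 _ (by decide)) h5.1
  have h7 := E7t.upper s hinv h31 base (letterGroup (subS s [1, 2, 3, 4, 5, 6]) 6) (by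
    intro w hw
    have := sub_mem s [0, 1, 2, 3, 4, 5, 6] [1, 2, 3, 4, 5, 6] 6 E7t.subw (by decide) w hw
    have h5 : w.map (subS s [0, 1, 2, 3, 4, 5, 6]) = w.map s := by
      apply List.map_congr_left
      intro l hl
      have : ∀ w ∈ E7t.subw, ∀ l ∈ w, l < 7 := by decide
      exact subS_id s [0, 1, 2, 3, 4, 5, 6] 7 (by decide) l (this w hw l hl)
    rw [h5] at this
    exact this) h6.1
  refine ⟨h7.1, ?_⟩
  have e1 : Nat.card (⊥ : Subgroup G) = 1 := by simp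
  rw [e1] at h1
  omega

/-- the abstract presented group. -/
abbrev J : Type := RG 7 E7t.rels2

noncomputable def s : Nat → J := RG.gen 7 E7t.rels2

theorem s_inv : ∀ l, s l = (s l)⁻¹ := RG.gen_inv 7 E7t.rels2
theorem s_31 : s 31 = 1 := RG.gen_ge 7 E7t.rels2 31 (by decide)
theorem s_rels : ∀ p ∈ E7t.rels2, ((p.1.map s).prod) ^ p.2 = 1 := RG.gen_rels 7 E7t.rels2
theorem s_top : letterGroup s 7 = ⊤ := RG.letterGroup_top 7 E7t.rels2

theorem finite_and_card_le : Finite J ∧ Nat.card J ≤ 2903040 := by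
  have h := upper_of s s_inv s_31 s_rels
  rw [s_top] at h
  refine ⟨?_, ?_⟩
  · have := h.1
    exact Finite.of_equiv _ Subgroup.topEquiv.toEquiv
  · rw [Subgroup.card_top] at h
    exact h.2

instance J_finite : Finite J := finite_and_card_le.1

noncomputable def ρ : J →* Equiv.Perm (Fin 56) :=
  RG.lift 7 E7t.rels2 (permL E7t.tok) (permL_sq E7t.tok)
    (fun l hl => permL_ge E7t.tok l (by omega)) E7t.relp

theorem hρ' : ∀ l, ρ (s l) = permL E7t.tok l := fun l => RG.lift_gen 7 E7t.rels2 _ _ _ _ l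
theorem hρ : ∀ l < 7, ρ (s l) = permL E7t.tok l := fun l _ => hρ' l

theorem lowerP : 2903040 ≤ Nat.card (wordGroup (permL E7t.tok) E7t.chG0) := by
  have h1 := E7t.ch_lower (permL E7t.tok) (MonoidHom.id _) (fun l _ => rfl)
  omega

theorem ρ_injective : Function.Injective ρ := by
  apply injective_of_card ρ (wordGroup (permL E7t.tok) E7t.chG0)
  · rw [← RG.map_wordGroup ρ s _ hρ' E7t.chG0]
    rintro _ ⟨x, _, rfl⟩
    exact ⟨x, rfl⟩
  · exact le_trans finite_and_card_le.2 lowerP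
  · infer_instance

theorem wd (w : List Nat) (hw : ∀ l ∈ w, l < 7)
    (h : allR (fun i => powT (w.map E7t.T) i 1 i) 0 56 = true) : (w.map s).prod = 1 :=
  word_eq_one s E7t.tok ρ hρ ρ_injective w hw h

/-- transfer of an identity to any group with these relations. -/
theorem tr {P : Type*} [Group P] (t : Nat → P) (hsq : ∀ l, t l * t l = 1) (hge : ∀ l, 7 ≤ l → t l = 1)
    (hrel : ∀ p ∈ E7t.rels2, ((p.1.map t).prod) ^ p.2 = 1) (w : List Nat) (hw : ∀ l ∈ w, l < 7)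
    (h : allR (fun i => powT (w.map E7t.T) i 1 i) 0 56 = true) : (w.map t).prod = 1 := by
  have h1 := congrArg (RG.lift 7 E7t.rels2 t hsq hge hrel) (wd w hw h)
  rw [map_one, map_list_prod, List.map_map] at h1
  have h2 : (⇑(RG.lift 7 E7t.rels2 t hsq hge hrel) ∘ s) = t := by
    funext l
    exact RG.lift_gen 7 E7t.rels2 _ _ _ _ l
  rw [h2] at h1
  exact h1

theorem k1 : allR (fun i => powT ((wpow [0, 1, 2, 3, 4, 5, 6] 9 ++ wpow [0, 1, 2, 3, 4, 5, 6] 9).map E7t.T) i 1 i) 0 56 = true := by decide +kernel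
theorem k2 : allR (fun i => powT ((wpow [0, 1, 2, 3, 4, 5, 6] 9 ++ (wpow [5, 4, 3, 2, 1, 0, 6] 9).reverse).map E7t.T) i 1 i) 0 56 = true := by decide +kernel
theorem k3_0 : allR (fun i => powT (([0] ++ wpow [0, 1, 2, 3, 4, 5, 6] 9 ++ [0] ++ wpow [0, 1, 2, 3, 4, 5, 6] 9).map E7t.T) i 1 i) 0 56 = true := by decide +kernel
theorem k3_1 : allR (fun i => powT (([1] ++ wpow [0, 1, 2, 3, 4, 5, 6] 9 ++ [1] ++ wpow [0, 1, 2, 3, 4, 5, 6] 9).map E7t.T) i 1 i) 0 56 = true := by decide +kernel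
theorem k3_2 : allR (fun i => powT (([2] ++ wpow [0, 1, 2, 3, 4, 5, 6] 9 ++ [2] ++ wpow [0, 1, 2, 3, 4, 5, 6] 9).map E7t.T) i 1 i) 0 56 = true := by decide +kernel
theorem k3_3 : allR (fun i => powT (([3] ++ wpow [0, 1, 2, 3, 4, 5, 6] 9 ++ [3] ++ wpow [0, 1, 2, 3, 4, 5, 6] 9).map E7t.T) i 1 i) 0 56 = true := by decide +kernel
theorem k3_4 : allR (fun i => powT (([4] ++ wpow [0, 1, 2, 3, 4, 5, 6] 9 ++ [4] ++ wpow [0, 1, 2, 3, 4, 5, 6] 9).map E7t.T) i 1 i) 0 56 = true := by decide +kernel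
theorem k3_5 : allR (fun i => powT (([5] ++ wpow [0, 1, 2, 3, 4, 5, 6] 9 ++ [5] ++ wpow [0, 1, 2, 3, 4, 5, 6] 9).map E7t.T) i 1 i) 0 56 = true := by decide +kernel
theorem k3_6 : allR (fun i => powT (([6] ++ wpow [0, 1, 2, 3, 4, 5, 6] 9 ++ [6] ++ wpow [0, 1, 2, 3, 4, 5, 6] 9).map E7t.T) i 1 i) 0 56 = true := by decide +kernel

end Cfsg.Agent.H8.E7P
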