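import Cfsg.Agent.H8.Fi22Pres
import Cfsg.Agent.H8.DoubleCover
import Cfsg.Agent.H8.RelIso
import Cfsg.Agent.H8.WordTop
import Cfsg.Agent.H8.F4Vec
import Cfsg.Agent.H8.T.U6t
import Cfsg.Agent.H5.UnitSimple2

/-!
# The subgroup `2·U₆(2)` of the presented Fischer group `Fi₂₂`
-/

set_option autoImplicit false
set_option linter.all false
set_option maxRecDepth 100000

namespace Cfsg.Agent.H8.Fi22P

open Cfsg.Spor Cfsg.Agent.H5

/-! ### Faithfulness on 3510 points and word identities -/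

theorem ρ₂_injective : Function.Injective ρ₂ := by
  apply injective_of_simple simple ρ₂ (s 0)
  intro h
  have h1 := hρ₂ 0 (by decide)
  rw [h] at h1
  have h2 := permL_apply Fi22bt.tok 0 (by decide) ⟨1, by decide⟩
  rw [← h1] at h2
  revert h2
  decide +kernel

theorem wd₂ (w : List Nat) (hw : ∀ l ∈ w, l < 9)
    (h : allR (fun i => powT (w.map Fi22bt.T) i 1 i) 0 3510 = true) : (w.map s).prod = 1 :=
  word_eq_one s Fi22bt.tok ρ₂ hρ₂ ρ₂_injective w hw h

/-- the point stabiliser `2·U₆(2)`. -/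
abbrev HH : Subgroup Fi22 := wordGroup s Fi22bt.clG

theorem clG_eq₂ : Fi22bt.clG = [[0], [2], [3], [4], [5], [6], [7], [8], lw] := by decide

theorem s_mem (l : Nat) (hl : l ∈ [0, 2, 3, 4, 5, 6, 7, 8]) : s l ∈ HH := by
  have h2 : [l] ∈ Fi22bt.clG := by
    rw [clG_eq₂]
    simp only [List.mem_cons, List.not_mem_nil, or_false] at hl
    rcases hl with rfl | rfl | rfl | rfl | rfl | rfl | rfl | rfl <;> decide
  have h3 := mem_wordGroup s Fi22bt.clG _ h2
  simpa using h3

/-- word of the extra transposition. -/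
def apw : List Nat := [1, 2, 3, 7, 4, 3, 2, 1, 0, 1, 2, 3, 4, 7, 3, 2, 1]

def cpw : List Nat := [3, 7, 4, 3, 2, 3, 4, 7, 3]

theorem lw_id : (lw.map s).prod = s 0 * (apw.map s).prod * s 2 * (cpw.map s).prod * s 4 * s 7 := by
  have h := word_eq s s_inv lw ([0] ++ apw ++ [2] ++ cpw ++ [4] ++ [7]) (wd₂ _ (by decide) (by decide +kernel))
  rw [h]
  simp only [List.map_append, List.prod_append, List.map_singleton, List.prod_singleton]

theorem cpw_mem : (cpw.map s).prod ∈ HH := by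
  apply Subgroup.list_prod_mem
  intro x hx
  obtain ⟨l, hl, rfl⟩ := List.mem_map.1 hx
  have h : ∀ l ∈ cpw, l ∈ [0, 2, 3, 4, 5, 6, 7, 8] := by decide
  exact s_mem l (h l hl)

theorem ap_mem : (apw.map s).prod ∈ HH := by
  have h1 : (lw.map s).prod ∈ HH := mem_wordGroup s Fi22bt.clG _ (by rw [clG_eq₂]; decide)
  have h2 : (apw.map s).prod = (s 0)⁻¹ * (lw.map s).prod * (s 7)⁻¹ * (s 4)⁻¹ * ((cpw.map s).prod)⁻¹ * (s 2)⁻¹ := by
    rw [lw_id]; group
  rw [h2]
  exact mul_mem (mul_mem (mul_mem (mul_mem (mul_mem (inv_mem (s_mem 0 (by decide))) h1)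
    (inv_mem (s_mem 7 (by decide)))) (inv_mem (s_mem 4 (by decide)))) (inv_mem cpw_mem)) (inv_mem (s_mem 2 (by decide)))

/-- `a = (a' f e d c h)⁵`. -/
theorem a_id : ((apw.map s).prod * s 5 * s 4 * s 3 * s 2 * s 7) ^ 5 = s 0 := by
  have h := word_eq s s_inv (wpow (apw ++ [5] ++ [4] ++ [3] ++ [2] ++ [7]) 5) [0] (wd₂ _ (by decide) (by decide +kernel))
  rw [wpow_prod] at h
  simp only [List.map_append, List.prod_append, List.map_singleton, List.prod_singleton] at h
  exact h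

theorem af_id : ((apw.map s).prod * s 5) ^ 3 = 1 := by
  have h := wd₂ (wpow (apw ++ [5]) 3) (by decide) (by decide +kernel)
  rw [wpow_prod] at h
  simp only [List.map_append, List.prod_append, List.map_singleton, List.prod_singleton] at h
  exact h

theorem e7_id : ((([2, 3, 4, 5, 6, 7, 8] : List Nat).map s).prod) ^ 9 = 1 := by
  have h := wd₂ (wpow [2, 3, 4, 5, 6, 7, 8] 9) (by decide) (by decide +kernel)
  rw [wpow_prod] at h
  exact h

/-! ### The points of the transpositions -/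

/-- `h` fixes a point corresponding to a conjugate of `a`. -/
theorem comm_of_fix (h g : Fi22) (hh : ρ₂ h (ρ₂ g ⟨0, by decide⟩) = ρ₂ g ⟨0, by decide⟩) :
    h * (g * s 0 * g⁻¹) = (g * s 0 * g⁻¹) * h := by
  have h1 : g⁻¹ * h * g ∈ wordGroup s Fi22bt.clG := by
    rw [index_stab.2]
    change ρ₂ (g⁻¹ * h * g) ⟨0, by decide⟩ = ⟨0, by decide⟩
    rw [map_mul, map_mul, Equiv.Perm.mul_apply, Equiv.Perm.mul_apply, hh, ← Equiv.Perm.mul_apply, ← map_mul,
      inv_mul_cancel, map_one]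
    rfl
  have h2 := a_central _ h1
  calc h * (g * s 0 * g⁻¹) = g * ((g⁻¹ * h * g) * s 0) * g⁻¹ := by group
    _ = g * (s 0 * (g⁻¹ * h * g)) * g⁻¹ := by rw [h2]
    _ = (g * s 0 * g⁻¹) * h := by group

theorem braid_s (u v : Nat) (h : ([u, v], 3) ∈ Fi22at.rels2) : (s u * s v) * s u * (s u * s v)⁻¹ = s v := by
  apply braid_conj _ _ (s_sq u) (s_sq v)
  have := base _ h
  simpa using this

def gl : Nat → List Nat
  | 1 => [0, 1]
  | 2 => [1, 2, 0, 1]
  | 3 => [2, 3, 1, 2, 0, 1]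
  | 4 => [3, 4, 2, 3, 1, 2, 0, 1]
  | 5 => [4, 5, 3, 4, 2, 3, 1, 2, 0, 1]
  | 6 => [5, 6, 4, 5, 3, 4, 2, 3, 1, 2, 0, 1]
  | 7 => [3, 7, 2, 3, 1, 2, 0, 1]
  | 8 => [7, 8, 3, 7, 2, 3, 1, 2, 0, 1]
  | _ => []

theorem conj_step (u v : Nat) (h : ([u, v], 3) ∈ Fi22at.rels2) (w : List Nat)
    (hw : (w.map s).prod * s 0 * ((w.map s).prod)⁻¹ = s u) :
    (([u, v] ++ w).map s).prod * s 0 * ((([u, v] ++ w).map s).prod)⁻¹ = s v := by
  have e : (([u, v] ++ w).map s).prod = (s u * s v) * (w.map s).prod := by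
    simp only [List.map_append, List.prod_append, List.map_cons, List.map_nil, List.prod_cons, List.prod_nil,
      mul_one]
  rw [e]
  calc (s u * s v) * (w.map s).prod * s 0 * ((s u * s v) * (w.map s).prod)⁻¹
      = (s u * s v) * ((w.map s).prod * s 0 * ((w.map s).prod)⁻¹) * (s u * s v)⁻¹ := by
        rw [mul_inv_rev]; simp only [mul_assoc]
    _ = s v := by rw [hw]; exact braid_s u v h

theorem gl_conj : ∀ l ∈ [2, 3, 4, 5, 6, 7, 8], ((gl l).map s).prod * s 0 * (((gl l).map s).prod)⁻¹ = s l := by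
  have h0 : ((([] : List Nat)).map s).prod * s 0 * (((([] : List Nat)).map s).prod)⁻¹ = s 0 := by simp
  have h1 := conj_step 0 1 (by decide) _ h0
  have h2 := conj_step 1 2 (by decide) _ h1
  have h3 := conj_step 2 3 (by decide) _ h2
  have h4 := conj_step 3 4 (by decide) _ h3
  have h5 := conj_step 4 5 (by decide) _ h4
  have h6 := conj_step 5 6 (by decide) _ h5
  have h7 := conj_step 3 7 (by decide) _ h3
  have h8 := conj_step 7 8 (by decide) _ h7
  intro l hl
  simp only [List.mem_cons, List.not_mem_nil, or_false] at hl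
  rcases hl with rfl | rfl | rfl | rfl | rfl | rfl | rfl
  · exact h2
  · exact h3
  · exact h4
  · exact h5
  · exact h6
  · exact h7
  · exact h8

/-- value of a word at a point. -/
theorem rho_rev (w : List Nat) (hw : ∀ l ∈ w, l < 9) (i : Fin 3510) :
    ((ρ₂ (w.map s).prod i : Fin 3510) : Nat) = trN Fi22bt.T w.reverse i := by
  have h := rho_word s Fi22bt.tok ρ₂ hρ₂ w.reverse (by intro l hl; exact hw l (List.mem_reverse.1 hl)) i
  rw [← h, ← map_inv, word_inv s s_inv, List.reverse_reverse]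

theorem inv_cls (h : HH) (i : Fin 3510) : Fi22bt.clC (ρ₂ (h : Fi22) i) = Fi22bt.clC i :=
  cls_invariant s Fi22bt.tok ρ₂ hρ₂ Fi22bt.clC Fi22bt.clQ Fi22bt.clG Fi22bt.clR (by decide) Fi22bt.clOK h h.2 i

/-- an element of the stabiliser fixing all 693 points commutes with the generators. -/
theorem comm_gens (h : Fi22) (hfix : ∀ i : Fin 3510, Fi22bt.clC i = 2 → ρ₂ h i = i) :
    (∀ l ∈ [2, 3, 4, 5, 6, 7, 8], h * s l = s l * h) ∧ h * (apw.map s).prod = (apw.map s).prod * h := by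
  constructor
  · intro l hl
    have h1 := gl_conj l hl
    rw [← h1]
    apply comm_of_fix
    apply hfix
    have k1 : ∀ l ∈ [2, 3, 4, 5, 6, 7, 8], ∀ m ∈ gl l, m < 9 := by decide
    have k2 : ∀ l ∈ [2, 3, 4, 5, 6, 7, 8], Fi22bt.clC (trN Fi22bt.T (gl l).reverse 0) = 2 := by decide +kernel
    rw [rho_rev _ (k1 l hl)]
    exact k2 l hl
  · have h1 : (apw.map s).prod = ((([1, 2, 3, 7, 4, 3, 2, 1] : List Nat)).map s).prod * s 0 *
        (((([1, 2, 3, 7, 4, 3, 2, 1] : List Nat)).map s).prod)⁻¹ := by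
      have e := word_inv s s_inv [1, 2, 3, 7, 4, 3, 2, 1]
      rw [e]
      have e2 : apw = [1, 2, 3, 7, 4, 3, 2, 1] ++ [0] ++ ([1, 2, 3, 7, 4, 3, 2, 1] : List Nat).reverse := by decide
      rw [e2]
      simp only [List.map_append, List.prod_append, List.map_singleton, List.prod_singleton]
    rw [h1]
    apply comm_of_fix
    apply hfix
    rw [rho_rev _ (by decide)]
    decide +kernel

/-- an element of the stabiliser fixing all 693 points commutes with the stabiliser. -/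
theorem comm_all (h : Fi22) (hH : h ∈ HH) (hfix : ∀ i : Fin 3510, Fi22bt.clC i = 2 → ρ₂ h i = i) :
    ∀ g ∈ HH, h * g = g * h := by
  obtain ⟨h1, h2⟩ := comm_gens h hfix
  have h0 : h * s 0 = s 0 * h := a_central h hH
  have hl : ∀ l ∈ [0, 2, 3, 4, 5, 6, 7, 8], h * s l = s l * h := by
    intro l hl
    rcases List.mem_cons.1 hl with rfl | hl
    · exact h0
    · exact h1 l hl
  have hc : (cpw.map s).prod ∈ Subgroup.centralizer {h} := by
    apply Subgroup.list_prod_mem
    intro x hx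
    obtain ⟨l, hl', rfl⟩ := List.mem_map.1 hx
    have k : ∀ l ∈ cpw, l ∈ [0, 2, 3, 4, 5, 6, 7, 8] := by decide
    rw [Subgroup.mem_centralizer_singleton_iff]
    exact (hl l (k l hl')).symm
  have hs : ∀ l ∈ [0, 2, 3, 4, 5, 6, 7, 8], s l ∈ Subgroup.centralizer {h} := by
    intro l hl'
    rw [Subgroup.mem_centralizer_singleton_iff]
    exact (hl l hl').symm
  have ha : (apw.map s).prod ∈ Subgroup.centralizer {h} := by
    rw [Subgroup.mem_centralizer_singleton_iff]
    exact h2.symm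
  have hle : HH ≤ Subgroup.centralizer {h} := by
    unfold HH wordGroup
    rw [Subgroup.closure_le]
    rintro _ ⟨w, hw, rfl⟩
    rw [clG_eq₂] at hw
    simp only [List.mem_cons, List.not_mem_nil, or_false] at hw
    rcases hw with rfl | rfl | rfl | rfl | rfl | rfl | rfl | rfl | rfl
    · simpa using hs 0 (by decide)
    · simpa using hs 2 (by decide)
    · simpa using hs 3 (by decide)
    · simpa using hs 4 (by decide)
    · simpa using hs 5 (by decide)
    · simpa using hs 6 (by decide)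
    · simpa using hs 7 (by decide)
    · simpa using hs 8 (by decide)
    · rw [SetLike.mem_coe, lw_id]
      exact mul_mem (mul_mem (mul_mem (mul_mem (mul_mem (hs 0 (by decide)) ha) (hs 2 (by decide))) hc)
        (hs 4 (by decide))) (hs 7 (by decide))
  intro g hg
  have := hle hg
  rw [Subgroup.mem_centralizer_singleton_iff] at this
  exact this.symm

theorem T_of (l : Nat) (hl : l < 9) (i : Fin 3510) : ((ρ₂ (s l) i : Fin 3510) : Nat) = Fi22bt.T l i := by
  have h := rho_rev [l] (by simpa using hl) i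
  simpa [trN] using h

theorem trans_cls (i j : Fin 3510) (hij : Fi22bt.clC i = Fi22bt.clC j) : ∃ g ∈ HH, ρ₂ g i = j :=
  cls_trans s Fi22bt.tok ρ₂ hρ₂ Fi22bt.clC Fi22bt.clQ Fi22bt.clG Fi22bt.clR (by decide) Fi22bt.clOK i j hij

theorem cls_cases (i : Fin 3510) : (i : Nat) = 0 ∨ Fi22bt.clC i = 1 ∨ Fi22bt.clC i = 2 := by
  have h := allR_zero _ _ U6t.ckZ3 i i.2
  cases h2 : Nat.beq (Fi22bt.clC i) 2
  · rw [h2] at h
    cases h1 : Nat.beq (Fi22bt.clC i) 1
    · rw [h1] at h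
      exact Or.inl (Nat.eq_of_beq_eq_true h)
    · exact Or.inr (Or.inl (Nat.eq_of_beq_eq_true h1))
  · exact Or.inr (Or.inr (Nat.eq_of_beq_eq_true h2))

/-- the kernel on the 693 points. -/
theorem fix_all (h : Fi22) (hH : h ∈ HH) (hfix : ∀ i : Fin 3510, Fi22bt.clC i = 2 → ρ₂ h i = i)
    (h2 : ρ₂ h ⟨2, by decide⟩ = ⟨2, by decide⟩) : h = 1 := by
  apply ρ₂_injective
  rw [map_one]
  apply Equiv.ext
  intro i
  rw [Equiv.Perm.one_apply]
  rcases cls_cases i with h0 | h1 | h1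
  · have e : i = ⟨0, by decide⟩ := Fin.ext h0
    rw [e]
    have hH' : h ∈ wordGroup s Fi22bt.clG := hH
    rw [index_stab.2] at hH'
    exact hH'
  · obtain ⟨g, hg, rfl⟩ := trans_cls ⟨2, by decide⟩ i (by rw [h1]; decide +kernel)
    rw [← Equiv.Perm.mul_apply, ← map_mul, comm_all h hH hfix g hg, map_mul, Equiv.Perm.mul_apply, h2]
  · exact hfix i h1

theorem s0_fix (i : Fin 3510) (hi : Fi22bt.clC i = 2) : ρ₂ (s 0) i = i := by
  have h := allR_zero _ _ U6t.ckZ2 i i.2
  have h2 : Nat.beq (Fi22bt.clC i) 2 = true := by rw [hi]; rfl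
  rw [h2] at h
  apply Fin.ext
  rw [T_of 0 (by decide)]
  exact Nat.eq_of_beq_eq_true h

theorem ker693 (h : Fi22) (hH : h ∈ HH) (hfix : ∀ i : Fin 3510, Fi22bt.clC i = 2 → ρ₂ h i = i) :
    h = 1 ∨ h = s 0 := by
  have hc := comm_all h hH hfix
  -- the image of the point `2`
  set y := ρ₂ h ⟨2, by decide⟩ with hy
  have hcl : Fi22bt.clC y = 1 := by
    have := inv_cls ⟨h, hH⟩ ⟨2, by decide⟩
    rw [hy, this]
    decide +kernel
  have hfixl : ∀ l ∈ [3, 4, 5, 6, 7, 8], Fi22bt.T l y = y := by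
    intro l hl
    have k1 : ∀ l ∈ [3, 4, 5, 6, 7, 8], l < 9 ∧ l ∈ [0, 2, 3, 4, 5, 6, 7, 8] ∧
      Fi22bt.T l 2 = 2 := by decide +kernel
    obtain ⟨k2, k3, k4⟩ := k1 l hl
    have h1 : ρ₂ (s l) ⟨2, by decide⟩ = ⟨2, by decide⟩ := by
      apply Fin.ext
      rw [T_of l k2]
      exact k4
    rw [← T_of l k2]
    congr 1
    rw [hy, ← Equiv.Perm.mul_apply, ← map_mul, ← hc (s l) (s_mem l k3), map_mul, Equiv.Perm.mul_apply, h1]
  have h12 : (y : Nat) = 1 ∨ (y : Nat) = 2 := by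
    have h := allR_zero _ _ U6t.ckZ1 y y.2
    have b : ∀ l, Fi22bt.T l y = y → Nat.beq (Fi22bt.T l y) y = true := fun l hl => by
      rw [hl]; exact Nat.beq_refl _
    have b3 : Nat.beq (Fi22bt.T3 y) y = true := b 3 (hfixl 3 (by decide))
    have b4 : Nat.beq (Fi22bt.T4 y) y = true := b 4 (hfixl 4 (by decide))
    have b5 : Nat.beq (Fi22bt.T5 y) y = true := b 5 (hfixl 5 (by decide))
    have b6 : Nat.beq (Fi22bt.T6 y) y = true := b 6 (hfixl 6 (by decide))
    have b7 : Nat.beq (Fi22bt.T7 y) y = true := b 7 (hfixl 7 (by decide))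
    have b8 : Nat.beq (Fi22bt.T8 y) y = true := b 8 (hfixl 8 (by decide))
    have b1 : Nat.beq (Fi22bt.clC y) 1 = true := by rw [hcl]; rfl
    rw [b1, b3, b4, b5, b6, b7, b8] at h
    cases h3 : Nat.beq (y : Nat) 1
    · rw [h3] at h
      cases h4 : Nat.beq (y : Nat) 2
      · rw [h4] at h
        exact absurd (show false = true from h) Bool.false_ne_true
      · exact Or.inr (Nat.eq_of_beq_eq_true h4)
    · exact Or.inl (Nat.eq_of_beq_eq_true h3)
  rcases h12 with h1 | h2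
  · right
    have h3 : s 0 * h = 1 := by
      apply fix_all _ (mul_mem (s_mem 0 (by decide)) hH)
      · intro i hi
        rw [map_mul, Equiv.Perm.mul_apply, hfix i hi, s0_fix i hi]
      · rw [map_mul, Equiv.Perm.mul_apply, ← hy]
        apply Fin.ext
        rw [T_of 0 (by decide), h1]
        decide +kernel
    rw [eq_inv_of_mul_eq_one_right h3, ← s_inv]
  · left
    apply fix_all h hH hfix
    rw [← hy]
    exact Fin.ext h2

/-! ### The unitary side -/

theorem hF4 : Fintype.card F4 = 2 ^ 2 := rfl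

/-- vector of a point. -/
noncomputable def vec (i : Fin 3510) : Fin 6 → F4 := vecF 6 (U6t.vc i)

/-- the matrix of an element of `SU₆(2)`. -/
abbrev mt (M : Cfsg.SU 6 F4 2) : Matrix (Fin 6) (Fin 6) F4 :=
  ((M : Matrix.SpecialLinearGroup (Fin 6) F4) : Matrix (Fin 6) (Fin 6) F4)

/-- the relation. -/
def RR (h : HH) (M : Cfsg.SU 6 F4 2) : Prop :=
  ∀ i : Fin 3510, Fi22bt.clC i = 2 → ∃ c : F4, c ≠ 0 ∧ (mt M).mulVec (vec i) = c • vec (ρ₂ (h : Fi22) i)

theorem RR_one : RR 1 1 := by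
  intro i _
  refine ⟨1, one_ne_zero, ?_⟩
  simp [mt]

theorem RR_mul (h : HH) (M : Cfsg.SU 6 F4 2) (h' : HH) (M' : Cfsg.SU 6 F4 2) (H : RR h M) (H' : RR h' M') :
    RR (h * h') (M * M') := by
  intro i hi
  obtain ⟨c', hc', e'⟩ := H' i hi
  obtain ⟨c, hc, e⟩ := H (ρ₂ (h' : Fi22) i) (by rw [inv_cls h' i]; exact hi)
  refine ⟨c' * c, mul_ne_zero hc' hc, ?_⟩
  have e1 : mt (M * M') = mt M * mt M' := by simp [mt]
  rw [e1, ← Matrix.mulVec_mulVec, e', Matrix.mulVec_smul, e, smul_smul]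
  simp

theorem mt_mul (A B : Cfsg.SU 6 F4 2) : mt (A * B) = mt A * mt B := by simp [mt]

theorem RR_inv (h : HH) (M : Cfsg.SU 6 F4 2) (H : RR h M) : RR h⁻¹ M⁻¹ := by
  intro i hi
  obtain ⟨c, hc, e⟩ := H (ρ₂ ((h⁻¹ : HH) : Fi22) i) (by rw [inv_cls h⁻¹ i]; exact hi)
  refine ⟨c⁻¹, inv_ne_zero hc, ?_⟩
  have e1 : mt M⁻¹ * mt M = 1 := by
    rw [← mt_mul, inv_mul_cancel]
    simp [mt]
  have e2 : ρ₂ (h : Fi22) (ρ₂ ((h⁻¹ : HH) : Fi22) i) = i := by
    rw [← Equiv.Perm.mul_apply, ← map_mul]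
    simp
  rw [e2] at e
  have e3 := congrArg (fun v => (mt M⁻¹).mulVec v) e
  simp only [Matrix.mulVec_mulVec, e1, Matrix.one_mulVec, Matrix.mulVec_smul] at e3
  rw [e3, smul_smul, inv_mul_cancel₀ hc, one_smul]

/-- existence of the transvection. -/
theorem exists_trv (v : Fin 6 → F4) (hv : ∑ k : Fin 6, (v k) ^ 2 * v k = 0) :
    ∃ M : Cfsg.SU 6 F4 2, ∀ x, (mt M).mulVec x = x + (∑ k : Fin 6, (v k) ^ 2 * x k) • v := by
  obtain ⟨σ, hσ, hσ2, hσ1⟩ := exists_frob hF4
  have hv' : hB (Fin 6) σ v v = 0 := by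
    rw [hB_apply, ← hv]
    apply Finset.sum_congr rfl
    intro i _
    rw [hσ]
  obtain ⟨A, _, hA⟩ := exists_suT (n := 6) (q := 2) hσ hσ2 hv' (c := 1) (by
    rw [map_one]; rfl)
  refine ⟨A, fun x => ?_⟩
  have h := hA x
  have e : (∑ k : Fin 6, (v k) ^ 2 * x k) = 1 * hB (Fin 6) σ v x := by
    rw [one_mul, hB_apply]
    apply Finset.sum_congr rfl
    intro i _
    rw [hσ]
  rw [e]
  exact h

/-- a checked word is in relation with a transvection. -/
theorem RR_word (w : List Nat) (hw : ∀ l ∈ w, l < 9) (hm : (w.map s).prod ∈ HH) (t0 t1 t2 t3 t4 t5 : F4)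
    (hv : ∑ k : Fin 6, (![t0, t1, t2, t3, t4, t5] k) ^ 2 * ![t0, t1, t2, t3, t4, t5] k = 0)
    (hck : allR (fun i => @Bool.rec (fun _ => Bool) true (trT (w.map Fi22bt.T)
      (fun j => ckTau6 t0 t1 t2 t3 t4 t5 (U6t.vc i) (U6t.vc j)) i) (Nat.beq (Fi22bt.clC i) 2)) 0 3510 = true) :
    ∃ M, RR ⟨(w.map s).prod, hm⟩ M := by
  obtain ⟨M, hM⟩ := exists_trv _ hv
  refine ⟨M⁻¹, ?_⟩
  have h1 : RR ⟨(w.map s).prod, hm⟩⁻¹ M := by
    intro i hi
    have h := allR_zero _ _ hck i i.2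
    have h2 : Nat.beq (Fi22bt.clC i) 2 = true := by rw [hi]; rfl
    rw [h2] at h
    have h3 : trT (w.map Fi22bt.T) (fun j => ckTau6 t0 t1 t2 t3 t4 t5 (U6t.vc i) (U6t.vc j)) i = true := h
    rw [trT_eq] at h3
    obtain ⟨a, ha, h4⟩ := ckTau6_sound _ _ _ _ _ _ _ _ h3
    refine ⟨a, ha, ?_⟩
    rw [hM]
    have h5 : ((ρ₂ (((⟨(w.map s).prod, hm⟩ : HH)⁻¹ : HH) : Fi22) i : Fin 3510) : Nat) = trN Fi22bt.T w i := by
      have := rho_word s Fi22bt.tok ρ₂ hρ₂ w hw i
      rw [← this, ← map_inv]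
      rfl
    unfold vec
    rw [h5]
    exact h4
  have := RR_inv _ _ h1
  rw [inv_inv] at this
  exact this

theorem RR_tot : ∀ h : HH, ∃ M, RR h M := by
  apply rel_total RR RR_one RR_mul RR_inv
    {h | ∃ M, RR h M} _ (fun h hh => hh)
  apply wordGroup_sub_top'
  have key : ∀ l ∈ [0, 2, 3, 4, 5, 6, 7, 8], ∀ x : HH, (x : Fi22) = s l → ∃ M, RR x M := by
    intro l hl x hx
    simp only [List.mem_cons, List.not_mem_nil, or_false] at hl
    have e : ∀ l (hl : ([l].map s).prod ∈ HH), (x : Fi22) = s l → x = ⟨([l].map s).prod, hl⟩ :=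
      fun l hl h => Subtype.ext (by simpa using h)
    rcases hl with rfl | rfl | rfl | rfl | rfl | rfl | rfl | rfl
    · refine ⟨1, ?_⟩
      intro i hi
      refine ⟨1, one_ne_zero, ?_⟩
      rw [hx, s0_fix i hi]
      simp [mt]
    · rw [e 2 (by simpa using s_mem 2 (by decide)) hx]
      exact RR_word [2] (by decide) _ F4.z F4.z F4.w F4.v F4.w F4.v (by decide +kernel) U6t.ck2
    · rw [e 3 (by simpa using s_mem 3 (by decide)) hx]
      exact RR_word [3] (by decide) _ F4.z F4.z F4.z F4.z F4.o F4.o (by decide +kernel) U6t.ck3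
    · rw [e 4 (by simpa using s_mem 4 (by decide)) hx]
      exact RR_word [4] (by decide) _ F4.z F4.z F4.z F4.z F4.w F4.v (by decide +kernel) U6t.ck4
    · rw [e 5 (by simpa using s_mem 5 (by decide)) hx]
      exact RR_word [5] (by decide) _ F4.z F4.z F4.o F4.o F4.o F4.o (by decide +kernel) U6t.ck5
    · rw [e 6 (by simpa using s_mem 6 (by decide)) hx]
      exact RR_word [6] (by decide) _ F4.z F4.z F4.w F4.v F4.z F4.z (by decide +kernel) U6t.ck6
    · rw [e 7 (by simpa using s_mem 7 (by decide)) hx]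
      exact RR_word [7] (by decide) _ F4.o F4.o F4.w F4.v F4.w F4.v (by decide +kernel) U6t.ck7
    · rw [e 8 (by simpa using s_mem 8 (by decide)) hx]
      exact RR_word [8] (by decide) _ F4.w F4.v F4.z F4.z F4.z F4.z (by decide +kernel) U6t.ck8
  obtain ⟨MA, hMA⟩ := RR_word apw (by decide) ap_mem F4.v F4.v F4.w F4.v F4.z F4.z (by decide +kernel) U6t.ckA
  intro w hw x hx
  rw [clG_eq₂] at hw
  have kl : ∀ l ∈ [0, 2, 3, 4, 5, 6, 7, 8], ∀ x : HH, (x : Fi22) = s l → x ∈ Subgroup.closure {h | ∃ M, RR h M} :=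
    fun l hl x hx => Subgroup.subset_closure (key l hl x hx)
  simp only [List.mem_cons, List.not_mem_nil, or_false] at hw
  rcases hw with rfl | rfl | rfl | rfl | rfl | rfl | rfl | rfl | rfl
  · exact kl 0 (by decide) x (by simpa using hx)
  · exact kl 2 (by decide) x (by simpa using hx)
  · exact kl 3 (by decide) x (by simpa using hx)
  · exact kl 4 (by decide) x (by simpa using hx)
  · exact kl 5 (by decide) x (by simpa using hx)
  · exact kl 6 (by decide) x (by simpa using hx)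
  · exact kl 7 (by decide) x (by simpa using hx)
  · exact kl 8 (by decide) x (by simpa using hx)
  · have hc : (⟨(cpw.map s).prod, cpw_mem⟩ : HH) ∈ Subgroup.closure {h | ∃ M, RR h M} := by
      have e : (⟨(cpw.map s).prod, cpw_mem⟩ : HH) =
          ⟨s 3, s_mem 3 (by decide)⟩ * ⟨s 7, s_mem 7 (by decide)⟩ * ⟨s 4, s_mem 4 (by decide)⟩ *
          ⟨s 3, s_mem 3 (by decide)⟩ * ⟨s 2, s_mem 2 (by decide)⟩ * ⟨s 3, s_mem 3 (by decide)⟩ *
          ⟨s 4, s_mem 4 (by decide)⟩ * ⟨s 7, s_mem 7 (by decide)⟩ * ⟨s 3, s_mem 3 (by decide)⟩ := by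
        apply Subtype.ext
        simp [cpw, mul_assoc]
      rw [e]
      have m3 := kl 3 (by decide) ⟨s 3, s_mem 3 (by decide)⟩ rfl
      have m7 := kl 7 (by decide) ⟨s 7, s_mem 7 (by decide)⟩ rfl
      have m4 := kl 4 (by decide) ⟨s 4, s_mem 4 (by decide)⟩ rfl
      have m2 := kl 2 (by decide) ⟨s 2, s_mem 2 (by decide)⟩ rfl
      exact mul_mem (mul_mem (mul_mem (mul_mem (mul_mem (mul_mem (mul_mem (mul_mem m3 m7) m4) m3) m2) m3) m4) m7) m3
    have e : x = ⟨s 0, s_mem 0 (by decide)⟩ * ⟨(apw.map s).prod, ap_mem⟩ * ⟨s 2, s_mem 2 (by decide)⟩ *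
        ⟨(cpw.map s).prod, cpw_mem⟩ * ⟨s 4, s_mem 4 (by decide)⟩ * ⟨s 7, s_mem 7 (by decide)⟩ := by
      apply Subtype.ext
      rw [hx, lw_id]
      rfl
    rw [e]
    exact mul_mem (mul_mem (mul_mem (mul_mem (mul_mem (kl 0 (by decide) _ rfl)
      (Subgroup.subset_closure ⟨MA, hMA⟩)) (kl 2 (by decide) _ rfl)) hc) (kl 4 (by decide) _ rfl))
      (kl 7 (by decide) _ rfl)

/-! ### Kernels -/

/-- normalised vectors of the letters `d, e, f, g, h, i` as columns. -/
noncomputable def Bm : Matrix (Fin 6) (Fin 6) F4 := !![F4.z, F4.z, F4.z, F4.z, F4.o, F4.o; F4.z, F4.z, F4.z, F4.z, F4.o, F4.w; F4.z, F4.z, F4.o, F4.o, F4.w, F4.z; F4.z, F4.z, F4.o, F4.w, F4.v, F4.z; F4.o, F4.o, F4.o, F4.z, F4.w, F4.z; F4.o, F4.w, F4.o, F4.z, F4.v, F4.z]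
noncomputable def Bi : Matrix (Fin 6) (Fin 6) F4 := !![F4.z, F4.z, F4.v, F4.w, F4.v, F4.w; F4.o, F4.v, F4.z, F4.z, F4.w, F4.w; F4.z, F4.z, F4.v, F4.w, F4.z, F4.z; F4.o, F4.v, F4.w, F4.w, F4.z, F4.z; F4.v, F4.w, F4.z, F4.z, F4.z, F4.z; F4.w, F4.w, F4.z, F4.z, F4.z, F4.z]

theorem Bm_mul' : ∀ i j : Fin 6, (∑ k : Fin 6, Bm i k * Bi k j) = (if i = j then F4.o else F4.z) := by decide +kernel

theorem Bm_mul : Bm * Bi = 1 := by
  ext i j
  rw [Matrix.mul_apply, Matrix.one_apply, Bm_mul']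
  rfl

/-- points of the letters. -/
def xp : Fin 6 → Nat := ![16, 40, 88, 154, 43, 92]

theorem Bm_col : ∀ j k : Fin 6, Bm k j = vecF 6 (U6t.vc (xp j)) k := by decide +kernel

theorem adj_ne : ∀ p ∈ [((0 : Fin 6), (1 : Fin 6)), (1, 2), (2, 3), (0, 4), (4, 5)],
    (∑ m : Fin 6, (vecF 6 (U6t.vc (xp p.1)) m) ^ 2 * vecF 6 (U6t.vc (xp p.2)) m) ≠ 0 := by decide +kernel

theorem scalar_of_RR (M : Cfsg.SU 6 F4 2) (h : RR 1 M) : ∃ c : F4, mt M = c • 1 := by
  have hx : ∀ j : Fin 6, xp j < 3510 := by decide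
  have hc : ∀ j : Fin 6, Fi22bt.clC (xp j) = 2 := by decide +kernel
  have h1 : ∀ j : Fin 6, ∃ c : F4, c ≠ 0 ∧ (mt M).mulVec (vec ⟨xp j, hx j⟩) = c • vec ⟨xp j, hx j⟩ := by
    intro j
    obtain ⟨c, hc0, e⟩ := h ⟨xp j, hx j⟩ (hc j)
    exact ⟨c, hc0, by simpa using e⟩
  choose c hc0 hce using h1
  obtain ⟨σ, hσ, hσ2, hσ1⟩ := exists_frob hF4
  have hM := (mem_SU_iff (n := 6) (q := 2) hσ).1 M.2
  -- adjacent letters have the same eigenvalue
  have adj : ∀ j k : Fin 6, (∑ m : Fin 6, (vec ⟨xp j, hx j⟩ m) ^ 2 * vec ⟨xp k, hx k⟩ m) ≠ 0 → c j = c k := by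
    intro j k hjk
    have h2 := hM (vec ⟨xp j, hx j⟩) (vec ⟨xp k, hx k⟩)
    change hB (Fin 6) σ ((mt M).mulVec _) ((mt M).mulVec _) = _ at h2
    rw [hce j, hce k] at h2
    have e1 : hB (Fin 6) σ (c j • vec ⟨xp j, hx j⟩) (c k • vec ⟨xp k, hx k⟩) =
        (c j) ^ 2 * c k * hB (Fin 6) σ (vec ⟨xp j, hx j⟩) (vec ⟨xp k, hx k⟩) := by
      rw [hB_apply, hB_apply, Finset.mul_sum]
      apply Finset.sum_congr rfl
      intro m _
      rw [hσ, hσ, Pi.smul_apply, Pi.smul_apply, smul_eq_mul, smul_eq_mul]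
      ring
    rw [e1] at h2
    have e2 : hB (Fin 6) σ (vec ⟨xp j, hx j⟩) (vec ⟨xp k, hx k⟩) ≠ 0 := by
      rw [hB_apply]
      intro h0
      apply hjk
      rw [← h0]
      apply Finset.sum_congr rfl
      intro m _
      rw [hσ]
    have e3 : (c j) ^ 2 * c k = 1 := by
      have h3 : ((c j) ^ 2 * c k - 1) * hB (Fin 6) σ (vec ⟨xp j, hx j⟩) (vec ⟨xp k, hx k⟩) = 0 := by
        rw [sub_mul, h2, one_mul, sub_self]
      exact sub_eq_zero.1 ((mul_eq_zero.1 h3).resolve_right e2)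
    have e4 : (c j) ^ 2 * c j = 1 := by
      rw [← pow_succ]; exact F4.pow_three (hc0 j)
    exact mul_left_cancel₀ (pow_ne_zero 2 (hc0 j)) (e4.trans e3.symm)
  have a01 := adj 0 1 (adj_ne (0, 1) (by decide))
  have a12 := adj 1 2 (adj_ne (1, 2) (by decide))
  have a23 := adj 2 3 (adj_ne (2, 3) (by decide))
  have a04 := adj 0 4 (adj_ne (0, 4) (by decide))
  have a45 := adj 4 5 (adj_ne (4, 5) (by decide))
  have all : ∀ j : Fin 6, c j = c 0 := by
    intro j
    fin_cases j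
    · rfl
    · exact a01.symm
    · exact (a01.trans a12).symm
    · exact (a01.trans (a12.trans a23)).symm
    · exact a04.symm
    · exact (a04.trans a45).symm
  refine ⟨c 0, ?_⟩
  have h2 : mt M * Bm = c 0 • Bm := by
    ext k j
    have h3 := congrFun (hce j) k
    rw [all j] at h3
    rw [Matrix.mul_apply, Matrix.smul_apply, Bm_col]
    have h4 : ∀ m, Bm m j = vec ⟨xp j, hx j⟩ m := fun m => Bm_col j m
    simp only [h4]
    exact h3
  calc mt M = mt M * (Bm * Bi) := by rw [Bm_mul, Matrix.mul_one]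
    _ = c 0 • 1 := by rw [← Matrix.mul_assoc, h2, Matrix.smul_mul, Bm_mul]

theorem center_of_scalar (M : Cfsg.SU 6 F4 2) (h : ∃ c : F4, mt M = c • 1) : M ∈ Subgroup.center (Cfsg.SU 6 F4 2) := by
  obtain ⟨c, hc⟩ := h
  rw [Subgroup.mem_center_iff]
  intro g
  apply Subtype.ext
  apply Subtype.ext
  change mt (g * M) = mt (M * g)
  rw [mt_mul, mt_mul, hc, Matrix.mul_smul, Matrix.smul_mul, Matrix.mul_one, Matrix.one_mul]

theorem fix_of_center (h : HH) (M : Cfsg.SU 6 F4 2) (H : RR h M) (hM : M ∈ Subgroup.center (Cfsg.SU 6 F4 2)) :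
    ∀ i : Fin 3510, Fi22bt.clC i = 2 → ρ₂ (h : Fi22) i = i := by
  obtain ⟨σ, hσ, hσ2, hσ1⟩ := exists_frob hF4
  obtain ⟨c, hc⟩ := SU_center_scalar (n := 6) (q := 2) hF4 hσ (by decide) hM
  have hc0 : c ≠ 0 := by
    intro h0
    rw [h0, zero_smul] at hc
    have h1 : mt M * mt M⁻¹ = 1 := by
      rw [← mt_mul, mul_inv_cancel]; simp [mt]
    change mt M = 0 at hc
    rw [hc, Matrix.zero_mul] at h1
    have h2 := congrFun (congrFun h1 0) 0
    simp at h2
  intro i hi
  obtain ⟨a, ha, e⟩ := H i hi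
  change mt M = c • 1 at hc
  rw [hc, Matrix.smul_mulVec, Matrix.one_mulVec] at e
  have ck : ∀ j : Fin 3510, Fi22bt.clC j = 2 → ckIxL 6 U6t.ix (U6t.vc j) j = true := by
    intro j hj
    have h := allR_zero _ _ U6t.ckIx j j.2
    have h2 : Nat.beq (Fi22bt.clC j) 2 = true := by rw [hj]; rfl
    rw [h2] at h
    exact h
  have h3 := ix_unique 6 U6t.ix (U6t.vc i) i (U6t.vc (ρ₂ (h : Fi22) i)) (ρ₂ (h : Fi22) i) (ck i hi)
    (ck _ (by rw [inv_cls h i]; exact hi)) c a hc0 ha e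
  exact (Fin.ext h3).symm

/-- the central involution. -/
noncomputable def aH : HH := ⟨s 0, s_mem 0 (by decide)⟩

theorem aH_central (h : HH) : h * aH = aH * h := Subtype.ext (a_central h h.2)

instance aN : (Subgroup.zpowers aH).Normal := normal_zpowers_of_central aH aH_central

theorem s0_ne : s 0 ≠ 1 := by
  intro h
  have h1 := hρ₂ 0 (by decide)
  rw [h, map_one] at h1
  have h2 := permL_apply Fi22bt.tok 0 (by decide) ⟨1, by decide⟩
  rw [← h1] at h2
  revert h2
  decide +kernel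

theorem orderOf_aH : orderOf aH = 2 := by
  rw [orderOf_eq_prime_iff]
  refine ⟨?_, ?_⟩
  · apply Subtype.ext
    rw [Subgroup.coe_pow, pow_two]
    exact s_sq 0
  · intro h
    exact s0_ne (congrArg Subtype.val h)

theorem mem_iff (h : HH) (M : Cfsg.SU 6 F4 2) (H : RR h M) :
    M ∈ Subgroup.center (Cfsg.SU 6 F4 2) ↔ h ∈ Subgroup.zpowers aH := by
  constructor
  · intro hM
    rcases ker693 h h.2 (fix_of_center h M H hM) with h1 | h1
    · have : h = 1 := Subtype.ext h1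
      rw [this]; exact one_mem _
    · have : h = aH := Subtype.ext h1
      rw [this]; exact Subgroup.mem_zpowers _
  · intro hh
    apply center_of_scalar
    apply scalar_of_RR
    have hf : ∀ i : Fin 3510, Fi22bt.clC i = 2 → ρ₂ (h : Fi22) i = i := by
      intro i hi
      obtain ⟨n, rfl⟩ := Subgroup.mem_zpowers_iff.1 hh
      have h2 : ρ₂ (s 0) i = i := s0_fix i hi
      have h3 : ((aH ^ n : HH) : Fi22) = (s 0) ^ n := by simp [aH]
      rw [h3, map_zpow]
      exact Equiv.Perm.zpow_apply_eq_self_of_apply_eq_self h2 n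
    intro i hi
    obtain ⟨c, hc, e⟩ := H i hi
    refine ⟨c, hc, ?_⟩
    rw [e, hf i hi]
    simp

/-! ### Orders -/

theorem card_HH : Nat.card HH = 18393661440 := by
  have h1 := Subgroup.card_mul_index HH
  rw [index_stab.1, card_fi22] at h1
  have key : ∀ a : Nat, a * 3510 = 64561751654400 → a = 18393661440 := fun a h => by omega
  exact key _ h1

theorem card_HQ : Nat.card (HH ⧸ Subgroup.zpowers aH) = 9196830720 := by
  have h1 := Subgroup.card_eq_card_quotient_mul_card_subgroup (Subgroup.zpowers aH)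
  rw [card_HH, Nat.card_zpowers, orderOf_aH] at h1
  have key : ∀ a : Nat, 18393661440 = a * 2 → a = 9196830720 := fun a h => by omega
  exact key _ h1

theorem card_PSU62 : Nat.card (Cfsg.PSU 6 F4 2) = 9196830720 := by
  have h := card_PSU_mul (n := 6) (q := 2) hF4 (by decide)
  have h2 : ordU 2 6 = 82771476480 := by decide +kernel
  have h3 : Nat.gcd 6 (2 + 1) = 3 := by decide
  rw [h2, h3] at h
  have key : ∀ a : Nat, 3 * ((2 + 1) * a) = 82771476480 → a = 9196830720 := fun a h => by omega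
  exact key _ h

theorem iso_U6 : Nonempty ((HH ⧸ Subgroup.zpowers aH) ≃* Cfsg.PSU 6 F4 2) := by
  haveI : Finite (Cfsg.PSU 6 F4 2) := Nat.finite_of_card_ne_zero (by rw [card_PSU62]; decide)
  apply rel_iso RR RR_one RR_mul RR_inv RR_tot (Subgroup.center (Cfsg.SU 6 F4 2))
    (fun M hM => center_of_scalar M (scalar_of_RR M hM)) (Subgroup.zpowers aH) mem_iff
  rw [card_HQ, card_PSU62]

theorem psu_simple : IsSimpleGroup (Cfsg.PSU 6 F4 2) := PSU_isSimple hF4 (by decide) (by decide)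

/-! ### Perfectness -/

theorem ap_sq : (apw.map s).prod * (apw.map s).prod = 1 := by
  have h := wd₂ (apw ++ apw) (by decide) (by decide +kernel)
  rw [List.map_append, List.prod_append] at h
  exact h

noncomputable def ab (x : HH) : Abelianization HH := Abelianization.of x

theorem ab_mul (x y : HH) : ab (x * y) = ab x * ab y := map_mul _ x y
theorem ab_one : ab 1 = 1 := map_one _
theorem ab_pow (x : HH) (n : ℕ) : ab (x ^ n) = ab x ^ n := map_pow _ x n

theorem cube_comm {P : Type*} [CommGroup P] (x y : P) (hx : x * x = 1) (hy : y * y = 1) (h : (x * y) ^ 3 = 1) :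
    x = y := by
  have h1 : (x * y) * (x * y) = 1 := by
    calc (x * y) * (x * y) = (x * x) * (y * y) := by simp only [mul_assoc, mul_left_comm, mul_comm]
      _ = 1 := by rw [hx, hy, one_mul]
  have h2 : x * y = 1 := eq_one_of_sq_of_odd (x * y) 1 h1 h
  calc x = x * (y * y) := by rw [hy, mul_one]
    _ = y := by rw [← mul_assoc, h2, one_mul]

theorem HH_perfect : commutator HH = ⊤ := by
  have mem_of : ∀ x : HH, ab x = 1 → x ∈ commutator HH := by
    intro x hx
    exact (QuotientGroup.eq_one_iff x).1 hx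
  let e : (l : Nat) → l ∈ [0, 2, 3, 4, 5, 6, 7, 8] → HH := fun l hl => ⟨s l, s_mem l hl⟩
  let A : HH := ⟨(apw.map s).prod, ap_mem⟩
  have sq : ∀ l (hl : l ∈ [0, 2, 3, 4, 5, 6, 7, 8]), ab (e l hl) * ab (e l hl) = 1 := by
    intro l hl
    rw [← ab_mul, ← ab_one]
    congr 1
    exact Subtype.ext (s_sq l)
  have link : ∀ u v (hu : u ∈ [0, 2, 3, 4, 5, 6, 7, 8]) (hv : v ∈ [0, 2, 3, 4, 5, 6, 7, 8]),
      ([u, v], 3) ∈ Fi22at.rels2 → ab (e u hu) = ab (e v hv) := by
    intro u v hu hv h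
    apply cube_comm _ _ (sq u hu) (sq v hv)
    rw [← ab_mul, ← ab_pow, ← ab_one]
    congr 1
    apply Subtype.ext
    have := base _ h
    simpa using this
  have h23 := link 2 3 (by decide) (by decide) (by decide)
  have h34 := link 3 4 (by decide) (by decide) (by decide)
  have h45 := link 4 5 (by decide) (by decide) (by decide)
  have h56 := link 5 6 (by decide) (by decide) (by decide)
  have h37 := link 3 7 (by decide) (by decide) (by decide)
  have h78 := link 7 8 (by decide) (by decide) (by decide)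
  have x2 : ab (e 2 (by decide)) = 1 := by
    have h1 : (e 2 (by decide) * e 3 (by decide) * e 4 (by decide) * e 5 (by decide) * e 6 (by decide) *
        e 7 (by decide) * e 8 (by decide)) ^ 9 = 1 := by
      apply Subtype.ext
      have := e7_id
      simp only [List.map_cons, List.map_nil, List.prod_cons, List.prod_nil, mul_one] at this
      have e1 : ∀ y : HH, (y : Fi22) = s 2 * (s 3 * (s 4 * (s 5 * (s 6 * (s 7 * s 8))))) →
          ((y ^ 9 : HH) : Fi22) = 1 := by
        intro y hy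
        rw [Subgroup.coe_pow, hy]
        exact this
      exact e1 _ (by simp [e, mul_assoc])
    have h2 := congrArg ab h1
    rw [ab_pow, ab_one] at h2
    simp only [ab_mul] at h2
    rw [← h78, ← h56, ← h45, ← h34, ← h37, ← h23, sq 2 (by decide), one_mul, sq 2 (by decide), one_mul,
      sq 2 (by decide), one_mul] at h2
    exact eq_one_of_sq_of_odd _ 4 (sq 2 (by decide)) h2
  have x3 : ab (e 3 (by decide)) = 1 := h23.symm.trans x2
  have x4 : ab (e 4 (by decide)) = 1 := h34.symm.trans x3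
  have x5 : ab (e 5 (by decide)) = 1 := h45.symm.trans x4
  have x6 : ab (e 6 (by decide)) = 1 := h56.symm.trans x5
  have x7 : ab (e 7 (by decide)) = 1 := h37.symm.trans x3
  have x8 : ab (e 8 (by decide)) = 1 := h78.symm.trans x7
  have xA : ab A = 1 := by
    have h1 : (A * e 5 (by decide)) ^ 3 = 1 := Subtype.ext af_id
    have h2 := congrArg ab h1
    rw [ab_pow, ab_one, ab_mul, x5, mul_one] at h2
    have h3 : ab A * ab A = 1 := by
      rw [← ab_mul, ← ab_one]
      congr 1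
      exact Subtype.ext ap_sq
    exact eq_one_of_sq_of_odd _ 1 h3 h2
  have x0 : ab (e 0 (by decide)) = 1 := by
    have h1 : (A * e 5 (by decide) * e 4 (by decide) * e 3 (by decide) * e 2 (by decide) * e 7 (by decide)) ^ 5 =
      e 0 (by decide) := Subtype.ext a_id
    rw [← h1, ab_pow]
    simp only [ab_mul]
    rw [xA, x5, x4, x3, x2, x7]
    simp
  apply wordGroup_sub_top'
  intro w hw x hx
  rw [clG_eq₂] at hw
  have kl : ∀ l (hl : l ∈ [0, 2, 3, 4, 5, 6, 7, 8]), ab (e l hl) = 1 → (x : Fi22) = s l → x ∈ commutator HH := by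
    intro l hl h1 h2
    have h3 : x = e l hl := Subtype.ext h2
    rw [h3]
    exact mem_of _ h1
  simp only [List.mem_cons, List.not_mem_nil, or_false] at hw
  rcases hw with rfl | rfl | rfl | rfl | rfl | rfl | rfl | rfl | rfl
  · exact kl 0 (by decide) x0 (by simpa using hx)
  · exact kl 2 (by decide) x2 (by simpa using hx)
  · exact kl 3 (by decide) x3 (by simpa using hx)
  · exact kl 4 (by decide) x4 (by simpa using hx)
  · exact kl 5 (by decide) x5 (by simpa using hx)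
  · exact kl 6 (by decide) x6 (by simpa using hx)
  · exact kl 7 (by decide) x7 (by simpa using hx)
  · exact kl 8 (by decide) x8 (by simpa using hx)
  · have h1 : x = e 0 (by decide) * A * e 2 (by decide) * (e 3 (by decide) * e 7 (by decide) * e 4 (by decide) *
          e 3 (by decide) * e 2 (by decide) * e 3 (by decide) * e 4 (by decide) * e 7 (by decide) * e 3 (by decide)) *
          e 4 (by decide) * e 7 (by decide) := by
      apply Subtype.ext
      rw [hx, lw_id]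
      have h2 : (cpw.map s).prod = s 3 * s 7 * s 4 * s 3 * s 2 * s 3 * s 4 * s 7 * s 3 := by
        simp [cpw, mul_assoc]
      rw [h2]
      rfl
    apply mem_of
    rw [h1]
    simp only [ab_mul]
    rw [x0, x2, x3, x4, x7, xA]
    simp

theorem double_cover_U6 : Cfsg.IsNonsplitDoubleCover HH (Cfsg.PSU 6 F4 2) := by
  obtain ⟨e⟩ := iso_U6
  refine nonsplit_of aH orderOf_aH aH_central aN e ?_ HH_perfect
  intro x hx
  haveI := psu_simple
  have hne : Nontrivial (Cfsg.PSU 6 F4 2) := inferInstance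
  have hc : x ∈ Subgroup.center (Cfsg.PSU 6 F4 2) := by
    rw [Subgroup.mem_center_iff]; exact hx
  rcases IsSimpleGroup.eq_bot_or_eq_top_of_normal (Subgroup.center (Cfsg.PSU 6 F4 2)) inferInstance with h | h
  · rw [h, Subgroup.mem_bot] at hc
    exact hc
  · exfalso
    -- the group would be abelian, but it is perfect
    let f : HH →* Cfsg.PSU 6 F4 2 := e.toMonoidHom.comp (QuotientGroup.mk' (Subgroup.zpowers aH))
    have hf : Function.Surjective f := e.surjective.comp (QuotientGroup.mk'_surjective _)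
    have hker : commutator HH ≤ f.ker := by
      rw [commutator_def, Subgroup.commutator_le]
      intro a _ b _
      rw [MonoidHom.mem_ker, map_commutatorElement, commutatorElement_eq_one_iff_mul_comm]
      have : f b ∈ Subgroup.center (Cfsg.PSU 6 F4 2) := by rw [h]; exact Subgroup.mem_top _
      exact Subgroup.mem_center_iff.1 this (f a)
    rw [HH_perfect, top_le_iff] at hker
    obtain ⟨y, hy⟩ := exists_ne (1 : Cfsg.PSU 6 F4 2)
    obtain ⟨z, rfl⟩ := hf y
    apply hy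
    have : z ∈ f.ker := by rw [hker]; exact Subgroup.mem_top _
    exact this

end Cfsg.Agent.H8.Fi22P
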