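import Cfsg.Agent.H8.Fi24Pres
import Cfsg.Agent.H8.T.Fi24t
import Cfsg.Agent.H8.T.Fi24tO
import Cfsg.Agent.S1691

/-!
# The Fischer group `Fi₂₄`: order and simplicity of the commutator subgroup
-/

set_option autoImplicit false
set_option linter.all false
set_option maxRecDepth 100000
set_option maxHeartbeats 400000

namespace Cfsg.Agent.H8.Fi24P

open Cfsg.Spor

noncomputable def ρ : Fi24 →* Equiv.Perm (Fin 306936) :=
  homOf (permL Fi24t.tok) (permL_sq Fi24t.tok) Fi24t.relp

theorem hρ : ∀ l < 12, ρ (s l) = permL Fi24t.tok l := homOf_s _ _ _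

theorem clG_eq : Fi24t.clG = [[0], [2], [3], [4], [5], [6], [7], [8], [9], [10], [11]] := by decide

theorem index_stab : (wordGroup s Fi24t.clG).index = 306936 ∧
    wordGroup s Fi24t.clG = stabOf ρ ⟨0, by decide⟩ := by
  have hle : wordGroup s Fi24t.clG ≤ stabOf ρ ⟨0, by decide⟩ :=
    wordGroup_le_stabOf s Fi24t.tok ρ hρ _ _ (by decide +kernel)
  have h2 := Fi24t.upperIndex s s_inv s_31 base (wordGroup s Fi24t.clG)
    (fun w hw => mem_wordGroup s _ w (by revert w hw; decide)) s_top
  exact index_and_stab ρ _ _ hle (Fi24t.rho_tr s ρ hρ) h2 (by decide)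

theorem H_eq : ((Subgroup.closure ({Fi24.a, Fi24.b, Fi24.c, Fi24.d, Fi24.e, Fi24.f, Fi24.g, Fi24.h, Fi24.i,
    Fi24.j, Fi24.l} : Set (FreeGroup Fi24.Gen))).map
    (PresentedGroup.mk (coxRelators Fi24.edges ∪ {r | r ∈ Fi24.extra}))) = wordGroup s Fi24t.clG := by
  rw [clG_eq]
  apply map_closure_eq
  · intro x hx
    simp only [Set.mem_insert_iff, Set.mem_singleton_iff] at hx
    rcases hx with rfl | rfl | rfl | rfl | rfl | rfl | rfl | rfl | rfl | rfl | rfl
    · exact ⟨[2], by decide, by simp [s, sF, PresentedGroup.of]⟩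
    · exact ⟨[3], by decide, by simp [s, sF, PresentedGroup.of]⟩
    · exact ⟨[4], by decide, by simp [s, sF, PresentedGroup.of]⟩
    · exact ⟨[5], by decide, by simp [s, sF, PresentedGroup.of]⟩
    · exact ⟨[6], by decide, by simp [s, sF, PresentedGroup.of]⟩
    · exact ⟨[7], by decide, by simp [s, sF, PresentedGroup.of]⟩
    · exact ⟨[8], by decide, by simp [s, sF, PresentedGroup.of]⟩
    · exact ⟨[10], by decide, by simp [s, sF, PresentedGroup.of]⟩
    · exact ⟨[11], by decide, by simp [s, sF, PresentedGroup.of]⟩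
    · exact ⟨[9], by decide, by simp [s, sF, PresentedGroup.of]⟩
    · exact ⟨[0], by decide, by simp [s, sF, PresentedGroup.of]⟩
  · intro w hw
    simp only [List.mem_cons, List.not_mem_nil, or_false] at hw
    rcases hw with rfl | rfl | rfl | rfl | rfl | rfl | rfl | rfl | rfl | rfl | rfl
    · exact ⟨Fi24.l, by simp, by simp [s, sF, PresentedGroup.of]⟩
    · exact ⟨Fi24.a, by simp, by simp [s, sF, PresentedGroup.of]⟩
    · exact ⟨Fi24.b, by simp, by simp [s, sF, PresentedGroup.of]⟩
    · exact ⟨Fi24.c, by simp, by simp [s, sF, PresentedGroup.of]⟩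
    · exact ⟨Fi24.d, by simp, by simp [s, sF, PresentedGroup.of]⟩
    · exact ⟨Fi24.e, by simp, by simp [s, sF, PresentedGroup.of]⟩
    · exact ⟨Fi24.f, by simp, by simp [s, sF, PresentedGroup.of]⟩
    · exact ⟨Fi24.g, by simp, by simp [s, sF, PresentedGroup.of]⟩
    · exact ⟨Fi24.j, by simp, by simp [s, sF, PresentedGroup.of]⟩
    · exact ⟨Fi24.h, by simp, by simp [s, sF, PresentedGroup.of]⟩
    · exact ⟨Fi24.i, by simp, by simp [s, sF, PresentedGroup.of]⟩

/-! ### The point stabiliser -/

/-- the point stabiliser. -/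
abbrev M : Subgroup Fi24 := wordGroup s Fi24t.clG

theorem s_ge (l : Nat) (h : 12 ≤ l) : s l = 1 := by
  match l, h with
  | (k + 12), _ => rfl

theorem memM (l : Nat) (h : l ≠ 1) : s l ∈ M := by
  rcases Nat.lt_or_ge l 12 with h1 | h1
  · have h2 : [l] ∈ Fi24t.clG := by
      rw [clG_eq]
      interval_cases l <;> first | (exfalso; exact h rfl) | decide
    have h3 := mem_wordGroup s Fi24t.clG [l] h2
    simpa using h3
  · rw [s_ge l h1]; exact one_mem _

theorem comm_of_rel (k l : Nat) (h : ([k, l], 2) ∈ Fi24t.rels2) : s k * s l = s l * s k := by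
  have r := base _ h
  have r' : (s k * s l) ^ 2 = 1 := by simpa using r
  rw [pow_two] at r'
  have h1 : s k * s l = (s k * s l)⁻¹ := eq_inv_of_mul_eq_one_left r'
  rw [mul_inv_rev, ← s_inv, ← s_inv] at h1
  exact h1

/-- `l` is central in `M`. -/
theorem l_central : ∀ m ∈ M, s 0 * m = m * s 0 := by
  intro m hm
  have hc : M ≤ Subgroup.centralizer {s 0} := by
    unfold M wordGroup
    rw [Subgroup.closure_le]
    rintro _ ⟨w, hw, rfl⟩
    rw [SetLike.mem_coe, Subgroup.mem_centralizer_singleton_iff]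
    rw [clG_eq] at hw
    simp only [List.mem_cons, List.not_mem_nil, or_false] at hw
    rcases hw with rfl | rfl | rfl | rfl | rfl | rfl | rfl | rfl | rfl | rfl | rfl
    · rfl
    · rw [List.map_singleton, List.prod_singleton]; exact comm_of_rel 2 0 (by decide)
    · rw [List.map_singleton, List.prod_singleton]; exact comm_of_rel 3 0 (by decide)
    · rw [List.map_singleton, List.prod_singleton]; exact comm_of_rel 4 0 (by decide)
    · rw [List.map_singleton, List.prod_singleton]; exact comm_of_rel 5 0 (by decide)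
    · rw [List.map_singleton, List.prod_singleton]; exact comm_of_rel 6 0 (by decide)
    · rw [List.map_singleton, List.prod_singleton]; exact comm_of_rel 7 0 (by decide)
    · rw [List.map_singleton, List.prod_singleton]; exact comm_of_rel 8 0 (by decide)
    · rw [List.map_singleton, List.prod_singleton]; exact comm_of_rel 9 0 (by decide)
    · rw [List.map_singleton, List.prod_singleton]; exact comm_of_rel 10 0 (by decide)
    · rw [List.map_singleton, List.prod_singleton]; exact comm_of_rel 11 0 (by decide)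
  have := hc hm
  rw [Subgroup.mem_centralizer_singleton_iff] at this
  exact this.symm

theorem T2_1 : Fi24t.T 2 1 = 3 := by decide +kernel
theorem T0_1 : Fi24t.T 0 1 = 2 := by decide +kernel

theorem ρ_val (l : Nat) (hl : l < 12) (i : Fin 306936) : (((ρ (s l))⁻¹ i : Fin 306936) : Nat) = Fi24t.T l i := by
  rw [hρ l hl]
  exact permL_inv_apply Fi24t.tok l hl i

theorem ρ0_ne : ρ (s 0) ≠ 1 := by
  intro h
  have h1 := ρ_val 0 (by decide) ⟨1, by decide⟩
  rw [h, T0_1] at h1
  exact absurd h1 (by decide)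

theorem s0_ne : s 0 ≠ 1 := fun h => ρ0_ne (by rw [h, map_one])

theorem s2_ne : s 2 ≠ 1 := by
  intro h
  have h1 := ρ_val 2 (by decide) ⟨1, by decide⟩
  rw [h, map_one, T2_1] at h1
  exact absurd h1 (by decide)

theorem s2_ne_s0 : s 2 ≠ s 0 := by
  intro h
  have h1 := ρ_val 2 (by decide) ⟨1, by decide⟩
  rw [h, ρ_val 0 (by decide), T2_1] at h1
  change Fi24t.T 0 1 = 3 at h1
  rw [T0_1] at h1
  exact absurd h1 (by decide)

/-- the central involution of `M`. -/
noncomputable def lM : M := ⟨s 0, memM 0 (by decide)⟩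

theorem lM_sq : lM * lM = 1 := Subtype.ext (s_sq 0)

theorem lM_ne : lM ≠ 1 := fun h => s0_ne (congrArg Subtype.val h)

theorem lM_comm (m : M) : lM * m = m * lM := Subtype.ext (l_central m m.2)

noncomputable abbrev Z : Subgroup M := Subgroup.zpowers lM

theorem mem_Z (x : M) : x ∈ Z ↔ x = 1 ∨ x = lM := by
  constructor
  · intro h
    obtain ⟨k, rfl⟩ := Subgroup.mem_zpowers_iff.1 h
    rcases Int.even_or_odd k with ⟨j, rfl⟩ | ⟨j, rfl⟩
    · left
      rw [← two_mul, zpow_mul, zpow_two, lM_sq, one_zpow]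
    · right
      rw [zpow_add, zpow_mul, zpow_two, lM_sq, one_zpow, one_mul, zpow_one]
  · rintro (rfl | rfl)
    · exact one_mem _
    · exact Subgroup.mem_zpowers _

instance Z_normal : Z.Normal := by
  refine ⟨fun x hx g => ?_⟩
  rcases (mem_Z x).1 hx with rfl | rfl
  · simp
  · rw [← lM_comm, mul_assoc, mul_inv_cancel, mul_one]; exact hx

theorem card_Z : Nat.card Z = 2 := by
  rw [Nat.card_zpowers]
  exact orderOf_eq_prime (by rw [pow_two]; exact lM_sq) lM_ne

/-- the letters of `Fi₂₃` in `M`. -/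
noncomputable def u (l : Nat) : M := ⟨s (l + 2), memM _ (by omega)⟩

theorem u_sq (l : Nat) : u l * u l = 1 := Subtype.ext (s_sq _)

theorem u_word (w : List Nat) : (((w.map u).prod : M) : Fi24) = ((w.map (fun l => l + 2)).map s).prod := by
  induction w with
  | nil => rfl
  | cons l w ih =>
    rw [List.map_cons, List.prod_cons, Subgroup.coe_mul, ih, List.map_cons, List.map_cons, List.prod_cons]
    rfl

/-- the letters of `Fi₂₃` in `M/Z`. -/
noncomputable def v (l : Nat) : M ⧸ Z := QuotientGroup.mk (u l)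

theorem v_sq (l : Nat) : v l * v l = 1 := by
  unfold v
  rw [← QuotientGroup.mk_mul, u_sq, QuotientGroup.mk_one]

theorem v_word (w : List Nat) : (w.map v).prod = (QuotientGroup.mk (w.map u).prod : M ⧸ Z) := by
  induction w with
  | nil => rfl
  | cons l w ih => rw [List.map_cons, List.prod_cons, ih, List.map_cons, List.prod_cons]; rfl

theorem cox9 : (([2, 3, 4, 5, 6, 7, 10] : List Nat).map s).prod ^ 9 = s 0 := by
  have h := base ([0] ++ wpow [2, 3, 4, 5, 6, 7, 10] 9, 1) (by decide)
  rw [pow_one] at h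
  change (([0] ++ wpow [2, 3, 4, 5, 6, 7, 10] 9).map s).prod = 1 at h
  rw [List.map_append, List.prod_append, wpow_prod, List.map_singleton, List.prod_singleton] at h
  have := mul_eq_one_iff_inv_eq.1 h
  rw [← this, ← s_inv]

theorem v_rels : ∀ p ∈ Fi23t.relsP, ((p.1.map v).prod) ^ p.2 = 1 := by
  intro p hp
  rw [v_word, ← QuotientGroup.mk_pow]
  by_cases h0 : p = ([0, 1, 2, 3, 4, 5, 8], 9)
  · subst h0
    rw [QuotientGroup.eq_one_iff, mem_Z]
    right
    apply Subtype.ext
    rw [Subgroup.coe_pow, u_word]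
    exact cox9
  · have key : ∀ p ∈ Fi23t.relsP, p ≠ ([0, 1, 2, 3, 4, 5, 8], 9) → (p.1.map (fun l => l + 2), p.2) ∈ Fi24t.rels2 := by
      decide
    have h1 := base _ (key p hp h0)
    have h2 : (p.1.map u).prod ^ p.2 = 1 := by
      apply Subtype.ext
      rw [Subgroup.coe_pow, u_word]
      exact h1
    rw [h2, QuotientGroup.mk_one]

/-- `Fi₂₃` maps onto `M/Z`. -/
noncomputable def f : Fi23 →* M ⧸ Z := Fi23P.homOf v v_sq v_rels

theorem f_s (l : Nat) (hl : l < 10) : f (Fi23P.s l) = v l := Fi23P.homOf_s v v_sq v_rels l hl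

theorem f_surj : Function.Surjective f := by
  have hM0 : (([0] : List Nat).map s).prod ∈ (f.range.comap (QuotientGroup.mk' Z)).map M.subtype := by
    refine ⟨lM, ?_, by simp [lM]⟩
    refine ⟨1, ?_⟩
    rw [map_one]
    symm
    rw [QuotientGroup.mk'_apply, QuotientGroup.eq_one_iff]
    exact Subgroup.mem_zpowers _
  have h1 : M ≤ (f.range.comap (QuotientGroup.mk' Z)).map M.subtype := by
    unfold M wordGroup
    rw [Subgroup.closure_le]
    rintro _ ⟨w, hw, rfl⟩
    rw [clG_eq] at hw
    have hv : ∀ l < 10, (([l + 2] : List Nat).map s).prod ∈ (f.range.comap (QuotientGroup.mk' Z)).map M.subtype := by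
      intro l hl
      refine ⟨u l, ?_, by simp [u]⟩
      exact ⟨Fi23P.s l, f_s l hl⟩
    simp only [List.mem_cons, List.not_mem_nil, or_false] at hw
    rcases hw with rfl | rfl | rfl | rfl | rfl | rfl | rfl | rfl | rfl | rfl | rfl
    · exact hM0
    · exact hv 0 (by decide)
    · exact hv 1 (by decide)
    · exact hv 2 (by decide)
    · exact hv 3 (by decide)
    · exact hv 4 (by decide)
    · exact hv 5 (by decide)
    · exact hv 6 (by decide)
    · exact hv 7 (by decide)
    · exact hv 8 (by decide)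
    · exact hv 9 (by decide)
  intro q
  obtain ⟨m, rfl⟩ := QuotientGroup.mk_surjective q
  obtain ⟨m', ⟨x, hx⟩, hm'⟩ := h1 m.2
  have : m' = m := Subtype.ext hm'
  subst this
  exact ⟨x, hx⟩

theorem f_inj : Function.Injective f := by
  apply injective_of_simple Fi23P.simple f (Fi23P.s 0)
  rw [f_s 0 (by decide)]
  unfold v
  rw [ne_eq, QuotientGroup.eq_one_iff, mem_Z]
  rintro (h | h)
  · exact s2_ne (congrArg Subtype.val h)
  · exact s2_ne_s0 (congrArg Subtype.val h)

noncomputable def fE : Fi23 ≃* M ⧸ Z := MulEquiv.ofBijective f ⟨f_inj, f_surj⟩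

theorem finite_M : Finite M := by
  haveI : Finite (M ⧸ Z) := Finite.of_equiv _ fE.toEquiv
  haveI : Finite Z := Nat.finite_of_card_ne_zero (by rw [card_Z]; decide)
  exact Finite.of_equiv _ (Subgroup.groupEquivQuotientProdSubgroup (s := Z)).symm

theorem card_M : Nat.card M = 8178940946586009600 := by
  rw [Subgroup.card_eq_card_quotient_mul_card_subgroup Z, card_Z, ← Nat.card_congr fE.toEquiv, Fi23P.card_fi23]

instance finite_fi24 : Finite Fi24 := by
  haveI := finite_M
  apply Nat.finite_of_card_ne_zero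
  rw [← M.card_mul_index, index_stab.1, card_M]
  decide

theorem card_fi24 : Nat.card Fi24 = 2510411418381323442585600 := by
  rw [← M.card_mul_index, index_stab.1, card_M]

/-! ### The commutator subgroup -/

abbrev A : Subgroup Fi24 := commutator Fi24

theorem A_index : A.index = 2 := Cfsg.Agent.S1691.result

theorem card_A : Nat.card A = 1255205709190661721292800 := by
  have h := A.card_mul_index
  rw [A_index, card_fi24] at h
  omega

theorem s0_notin : s 0 ∉ A := by
  intro h
  have h1 := Abelianization.commutator_subset_ker Cfsg.Agent.S1691.sgn h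
  rw [MonoidHom.mem_ker] at h1
  have h2 : Cfsg.Agent.S1691.sgn (s 0) = -1 := Cfsg.Agent.S1691.sgn_of _
  rw [h2] at h1
  exact absurd h1 (by decide)

/-- `M ∩ A` is isomorphic to `M/Z`. -/
noncomputable def ι : (M ⊓ A : Subgroup Fi24) →* M ⧸ Z :=
  (QuotientGroup.mk' Z).comp (Subgroup.inclusion inf_le_left)

theorem ι_bij : Function.Bijective ι := by
  constructor
  · rw [injective_iff_map_eq_one]
    intro x hx
    have h1 : Subgroup.inclusion (inf_le_left : M ⊓ A ≤ M) x ∈ Z := by
      rw [← QuotientGroup.eq_one_iff]; exact hx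
    rcases (mem_Z _).1 h1 with h | h
    · apply Subtype.ext
      have h2 := congrArg (Subtype.val : M → Fi24) h
      exact h2
    · exfalso
      apply s0_notin
      have : (x : Fi24) = s 0 := congrArg Subtype.val h
      rw [← this]
      exact x.2.2
  · intro q
    obtain ⟨m, rfl⟩ := QuotientGroup.mk_surjective q
    by_cases hm : (m : Fi24) ∈ A
    · exact ⟨⟨m, m.2, hm⟩, rfl⟩
    · have h1 : (m : Fi24) * s 0 ∈ A := by
        rw [Subgroup.mul_mem_iff_of_index_two A_index]
        exact ⟨fun h => absurd h hm, fun h => absurd h s0_notin⟩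
      refine ⟨⟨(m : Fi24) * s 0, M.mul_mem m.2 (memM 0 (by decide)), h1⟩, ?_⟩
      change (QuotientGroup.mk (m * lM) : M ⧸ Z) = QuotientGroup.mk m
      rw [QuotientGroup.eq]
      have e : (m * lM)⁻¹ * m = lM⁻¹ := by group
      rw [e]
      exact Z.inv_mem (Subgroup.mem_zpowers _)

noncomputable def ιE : Fi23 ≃* (M ⊓ A : Subgroup Fi24) := fE.trans (MulEquiv.ofBijective ι ι_bij).symm

theorem B_simple : IsSimpleGroup (M ⊓ A : Subgroup Fi24) := by
  have := Fi23P.simple
  exact ιE.symm.isSimpleGroup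

theorem B_char : ∀ K : Subgroup Fi24, K ≤ M ⊓ A → (∀ h ∈ M ⊓ A, ∀ x ∈ K, h * x * h⁻¹ ∈ K) →
    K = ⊥ ∨ K = M ⊓ A := by
  intro K hK hc
  have hn : (K.subgroupOf (M ⊓ A)).Normal := ⟨fun x hx g => hc g g.2 x hx⟩
  rcases B_simple.eq_bot_or_eq_top_of_normal _ hn with h | h
  · left
    rw [eq_bot_iff]
    intro x hx
    have : (⟨x, hK hx⟩ : (M ⊓ A : Subgroup Fi24)) ∈ K.subgroupOf (M ⊓ A) := hx
    rw [h, Subgroup.mem_bot] at this
    exact congrArg Subtype.val this
  · right
    exact le_antisymm hK (Subgroup.subgroupOf_eq_top.1 h)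

theorem B_center : ∀ x ∈ M ⊓ A, (∀ y ∈ M ⊓ A, x * y = y * x) → x = 1 := by
  intro x hx hc
  by_contra hx1
  -- then everything is a power of x
  have h1 := B_char (Subgroup.zpowers x) (by rw [Subgroup.zpowers_le]; exact hx) (by
    intro h hh y hy
    obtain ⟨k, rfl⟩ := Subgroup.mem_zpowers_iff.1 hy
    have e : h * x ^ k * h⁻¹ = x ^ k := by
      have hcm : Commute x h := hc h hh
      rw [← (hcm.zpow_left k).eq]
      group
    rw [e]
    exact hy)
  rcases h1 with h1 | h1
  · exact hx1 (Subgroup.zpowers_eq_bot.1 h1)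
  · -- abelian: contradiction with the order
    have hcomm : ∀ a b : Fi23, a * b = b * a := by
      intro a b
      apply ιE.injective
      rw [map_mul, map_mul]
      apply Subtype.ext
      rw [Subgroup.coe_mul, Subgroup.coe_mul]
      have ha : (ιE a : Fi24) ∈ Subgroup.zpowers x := by rw [h1]; exact (ιE a).2
      obtain ⟨k, hk⟩ := Subgroup.mem_zpowers_iff.1 ha
      rw [← hk]
      have hcm : Commute x (ιE b : Fi24) := hc _ (ιE b).2
      exact (hcm.zpow_left k).eq
    have h2 := Fi23P.perfect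
    have h3 : commutator Fi23 = ⊥ := by
      rw [eq_bot_iff, commutator_def, Subgroup.commutator_le]
      intro a _ b _
      rw [Subgroup.mem_bot, commutatorElement_eq_one_iff_mul_comm]
      exact hcomm a b
    rw [h3] at h2
    have h4 := Fi23P.card_fi23
    rw [← Subgroup.card_top, ← h2, Subgroup.card_bot] at h4
    exact absurd h4 (by decide)

theorem coatom : IsCoatom (stabOf ρ ⟨0, by decide⟩) := Fi24t.cl_coatom s ρ hρ index_stab.2.symm

theorem comm_mem (x y : Fi24) : x * y * x⁻¹ * y⁻¹ ∈ A := by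
  have := Subgroup.commutator_mem_commutator (Subgroup.mem_top x) (Subgroup.mem_top y)
  exact this

theorem s23_mem : s 2 * s 3 ∈ M ⊓ A := by
  refine ⟨M.mul_mem (memM 2 (by decide)) (memM 3 (by decide)), ?_⟩
  have h : ∀ l < 12, s l ∉ A := by
    intro l hl h
    have h1 := Abelianization.commutator_subset_ker Cfsg.Agent.S1691.sgn h
    rw [MonoidHom.mem_ker] at h1
    have h2 : Cfsg.Agent.S1691.sgn (s l) = -1 := by
      interval_cases l <;> exact Cfsg.Agent.S1691.sgn_of _
    rw [h2] at h1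
    exact absurd h1 (by decide)
  show s 2 * s 3 ∈ A
  rw [Subgroup.mul_mem_iff_of_index_two A_index]
  exact ⟨fun h' => absurd h' (h 2 (by decide)), fun h' => absurd h' (h 3 (by decide))⟩

theorem s23_ne : ρ (s 2 * s 3) ≠ 1 := by
  intro h
  have h1 := rho_word s Fi24t.tok ρ hρ [2, 3] (by decide) ⟨1, by decide⟩
  have h2 : (([2, 3] : List Nat).map s).prod = s 2 * s 3 := by simp
  rw [h2, h] at h1
  have h3 : trN Fi24t.T [2, 3] 1 = 5 := by decide +kernel
  change ((1 : Equiv.Perm (Fin 306936))⁻¹ ⟨1, _⟩ : Fin 306936).val = trN Fi24t.T [2, 3] 1 at h1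
  rw [h3] at h1
  exact absurd h1 (by decide)

theorem core : ∀ N : Subgroup Fi24, N.Normal → N ≤ stabOf ρ ⟨0, by decide⟩ → N = ⊥ := by
  refine I2S.core_free' ρ ⟨0, by decide⟩ (Fi24t.rho_tr s ρ hρ) A inferInstance A_index comm_mem (s 0) s0_notin
    ?_ ?_ ρ0_ne ?_ (s 2 * s 3) ?_ s23_ne ?_
  · rw [← index_stab.2]; exact memM 0 (by decide)
  · rw [← index_stab.2]; exact l_central
  · rw [← index_stab.2]; exact B_char
  · rw [← index_stab.2]; exact s23_mem
  · rw [← index_stab.2]; exact B_center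

/-- rank 3 classes. -/
noncomputable def cls (i : Fin 306936) : Fin 3 := ⟨Fi24t.clC i, Fi24t.cl_lt i i.2⟩

theorem C0 : Fi24t.clC 0 = 0 := by decide +kernel

theorem cls0 (i : Fin 306936) (hi : Fi24t.clC i = 0) : i = ⟨0, by decide⟩ := by
  have h1 := cntC_ncard Fi24t.clC 0 1 306936 (Fi24t.cl_size 0)
  obtain ⟨j, hj⟩ := Set.ncard_eq_one.1 h1
  have h2 : i ∈ {j : Fin 306936 | Fi24t.clC j = 0} := hi
  have h3 : (⟨0, by decide⟩ : Fin 306936) ∈ {j : Fin 306936 | Fi24t.clC j = 0} := C0
  rw [hj] at h2 h3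
  rw [Set.mem_singleton_iff] at h2 h3
  rw [h2, h3]

theorem reg (N : Subgroup Fi24) (hN : N.Normal) (hne : N ≠ ⊥) (hinf : N ⊓ stabOf ρ ⟨0, by decide⟩ = ⊥)
    (hsup : N ⊔ stabOf ρ ⟨0, by decide⟩ = ⊤) : False := by
  refine no_regular_of_three_primes ρ _ N hN hinf hsup (Fi24t.rho_tr s ρ hρ) (by decide) cls ?_ ?_ 2 3 7
    (by norm_num) (by norm_num) (by norm_num) (by decide) (by decide) (by decide) (by decide) (by decide) (by decide)
  · intro i hi
    exact cls0 i (congrArg Fin.val hi)
  · intro i j hij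
    have h1 : Fi24t.clC i = Fi24t.clC j := congrArg Fin.val hij
    rw [← index_stab.2]
    exact cls_trans s Fi24t.tok ρ hρ Fi24t.clC Fi24t.clQ Fi24t.clG Fi24t.clR (by decide) Fi24t.clOK i j h1

theorem nonsq (k : ℕ) : Nat.card A ≠ k * k := by
  intro h
  rw [card_A] at h
  have h29 : 29 ∣ k * k := by rw [← h]; decide
  have h1 : 29 ∣ k := by
    rcases (Nat.Prime.dvd_mul (by norm_num)).1 h29 with h | h <;> exact h
  obtain ⟨m, rfl⟩ := h1
  have h2 : 1255205709190661721292800 % 841 = 0 := by
    rw [h]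
    have : 29 * m * (29 * m) = 841 * (m * m) := by ring
    rw [this]
    exact Nat.mul_mod_right _ _
  exact absurd h2 (by decide)

theorem simple : IsSimpleGroup A := by
  refine I2S.simple_index_two A (stabOf ρ ⟨0, by decide⟩) inferInstance A_index coatom core (s 0) s0_notin
    (by rw [← index_stab.2]; exact B_char) reg nonsq ?_
  apply Finite.one_lt_card_iff_nontrivial.1
  rw [card_A]; decide

end Cfsg.Agent.H8.Fi24P
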