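import Cfsg.Agent.H8.SimpleCrit

/-!
# Simplicity of a normal subgroup of index two of a primitive group
-/

set_option autoImplicit false
set_option linter.all false
set_option maxHeartbeats 400000

namespace Cfsg.Agent.H8.I2S

variable {G : Type*} [Group G]

theorem full (A M : Subgroup G) (hA : A.Normal) (hM : IsCoatom M)
    (hcore : ∀ N : Subgroup G, N.Normal → N ≤ M → N = ⊥)
    (hH : ∀ K : Subgroup G, K ≤ M ⊓ A → (∀ h ∈ M ⊓ A, ∀ x ∈ K, h * x * h⁻¹ ∈ K) → K = ⊥ ∨ K = M ⊓ A)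
    (hreg : ∀ N : Subgroup G, N.Normal → N ≠ ⊥ → N ⊓ M = ⊥ → N ⊔ M = ⊤ → False)
    (J : Subgroup G) (hJ : J.Normal) (hJA : J ≤ A) (hJb : J ≠ ⊥) : A ≤ J := by
  have hsup : J ⊔ M = ⊤ := by
    apply hM.2
    refine lt_of_le_of_ne le_sup_right ?_
    intro h
    exact hJb (hcore J hJ (by rw [h]; exact le_sup_left))
  rcases hH (J ⊓ M) (fun x hx => ⟨hx.2, hJA hx.1⟩) (fun h hh x hx =>
    ⟨hJ.conj_mem x hx.1 h, M.mul_mem (M.mul_mem hh.1 hx.2) (M.inv_mem hh.1)⟩) with h | h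
  · exact (hreg J hJ hJb h hsup).elim
  · intro a ha
    have h1 : a ∈ J ⊔ M := by rw [hsup]; exact Subgroup.mem_top a
    obtain ⟨j, hj, m, hm, rfl⟩ := Subgroup.mem_sup_of_normal_left.1 h1
    have h2 : m ∈ M ⊓ A := by
      refine ⟨hm, ?_⟩
      have := A.mul_mem (A.inv_mem (hJA hj)) ha
      simpa using this
    rw [← h] at h2
    exact J.mul_mem hj h2.1

theorem simple_index_two [Finite G] (A M : Subgroup G) (hA : A.Normal) (hA2 : A.index = 2)
    (hM : IsCoatom M) (hcore : ∀ N : Subgroup G, N.Normal → N ≤ M → N = ⊥)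
    (l : G) (hlA : l ∉ A)
    (hH : ∀ K : Subgroup G, K ≤ M ⊓ A → (∀ h ∈ M ⊓ A, ∀ x ∈ K, h * x * h⁻¹ ∈ K) → K = ⊥ ∨ K = M ⊓ A)
    (hreg : ∀ N : Subgroup G, N.Normal → N ≠ ⊥ → N ⊓ M = ⊥ → N ⊔ M = ⊤ → False)
    (hsq : ∀ k : ℕ, Nat.card A ≠ k * k) (hnt : Nontrivial A) : IsSimpleGroup A := by
  refine ⟨fun N0 hN0 => ?_⟩
  by_cases hb : N0 = ⊥
  · exact Or.inl hb
  right
  set N : Subgroup G := N0.map A.subtype with hN
  have hNA : N ≤ A := Subgroup.map_subtype_le _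
  have memN : ∀ x : A, (x : G) ∈ N ↔ x ∈ N0 := by
    intro x
    constructor
    · rintro ⟨y, hy, hyx⟩
      have : y = x := Subtype.ext hyx
      rw [← this]; exact hy
    · intro hx; exact ⟨x, hx, rfl⟩
  have hNc : ∀ a ∈ A, ∀ x ∈ N, a * x * a⁻¹ ∈ N := by
    rintro a ha _ ⟨x, hx, rfl⟩
    exact ⟨_, hN0.conj_mem x hx ⟨a, ha⟩, rfl⟩
  have hl2 : l * l ∈ A := by
    rw [Subgroup.mul_mem_iff_of_index_two hA2]
  have hlA' : l⁻¹ ∉ A := by rwa [inv_mem_iff]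
  set N' : Subgroup G := N.map (MulAut.conj l).toMonoidHom with hN'
  have memN' : ∀ x, x ∈ N' ↔ l⁻¹ * x * l ∈ N := by
    intro x
    constructor
    · rintro ⟨y, hy, rfl⟩
      have : l⁻¹ * (MulAut.conj l).toMonoidHom y * l = y := by
        show l⁻¹ * (l * y * l⁻¹) * l = y
        group
      rw [this]; exact hy
    · intro h
      refine ⟨_, h, ?_⟩
      show l * (l⁻¹ * x * l) * l⁻¹ = x
      group
  have hN'A : N' ≤ A := by
    rintro _ ⟨y, hy, rfl⟩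
    exact hA.conj_mem y (hNA hy) l
  have hN'c : ∀ a ∈ A, ∀ x ∈ N', a * x * a⁻¹ ∈ N' := by
    intro a ha x hx
    rw [memN'] at hx ⊢
    have h1 : l⁻¹ * a * l ∈ A := by
      have := hA.conj_mem a ha l⁻¹
      rwa [inv_inv] at this
    have := hNc _ h1 _ hx
    have e : l⁻¹ * (a * x * a⁻¹) * l = l⁻¹ * a * l * (l⁻¹ * x * l) * (l⁻¹ * a * l)⁻¹ := by group
    rw [e]; exact this
  have hlN : ∀ x ∈ N, l * x * l⁻¹ ∈ N' := by
    intro x hx
    rw [memN']
    have e : l⁻¹ * (l * x * l⁻¹) * l = x := by group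
    rw [e]; exact hx
  have hlN' : ∀ x ∈ N', l * x * l⁻¹ ∈ N := by
    intro x hx
    rw [memN'] at hx
    have := hNc _ hl2 _ hx
    have e : l * x * l⁻¹ = l * l * (l⁻¹ * x * l) * (l * l)⁻¹ := by group
    rw [e]; exact this
  have hG : ∀ g : G, g ∈ A ∨ ∃ a ∈ A, g = a * l := by
    intro g
    by_cases hg : g ∈ A
    · exact Or.inl hg
    · right
      refine ⟨g * l⁻¹, ?_, by group⟩
      rw [Subgroup.mul_mem_iff_of_index_two hA2]
      exact ⟨fun h => absurd h hg, fun h => absurd h hlA'⟩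
  have hI : (N ⊓ N').Normal := by
    refine ⟨fun x hx g => ?_⟩
    rcases hG g with hg | ⟨a, ha, rfl⟩
    · exact ⟨hNc g hg x hx.1, hN'c g hg x hx.2⟩
    · have e : a * l * x * (a * l)⁻¹ = a * (l * x * l⁻¹) * a⁻¹ := by group
      rw [e]
      exact ⟨hNc a ha _ (hlN' x hx.2), hN'c a ha _ (hlN x hx.1)⟩
  have hJ : (N ⊔ N').Normal := by
    rw [← Subgroup.normalizer_eq_top_iff, eq_top_iff]
    have key : ∀ g : G, ∀ x ∈ N ⊔ N', g * x * g⁻¹ ∈ N ⊔ N' := by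
      intro g x hx
      have hx' : (MulAut.conj g).toMonoidHom x ∈ (N ⊔ N').map (MulAut.conj g).toMonoidHom := ⟨x, hx, rfl⟩
      rw [Subgroup.map_sup] at hx'
      refine (sup_le ?_ ?_ : _ ≤ N ⊔ N') hx'
      · rintro _ ⟨y, hy, rfl⟩
        show g * y * g⁻¹ ∈ _
        rcases hG g with hg | ⟨a, ha, rfl⟩
        · exact Subgroup.mem_sup_left (hNc g hg y hy)
        · have e : a * l * y * (a * l)⁻¹ = a * (l * y * l⁻¹) * a⁻¹ := by group
          rw [e]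
          exact Subgroup.mem_sup_right (hN'c a ha _ (hlN y hy))
      · rintro _ ⟨y, hy, rfl⟩
        show g * y * g⁻¹ ∈ _
        rcases hG g with hg | ⟨a, ha, rfl⟩
        · exact Subgroup.mem_sup_right (hN'c g hg y hy)
        · have e : a * l * y * (a * l)⁻¹ = a * (l * y * l⁻¹) * a⁻¹ := by group
          rw [e]
          exact Subgroup.mem_sup_left (hNc a ha _ (hlN' y hy))
    intro g _
    rw [Subgroup.mem_normalizer_iff]
    intro x
    refine ⟨key g x, fun hx => ?_⟩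
    have := key g⁻¹ _ hx
    simpa [mul_assoc] using this
  have hNb : N ≠ ⊥ := by
    intro h
    apply hb
    rw [eq_bot_iff]
    intro x hx
    have h1 := (memN x).2 hx
    rw [h, Subgroup.mem_bot] at h1
    rw [Subgroup.mem_bot]
    exact Subtype.ext h1
  by_cases hIb : N ⊓ N' = ⊥
  · exfalso
    have hJb : N ⊔ N' ≠ ⊥ := by
      intro h
      apply hNb
      rw [eq_bot_iff, ← h]
      exact le_sup_left
    have hJA := full A M hA hM hcore hH hreg (N ⊔ N') hJ (sup_le hNA hN'A) hJb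
    -- count
    have hcardN' : Nat.card N' = Nat.card N :=
      Nat.card_congr (N.equivMapOfInjective _ (MulAut.conj l).injective).toEquiv.symm
    apply hsq (Nat.card N)
    have hset : ∀ a ∈ A, ∃ x ∈ N, ∃ y ∈ N', x * y = a := by
      intro a ha
      have h1 : a ∈ N ⊔ N' := hJA ha
      refine Subgroup.closure_induction (p := fun a _ => ∃ x ∈ N, ∃ y ∈ N', x * y = a) ?_ ?_ ?_ ?_
        (by rwa [Subgroup.sup_eq_closure] at h1)
      · rintro x (hx | hx)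
        · exact ⟨x, hx, 1, N'.one_mem, mul_one x⟩
        · exact ⟨1, N.one_mem, x, hx, one_mul x⟩
      · exact ⟨1, N.one_mem, 1, N'.one_mem, mul_one 1⟩
      · rintro _ _ _ _ ⟨x, hx, y, hy, rfl⟩ ⟨x', hx', y', hy', rfl⟩
        refine ⟨x * (y * x' * y⁻¹), N.mul_mem hx (hNc y (hN'A hy) x' hx'), y * y', N'.mul_mem hy hy', by group⟩
      · rintro _ _ ⟨x, hx, y, hy, rfl⟩
        refine ⟨y⁻¹ * x⁻¹ * y, ?_, y⁻¹, N'.inv_mem hy, by group⟩
        have := hNc y⁻¹ (A.inv_mem (hN'A hy)) x⁻¹ (N.inv_mem hx)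
        rwa [inv_inv] at this
    let f : N × N' → A := fun p => ⟨p.1 * p.2, A.mul_mem (hNA p.1.2) (hN'A p.2.2)⟩
    have hf : Function.Bijective f := by
      constructor
      · rintro ⟨⟨x, hx⟩, ⟨y, hy⟩⟩ ⟨⟨x', hx'⟩, ⟨y', hy'⟩⟩ h
        have h0 : x * y = x' * y' := congrArg Subtype.val h
        have h1 : x'⁻¹ * x = y' * y⁻¹ := by
          rw [inv_mul_eq_iff_eq_mul, ← mul_assoc, ← h0]; group
        have h2 : x'⁻¹ * x ∈ N ⊓ N' := ⟨N.mul_mem (N.inv_mem hx') hx, by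
          rw [h1]; exact N'.mul_mem hy' (N'.inv_mem hy)⟩
        rw [hIb, Subgroup.mem_bot] at h2
        have h3 : x' = x := inv_mul_eq_one.1 h2
        subst h3
        have h4 : y = y' := mul_left_cancel h0
        subst h4
        rfl
      · rintro ⟨a, ha⟩
        obtain ⟨x, hx, y, hy, rfl⟩ := hset a ha
        exact ⟨(⟨x, hx⟩, ⟨y, hy⟩), rfl⟩
    rw [← Nat.card_congr (Equiv.ofBijective f hf), Nat.card_prod, hcardN']
  · have h1 := full A M hA hM hcore hH hreg (N ⊓ N') hI (fun x hx => hNA hx.1) hIb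
    rw [eq_top_iff]
    intro x _
    exact (memN x).1 (h1 x.2).1

/-- the core is trivial. -/
theorem core_free' {n : Nat} (ρ : G →* Equiv.Perm (Fin n)) (z : Fin n) (htr : ∀ i, ∃ g, ρ g z = i)
    (A : Subgroup G) (hA : A.Normal) (hA2 : A.index = 2) (hAc : ∀ x y : G, x * y * x⁻¹ * y⁻¹ ∈ A)
    (l : G) (hlA : l ∉ A) (hlM : l ∈ stabOf ρ z) (hlc : ∀ m ∈ stabOf ρ z, l * m = m * l) (hl1 : ρ l ≠ 1)
    (hH : ∀ K : Subgroup G, K ≤ stabOf ρ z ⊓ A → (∀ h ∈ stabOf ρ z ⊓ A, ∀ x ∈ K, h * x * h⁻¹ ∈ K) →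
      K = ⊥ ∨ K = stabOf ρ z ⊓ A)
    (x0 : G) (hx0 : x0 ∈ stabOf ρ z ⊓ A) (hx1 : ρ x0 ≠ 1)
    (hZ : ∀ x ∈ stabOf ρ z ⊓ A, (∀ y ∈ stabOf ρ z ⊓ A, x * y = y * x) → x = 1) :
    ∀ N : Subgroup G, N.Normal → N ≤ stabOf ρ z → N = ⊥ := by
  intro N hN hle
  have htriv : ∀ x ∈ N, ρ x = 1 := by
    intro x hx
    ext i
    obtain ⟨g, rfl⟩ := htr i
    have h1 : g⁻¹ * x * g ∈ stabOf ρ z := by
      have := hN.conj_mem x hx g⁻¹
      rw [inv_inv] at this
      exact hle this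
    rw [mem_stabOf, map_mul, map_mul, Equiv.Perm.mul_apply, Equiv.Perm.mul_apply, map_inv,
      Equiv.Perm.inv_eq_iff_eq] at h1
    rw [h1]; rfl
  have hNA : N ⊓ A = ⊥ := by
    rcases hH (N ⊓ A) (fun x hx => ⟨hle hx.1, hx.2⟩) (fun h hh x hx =>
      ⟨hN.conj_mem x hx.1 h, hA.conj_mem x hx.2 h⟩) with h | h
    · exact h
    · exfalso
      rw [← h] at hx0
      exact hx1 (htriv x0 hx0.1)
  have hcen : ∀ x ∈ N, ∀ y : G, x * y = y * x := by
    intro x hx y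
    have h1 : x * y * x⁻¹ * y⁻¹ ∈ N ⊓ A := by
      refine ⟨?_, hAc x y⟩
      have h2 : y * x⁻¹ * y⁻¹ ∈ N := hN.conj_mem _ (N.inv_mem hx) y
      have := N.mul_mem hx h2
      simpa [mul_assoc] using this
    rw [hNA, Subgroup.mem_bot, mul_inv_eq_one, mul_inv_eq_iff_eq_mul] at h1
    exact h1
  rw [eq_bot_iff]
  intro x hx
  rw [Subgroup.mem_bot]
  by_cases hxA : x ∈ A
  · have : x ∈ N ⊓ A := ⟨hx, hxA⟩
    rw [hNA, Subgroup.mem_bot] at this
    exact this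
  · exfalso
    have h1 : x * l ∈ stabOf ρ z ⊓ A := by
      refine ⟨Subgroup.mul_mem _ (hle hx) hlM, ?_⟩
      show x * l ∈ A
      rw [Subgroup.mul_mem_iff_of_index_two hA2]
      exact ⟨fun h => absurd h hxA, fun h => absurd h hlA⟩
    have h2 : x * l = 1 := by
      apply hZ _ h1
      intro y hy
      rw [mul_assoc, hlc y hy.1, ← mul_assoc, hcen x hx y, mul_assoc]
    have h3 := congrArg ρ h2
    rw [map_mul, htriv x hx, one_mul, map_one] at h3
    exact hl1 h3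

end Cfsg.Agent.H8.I2S
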