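import Cfsg.Agent.H8.Y522Pres
import Cfsg.Agent.H8.Fi23Pres
import Cfsg.Agent.H8.IndexTwoSimple
import Cfsg.Agent.H8.T.Fi24tTab
import Cfsg.Prelude.Def_Spor_Fi24
import Cfsg.Prelude.Def_Sporadic

/-!
# The presented Fischer group `Fi₂₄`
-/

set_option autoImplicit false
set_option linter.all false
set_option maxRecDepth 100000
set_option maxHeartbeats 400000

namespace Cfsg.Agent.H8.Fi24P

open Cfsg.Spor

/-- letter function. -/
def sF {P : Type*} [Group P] (f : Fi24.Gen → P) : Nat → P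
  | 0 => f .l
  | 1 => f .k
  | 2 => f .a
  | 3 => f .b
  | 4 => f .c
  | 5 => f .d
  | 6 => f .e
  | 7 => f .f
  | 8 => f .g
  | 9 => f .j
  | 10 => f .h
  | 11 => f .i
  | _ => 1

theorem sF_sq {P : Type*} [Group P] (f : Fi24.Gen → P) (h : ∀ x, f x * f x = 1) : ∀ l, sF f l * sF f l = 1 := by
  intro l
  unfold sF
  split <;> first | exact h _ | exact one_mul 1

theorem base_of {P : Type*} [Group P] (f : Fi24.Gen → P)
    (hc : ∀ x y m, coxLabel Fi24.edges x y = m → (f x * f y) ^ m = 1)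
    (h1 : f .l * (f .a * f .b * f .c * f .d * f .e * f .f * f .h) ^ 9 = 1)
    (h2 : (f .d * f .c * f .b * f .a * f .k * f .l * f .d * f .e * f .f * f .g * f .j * f .d * f .h * f .i) ^ 17 = 1)
    : ∀ p ∈ Fi24t.relsP, ((p.1.map (sF f)).prod) ^ p.2 = 1 := by
  refine List.forall_mem_cons.2 ⟨(show (f .a * (f .b * 1)) ^ 3 = 1 from by rw [mul_one]; exact hc _ _ _ (by decide)), ?_⟩
  refine List.forall_mem_cons.2 ⟨(show (f .a * (f .c * 1)) ^ 2 = 1 from by rw [mul_one]; exact hc _ _ _ (by decide)), ?_⟩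
  refine List.forall_mem_cons.2 ⟨(show (f .a * (f .d * 1)) ^ 2 = 1 from by rw [mul_one]; exact hc _ _ _ (by decide)), ?_⟩
  refine List.forall_mem_cons.2 ⟨(show (f .a * (f .e * 1)) ^ 2 = 1 from by rw [mul_one]; exact hc _ _ _ (by decide)), ?_⟩
  refine List.forall_mem_cons.2 ⟨(show (f .a * (f .f * 1)) ^ 2 = 1 from by rw [mul_one]; exact hc _ _ _ (by decide)), ?_⟩
  refine List.forall_mem_cons.2 ⟨(show (f .a * (f .g * 1)) ^ 2 = 1 from by rw [mul_one]; exact hc _ _ _ (by decide)), ?_⟩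
  refine List.forall_mem_cons.2 ⟨(show (f .a * (f .h * 1)) ^ 2 = 1 from by rw [mul_one]; exact hc _ _ _ (by decide)), ?_⟩
  refine List.forall_mem_cons.2 ⟨(show (f .a * (f .i * 1)) ^ 2 = 1 from by rw [mul_one]; exact hc _ _ _ (by decide)), ?_⟩
  refine List.forall_mem_cons.2 ⟨(show (f .a * (f .j * 1)) ^ 2 = 1 from by rw [mul_one]; exact hc _ _ _ (by decide)), ?_⟩
  refine List.forall_mem_cons.2 ⟨(show (f .a * (f .k * 1)) ^ 3 = 1 from by rw [mul_one]; exact hc _ _ _ (by decide)), ?_⟩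
  refine List.forall_mem_cons.2 ⟨(show (f .a * (f .l * 1)) ^ 2 = 1 from by rw [mul_one]; exact hc _ _ _ (by decide)), ?_⟩
  refine List.forall_mem_cons.2 ⟨(show (f .b * (f .c * 1)) ^ 3 = 1 from by rw [mul_one]; exact hc _ _ _ (by decide)), ?_⟩
  refine List.forall_mem_cons.2 ⟨(show (f .b * (f .d * 1)) ^ 2 = 1 from by rw [mul_one]; exact hc _ _ _ (by decide)), ?_⟩
  refine List.forall_mem_cons.2 ⟨(show (f .b * (f .e * 1)) ^ 2 = 1 from by rw [mul_one]; exact hc _ _ _ (by decide)), ?_⟩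
  refine List.forall_mem_cons.2 ⟨(show (f .b * (f .f * 1)) ^ 2 = 1 from by rw [mul_one]; exact hc _ _ _ (by decide)), ?_⟩
  refine List.forall_mem_cons.2 ⟨(show (f .b * (f .g * 1)) ^ 2 = 1 from by rw [mul_one]; exact hc _ _ _ (by decide)), ?_⟩
  refine List.forall_mem_cons.2 ⟨(show (f .b * (f .h * 1)) ^ 2 = 1 from by rw [mul_one]; exact hc _ _ _ (by decide)), ?_⟩
  refine List.forall_mem_cons.2 ⟨(show (f .b * (f .i * 1)) ^ 2 = 1 from by rw [mul_one]; exact hc _ _ _ (by decide)), ?_⟩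
  refine List.forall_mem_cons.2 ⟨(show (f .b * (f .j * 1)) ^ 2 = 1 from by rw [mul_one]; exact hc _ _ _ (by decide)), ?_⟩
  refine List.forall_mem_cons.2 ⟨(show (f .b * (f .k * 1)) ^ 2 = 1 from by rw [mul_one]; exact hc _ _ _ (by decide)), ?_⟩
  refine List.forall_mem_cons.2 ⟨(show (f .b * (f .l * 1)) ^ 2 = 1 from by rw [mul_one]; exact hc _ _ _ (by decide)), ?_⟩
  refine List.forall_mem_cons.2 ⟨(show (f .c * (f .d * 1)) ^ 3 = 1 from by rw [mul_one]; exact hc _ _ _ (by decide)), ?_⟩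
  refine List.forall_mem_cons.2 ⟨(show (f .c * (f .e * 1)) ^ 2 = 1 from by rw [mul_one]; exact hc _ _ _ (by decide)), ?_⟩
  refine List.forall_mem_cons.2 ⟨(show (f .c * (f .f * 1)) ^ 2 = 1 from by rw [mul_one]; exact hc _ _ _ (by decide)), ?_⟩
  refine List.forall_mem_cons.2 ⟨(show (f .c * (f .g * 1)) ^ 2 = 1 from by rw [mul_one]; exact hc _ _ _ (by decide)), ?_⟩
  refine List.forall_mem_cons.2 ⟨(show (f .c * (f .h * 1)) ^ 2 = 1 from by rw [mul_one]; exact hc _ _ _ (by decide)), ?_⟩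
  refine List.forall_mem_cons.2 ⟨(show (f .c * (f .i * 1)) ^ 2 = 1 from by rw [mul_one]; exact hc _ _ _ (by decide)), ?_⟩
  refine List.forall_mem_cons.2 ⟨(show (f .c * (f .j * 1)) ^ 2 = 1 from by rw [mul_one]; exact hc _ _ _ (by decide)), ?_⟩
  refine List.forall_mem_cons.2 ⟨(show (f .c * (f .k * 1)) ^ 2 = 1 from by rw [mul_one]; exact hc _ _ _ (by decide)), ?_⟩
  refine List.forall_mem_cons.2 ⟨(show (f .c * (f .l * 1)) ^ 2 = 1 from by rw [mul_one]; exact hc _ _ _ (by decide)), ?_⟩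
  refine List.forall_mem_cons.2 ⟨(show (f .d * (f .e * 1)) ^ 3 = 1 from by rw [mul_one]; exact hc _ _ _ (by decide)), ?_⟩
  refine List.forall_mem_cons.2 ⟨(show (f .d * (f .f * 1)) ^ 2 = 1 from by rw [mul_one]; exact hc _ _ _ (by decide)), ?_⟩
  refine List.forall_mem_cons.2 ⟨(show (f .d * (f .g * 1)) ^ 2 = 1 from by rw [mul_one]; exact hc _ _ _ (by decide)), ?_⟩
  refine List.forall_mem_cons.2 ⟨(show (f .d * (f .h * 1)) ^ 3 = 1 from by rw [mul_one]; exact hc _ _ _ (by decide)), ?_⟩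
  refine List.forall_mem_cons.2 ⟨(show (f .d * (f .i * 1)) ^ 2 = 1 from by rw [mul_one]; exact hc _ _ _ (by decide)), ?_⟩
  refine List.forall_mem_cons.2 ⟨(show (f .d * (f .j * 1)) ^ 2 = 1 from by rw [mul_one]; exact hc _ _ _ (by decide)), ?_⟩
  refine List.forall_mem_cons.2 ⟨(show (f .d * (f .k * 1)) ^ 2 = 1 from by rw [mul_one]; exact hc _ _ _ (by decide)), ?_⟩
  refine List.forall_mem_cons.2 ⟨(show (f .d * (f .l * 1)) ^ 2 = 1 from by rw [mul_one]; exact hc _ _ _ (by decide)), ?_⟩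
  refine List.forall_mem_cons.2 ⟨(show (f .e * (f .f * 1)) ^ 3 = 1 from by rw [mul_one]; exact hc _ _ _ (by decide)), ?_⟩
  refine List.forall_mem_cons.2 ⟨(show (f .e * (f .g * 1)) ^ 2 = 1 from by rw [mul_one]; exact hc _ _ _ (by decide)), ?_⟩
  refine List.forall_mem_cons.2 ⟨(show (f .e * (f .h * 1)) ^ 2 = 1 from by rw [mul_one]; exact hc _ _ _ (by decide)), ?_⟩
  refine List.forall_mem_cons.2 ⟨(show (f .e * (f .i * 1)) ^ 2 = 1 from by rw [mul_one]; exact hc _ _ _ (by decide)), ?_⟩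
  refine List.forall_mem_cons.2 ⟨(show (f .e * (f .j * 1)) ^ 2 = 1 from by rw [mul_one]; exact hc _ _ _ (by decide)), ?_⟩
  refine List.forall_mem_cons.2 ⟨(show (f .e * (f .k * 1)) ^ 2 = 1 from by rw [mul_one]; exact hc _ _ _ (by decide)), ?_⟩
  refine List.forall_mem_cons.2 ⟨(show (f .e * (f .l * 1)) ^ 2 = 1 from by rw [mul_one]; exact hc _ _ _ (by decide)), ?_⟩
  refine List.forall_mem_cons.2 ⟨(show (f .f * (f .g * 1)) ^ 3 = 1 from by rw [mul_one]; exact hc _ _ _ (by decide)), ?_⟩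
  refine List.forall_mem_cons.2 ⟨(show (f .f * (f .h * 1)) ^ 2 = 1 from by rw [mul_one]; exact hc _ _ _ (by decide)), ?_⟩
  refine List.forall_mem_cons.2 ⟨(show (f .f * (f .i * 1)) ^ 2 = 1 from by rw [mul_one]; exact hc _ _ _ (by decide)), ?_⟩
  refine List.forall_mem_cons.2 ⟨(show (f .f * (f .j * 1)) ^ 2 = 1 from by rw [mul_one]; exact hc _ _ _ (by decide)), ?_⟩
  refine List.forall_mem_cons.2 ⟨(show (f .f * (f .k * 1)) ^ 2 = 1 from by rw [mul_one]; exact hc _ _ _ (by decide)), ?_⟩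
  refine List.forall_mem_cons.2 ⟨(show (f .f * (f .l * 1)) ^ 2 = 1 from by rw [mul_one]; exact hc _ _ _ (by decide)), ?_⟩
  refine List.forall_mem_cons.2 ⟨(show (f .g * (f .h * 1)) ^ 2 = 1 from by rw [mul_one]; exact hc _ _ _ (by decide)), ?_⟩
  refine List.forall_mem_cons.2 ⟨(show (f .g * (f .i * 1)) ^ 2 = 1 from by rw [mul_one]; exact hc _ _ _ (by decide)), ?_⟩
  refine List.forall_mem_cons.2 ⟨(show (f .g * (f .j * 1)) ^ 3 = 1 from by rw [mul_one]; exact hc _ _ _ (by decide)), ?_⟩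
  refine List.forall_mem_cons.2 ⟨(show (f .g * (f .k * 1)) ^ 2 = 1 from by rw [mul_one]; exact hc _ _ _ (by decide)), ?_⟩
  refine List.forall_mem_cons.2 ⟨(show (f .g * (f .l * 1)) ^ 2 = 1 from by rw [mul_one]; exact hc _ _ _ (by decide)), ?_⟩
  refine List.forall_mem_cons.2 ⟨(show (f .h * (f .i * 1)) ^ 3 = 1 from by rw [mul_one]; exact hc _ _ _ (by decide)), ?_⟩
  refine List.forall_mem_cons.2 ⟨(show (f .h * (f .j * 1)) ^ 2 = 1 from by rw [mul_one]; exact hc _ _ _ (by decide)), ?_⟩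
  refine List.forall_mem_cons.2 ⟨(show (f .h * (f .k * 1)) ^ 2 = 1 from by rw [mul_one]; exact hc _ _ _ (by decide)), ?_⟩
  refine List.forall_mem_cons.2 ⟨(show (f .h * (f .l * 1)) ^ 2 = 1 from by rw [mul_one]; exact hc _ _ _ (by decide)), ?_⟩
  refine List.forall_mem_cons.2 ⟨(show (f .i * (f .j * 1)) ^ 2 = 1 from by rw [mul_one]; exact hc _ _ _ (by decide)), ?_⟩
  refine List.forall_mem_cons.2 ⟨(show (f .i * (f .k * 1)) ^ 2 = 1 from by rw [mul_one]; exact hc _ _ _ (by decide)), ?_⟩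
  refine List.forall_mem_cons.2 ⟨(show (f .i * (f .l * 1)) ^ 2 = 1 from by rw [mul_one]; exact hc _ _ _ (by decide)), ?_⟩
  refine List.forall_mem_cons.2 ⟨(show (f .j * (f .k * 1)) ^ 2 = 1 from by rw [mul_one]; exact hc _ _ _ (by decide)), ?_⟩
  refine List.forall_mem_cons.2 ⟨(show (f .j * (f .l * 1)) ^ 2 = 1 from by rw [mul_one]; exact hc _ _ _ (by decide)), ?_⟩
  refine List.forall_mem_cons.2 ⟨(show (f .k * (f .l * 1)) ^ 3 = 1 from by rw [mul_one]; exact hc _ _ _ (by decide)), ?_⟩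
  refine List.forall_mem_cons.2 ⟨?_, ?_⟩
  · have e : (([2, 3, 4, 5, 6, 7, 10] : List Nat).map (sF f)).prod = f .a * f .b * f .c * f .d * f .e * f .f * f .h := by simp [sF, mul_assoc]
    change ((([0] ++ wpow [2, 3, 4, 5, 6, 7, 10] 9 : List Nat).map (sF f)).prod) ^ 1 = 1
    rw [pow_one, List.map_append, List.prod_append, wpow_prod, e, List.map_singleton, List.prod_singleton]
    exact h1
  refine List.forall_mem_cons.2 ⟨?_, ?_⟩
  · have e : ([5, 4, 3, 2, 1, 0, 5, 6, 7, 8, 9, 5, 10, 11].map (sF f)).prod = f .d * f .c * f .b * f .a * f .k * f .l * f .d * f .e * f .f * f .g * f .j * f .d * f .h * f .i := by simp [sF, mul_assoc]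
    change (([5, 4, 3, 2, 1, 0, 5, 6, 7, 8, 9, 5, 10, 11].map (sF f)).prod) ^ 17 = 1
    rw [e, h2]
  intro c hc
  exact absurd hc List.not_mem_nil

def pl : List (Fi24.Gen × ℕ × Fi24.Gen) := [(.l, 1, .l), (.k, 1, .k), (.a, 1, .a), (.b, 1, .b), (.c, 1, .c), (.d, 1, .d), (.e, 1, .e), (.f, 1, .f), (.g, 1, .g), (.j, 1, .j), (.h, 1, .h), (.i, 1, .i), (.l, 3, .k), (.l, 2, .a), (.l, 2, .b), (.l, 2, .c), (.l, 2, .d), (.l, 2, .e), (.l, 2, .f), (.l, 2, .g), (.l, 2, .j), (.l, 2, .h), (.l, 2, .i), (.k, 3, .a), (.k, 2, .b), (.k, 2, .c), (.k, 2, .d), (.k, 2, .e), (.k, 2, .f), (.k, 2, .g), (.k, 2, .j), (.k, 2, .h), (.k, 2, .i), (.a, 3, .b), (.a, 2, .c), (.a, 2, .d), (.a, 2, .e), (.a, 2, .f), (.a, 2, .g), (.a, 2, .j), (.a, 2, .h), (.a, 2, .i), (.b, 3, .c), (.b, 2, .d), (.b, 2, .e), (.b, 2, .f), (.b, 2, .g), (.b, 2, .j), (.b, 2, .h), (.b, 2, .i), (.c, 3, .d), (.c, 2, .e), (.c, 2, .f), (.c, 2, .g), (.c, 2, .j), (.c, 2, .h), (.c, 2, .i), (.d, 3,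 .e), (.d, 2, .f), (.d, 2, .g), (.d, 2, .j), (.d, 3, .h), (.d, 2, .i), (.e, 3, .f), (.e, 2, .g), (.e, 2, .j), (.e, 2, .h), (.e, 2, .i), (.f, 3, .g), (.f, 2, .j), (.f, 2, .h), (.f, 2, .i), (.g, 3, .j), (.g, 2, .h), (.g, 2, .i), (.j, 2, .h), (.j, 2, .i), (.h, 3, .i)]

theorem pl_cov : ∀ x y : Fi24.Gen, (x, coxLabel Fi24.edges x y, y) ∈ pl ∨ (y, coxLabel Fi24.edges x y, x) ∈ pl := by
  intro x y
  cases x <;> cases y <;> decide

theorem lift_of {P : Type*} [Group P] (f : Fi24.Gen → P) (hsq : ∀ x, f x * f x = 1)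
    (hb : ∀ p ∈ Fi24t.relsP, ((p.1.map (sF f)).prod) ^ p.2 = 1) :
    ∀ r ∈ coxRelators Fi24.edges ∪ {r | r ∈ Fi24.extra}, FreeGroup.lift f r = 1 := by
  rintro r (hr | hr)
  · refine cox_lift Fi24.edges f pl (fun x _ y _ => pl_cov x y) ?_ r hr
    unfold pl
    refine List.forall_mem_cons.2 ⟨(show (f .l * f .l) ^ 1 = 1 from by rw [pow_one]; exact hsq _), ?_⟩
    refine List.forall_mem_cons.2 ⟨(show (f .k * f .k) ^ 1 = 1 from by rw [pow_one]; exact hsq _), ?_⟩
    refine List.forall_mem_cons.2 ⟨(show (f .a * f .a) ^ 1 = 1 from by rw [pow_one]; exact hsq _), ?_⟩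
    refine List.forall_mem_cons.2 ⟨(show (f .b * f .b) ^ 1 = 1 from by rw [pow_one]; exact hsq _), ?_⟩
    refine List.forall_mem_cons.2 ⟨(show (f .c * f .c) ^ 1 = 1 from by rw [pow_one]; exact hsq _), ?_⟩
    refine List.forall_mem_cons.2 ⟨(show (f .d * f .d) ^ 1 = 1 from by rw [pow_one]; exact hsq _), ?_⟩
    refine List.forall_mem_cons.2 ⟨(show (f .e * f .e) ^ 1 = 1 from by rw [pow_one]; exact hsq _), ?_⟩
    refine List.forall_mem_cons.2 ⟨(show (f .f * f .f) ^ 1 = 1 from by rw [pow_one]; exact hsq _), ?_⟩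
    refine List.forall_mem_cons.2 ⟨(show (f .g * f .g) ^ 1 = 1 from by rw [pow_one]; exact hsq _), ?_⟩
    refine List.forall_mem_cons.2 ⟨(show (f .j * f .j) ^ 1 = 1 from by rw [pow_one]; exact hsq _), ?_⟩
    refine List.forall_mem_cons.2 ⟨(show (f .h * f .h) ^ 1 = 1 from by rw [pow_one]; exact hsq _), ?_⟩
    refine List.forall_mem_cons.2 ⟨(show (f .i * f .i) ^ 1 = 1 from by rw [pow_one]; exact hsq _), ?_⟩
    refine List.forall_mem_cons.2 ⟨(show (f .l * f .k) ^ 3 = 1 from by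
      have h : (f .k * (f .l * 1)) ^ 3 = 1 := hb ([1, 0], 3) (by decide)
      rw [mul_one] at h
      exact pow_swap _ _ _ h), ?_⟩
    refine List.forall_mem_cons.2 ⟨(show (f .l * f .a) ^ 2 = 1 from by
      have h : (f .a * (f .l * 1)) ^ 2 = 1 := hb ([2, 0], 2) (by decide)
      rw [mul_one] at h
      exact pow_swap _ _ _ h), ?_⟩
    refine List.forall_mem_cons.2 ⟨(show (f .l * f .b) ^ 2 = 1 from by
      have h : (f .b * (f .l * 1)) ^ 2 = 1 := hb ([3, 0], 2) (by decide)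
      rw [mul_one] at h
      exact pow_swap _ _ _ h), ?_⟩
    refine List.forall_mem_cons.2 ⟨(show (f .l * f .c) ^ 2 = 1 from by
      have h : (f .c * (f .l * 1)) ^ 2 = 1 := hb ([4, 0], 2) (by decide)
      rw [mul_one] at h
      exact pow_swap _ _ _ h), ?_⟩
    refine List.forall_mem_cons.2 ⟨(show (f .l * f .d) ^ 2 = 1 from by
      have h : (f .d * (f .l * 1)) ^ 2 = 1 := hb ([5, 0], 2) (by decide)
      rw [mul_one] at h
      exact pow_swap _ _ _ h), ?_⟩
    refine List.forall_mem_cons.2 ⟨(show (f .l * f .e) ^ 2 = 1 from by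
      have h : (f .e * (f .l * 1)) ^ 2 = 1 := hb ([6, 0], 2) (by decide)
      rw [mul_one] at h
      exact pow_swap _ _ _ h), ?_⟩
    refine List.forall_mem_cons.2 ⟨(show (f .l * f .f) ^ 2 = 1 from by
      have h : (f .f * (f .l * 1)) ^ 2 = 1 := hb ([7, 0], 2) (by decide)
      rw [mul_one] at h
      exact pow_swap _ _ _ h), ?_⟩
    refine List.forall_mem_cons.2 ⟨(show (f .l * f .g) ^ 2 = 1 from by
      have h : (f .g * (f .l * 1)) ^ 2 = 1 := hb ([8, 0], 2) (by decide)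
      rw [mul_one] at h
      exact pow_swap _ _ _ h), ?_⟩
    refine List.forall_mem_cons.2 ⟨(show (f .l * f .j) ^ 2 = 1 from by
      have h : (f .j * (f .l * 1)) ^ 2 = 1 := hb ([9, 0], 2) (by decide)
      rw [mul_one] at h
      exact pow_swap _ _ _ h), ?_⟩
    refine List.forall_mem_cons.2 ⟨(show (f .l * f .h) ^ 2 = 1 from by
      have h : (f .h * (f .l * 1)) ^ 2 = 1 := hb ([10, 0], 2) (by decide)
      rw [mul_one] at h
      exact pow_swap _ _ _ h), ?_⟩
    refine List.forall_mem_cons.2 ⟨(show (f .l * f .i) ^ 2 = 1 from by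
      have h : (f .i * (f .l * 1)) ^ 2 = 1 := hb ([11, 0], 2) (by decide)
      rw [mul_one] at h
      exact pow_swap _ _ _ h), ?_⟩
    refine List.forall_mem_cons.2 ⟨(show (f .k * f .a) ^ 3 = 1 from by
      have h : (f .a * (f .k * 1)) ^ 3 = 1 := hb ([2, 1], 3) (by decide)
      rw [mul_one] at h
      exact pow_swap _ _ _ h), ?_⟩
    refine List.forall_mem_cons.2 ⟨(show (f .k * f .b) ^ 2 = 1 from by
      have h : (f .b * (f .k * 1)) ^ 2 = 1 := hb ([3, 1], 2) (by decide)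
      rw [mul_one] at h
      exact pow_swap _ _ _ h), ?_⟩
    refine List.forall_mem_cons.2 ⟨(show (f .k * f .c) ^ 2 = 1 from by
      have h : (f .c * (f .k * 1)) ^ 2 = 1 := hb ([4, 1], 2) (by decide)
      rw [mul_one] at h
      exact pow_swap _ _ _ h), ?_⟩
    refine List.forall_mem_cons.2 ⟨(show (f .k * f .d) ^ 2 = 1 from by
      have h : (f .d * (f .k * 1)) ^ 2 = 1 := hb ([5, 1], 2) (by decide)
      rw [mul_one] at h
      exact pow_swap _ _ _ h), ?_⟩
    refine List.forall_mem_cons.2 ⟨(show (f .k * f .e) ^ 2 = 1 from by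
      have h : (f .e * (f .k * 1)) ^ 2 = 1 := hb ([6, 1], 2) (by decide)
      rw [mul_one] at h
      exact pow_swap _ _ _ h), ?_⟩
    refine List.forall_mem_cons.2 ⟨(show (f .k * f .f) ^ 2 = 1 from by
      have h : (f .f * (f .k * 1)) ^ 2 = 1 := hb ([7, 1], 2) (by decide)
      rw [mul_one] at h
      exact pow_swap _ _ _ h), ?_⟩
    refine List.forall_mem_cons.2 ⟨(show (f .k * f .g) ^ 2 = 1 from by
      have h : (f .g * (f .k * 1)) ^ 2 = 1 := hb ([8, 1], 2) (by decide)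
      rw [mul_one] at h
      exact pow_swap _ _ _ h), ?_⟩
    refine List.forall_mem_cons.2 ⟨(show (f .k * f .j) ^ 2 = 1 from by
      have h : (f .j * (f .k * 1)) ^ 2 = 1 := hb ([9, 1], 2) (by decide)
      rw [mul_one] at h
      exact pow_swap _ _ _ h), ?_⟩
    refine List.forall_mem_cons.2 ⟨(show (f .k * f .h) ^ 2 = 1 from by
      have h : (f .h * (f .k * 1)) ^ 2 = 1 := hb ([10, 1], 2) (by decide)
      rw [mul_one] at h
      exact pow_swap _ _ _ h), ?_⟩
    refine List.forall_mem_cons.2 ⟨(show (f .k * f .i) ^ 2 = 1 from by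
      have h : (f .i * (f .k * 1)) ^ 2 = 1 := hb ([11, 1], 2) (by decide)
      rw [mul_one] at h
      exact pow_swap _ _ _ h), ?_⟩
    refine List.forall_mem_cons.2 ⟨(show (f .a * f .b) ^ 3 = 1 from by
      have h : (f .a * (f .b * 1)) ^ 3 = 1 := hb ([2, 3], 3) (by decide)
      rwa [mul_one] at h), ?_⟩
    refine List.forall_mem_cons.2 ⟨(show (f .a * f .c) ^ 2 = 1 from by
      have h : (f .a * (f .c * 1)) ^ 2 = 1 := hb ([2, 4], 2) (by decide)
      rwa [mul_one] at h), ?_⟩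
    refine List.forall_mem_cons.2 ⟨(show (f .a * f .d) ^ 2 = 1 from by
      have h : (f .a * (f .d * 1)) ^ 2 = 1 := hb ([2, 5], 2) (by decide)
      rwa [mul_one] at h), ?_⟩
    refine List.forall_mem_cons.2 ⟨(show (f .a * f .e) ^ 2 = 1 from by
      have h : (f .a * (f .e * 1)) ^ 2 = 1 := hb ([2, 6], 2) (by decide)
      rwa [mul_one] at h), ?_⟩
    refine List.forall_mem_cons.2 ⟨(show (f .a * f .f) ^ 2 = 1 from by
      have h : (f .a * (f .f * 1)) ^ 2 = 1 := hb ([2, 7], 2) (by decide)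
      rwa [mul_one] at h), ?_⟩
    refine List.forall_mem_cons.2 ⟨(show (f .a * f .g) ^ 2 = 1 from by
      have h : (f .a * (f .g * 1)) ^ 2 = 1 := hb ([2, 8], 2) (by decide)
      rwa [mul_one] at h), ?_⟩
    refine List.forall_mem_cons.2 ⟨(show (f .a * f .j) ^ 2 = 1 from by
      have h : (f .a * (f .j * 1)) ^ 2 = 1 := hb ([2, 9], 2) (by decide)
      rwa [mul_one] at h), ?_⟩
    refine List.forall_mem_cons.2 ⟨(show (f .a * f .h) ^ 2 = 1 from by
      have h : (f .a * (f .h * 1)) ^ 2 = 1 := hb ([2, 10], 2) (by decide)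
      rwa [mul_one] at h), ?_⟩
    refine List.forall_mem_cons.2 ⟨(show (f .a * f .i) ^ 2 = 1 from by
      have h : (f .a * (f .i * 1)) ^ 2 = 1 := hb ([2, 11], 2) (by decide)
      rwa [mul_one] at h), ?_⟩
    refine List.forall_mem_cons.2 ⟨(show (f .b * f .c) ^ 3 = 1 from by
      have h : (f .b * (f .c * 1)) ^ 3 = 1 := hb ([3, 4], 3) (by decide)
      rwa [mul_one] at h), ?_⟩
    refine List.forall_mem_cons.2 ⟨(show (f .b * f .d) ^ 2 = 1 from by
      have h : (f .b * (f .d * 1)) ^ 2 = 1 := hb ([3, 5], 2) (by decide)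
      rwa [mul_one] at h), ?_⟩
    refine List.forall_mem_cons.2 ⟨(show (f .b * f .e) ^ 2 = 1 from by
      have h : (f .b * (f .e * 1)) ^ 2 = 1 := hb ([3, 6], 2) (by decide)
      rwa [mul_one] at h), ?_⟩
    refine List.forall_mem_cons.2 ⟨(show (f .b * f .f) ^ 2 = 1 from by
      have h : (f .b * (f .f * 1)) ^ 2 = 1 := hb ([3, 7], 2) (by decide)
      rwa [mul_one] at h), ?_⟩
    refine List.forall_mem_cons.2 ⟨(show (f .b * f .g) ^ 2 = 1 from by
      have h : (f .b * (f .g * 1)) ^ 2 = 1 := hb ([3, 8], 2) (by decide)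
      rwa [mul_one] at h), ?_⟩
    refine List.forall_mem_cons.2 ⟨(show (f .b * f .j) ^ 2 = 1 from by
      have h : (f .b * (f .j * 1)) ^ 2 = 1 := hb ([3, 9], 2) (by decide)
      rwa [mul_one] at h), ?_⟩
    refine List.forall_mem_cons.2 ⟨(show (f .b * f .h) ^ 2 = 1 from by
      have h : (f .b * (f .h * 1)) ^ 2 = 1 := hb ([3, 10], 2) (by decide)
      rwa [mul_one] at h), ?_⟩
    refine List.forall_mem_cons.2 ⟨(show (f .b * f .i) ^ 2 = 1 from by
      have h : (f .b * (f .i * 1)) ^ 2 = 1 := hb ([3, 11], 2) (by decide)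
      rwa [mul_one] at h), ?_⟩
    refine List.forall_mem_cons.2 ⟨(show (f .c * f .d) ^ 3 = 1 from by
      have h : (f .c * (f .d * 1)) ^ 3 = 1 := hb ([4, 5], 3) (by decide)
      rwa [mul_one] at h), ?_⟩
    refine List.forall_mem_cons.2 ⟨(show (f .c * f .e) ^ 2 = 1 from by
      have h : (f .c * (f .e * 1)) ^ 2 = 1 := hb ([4, 6], 2) (by decide)
      rwa [mul_one] at h), ?_⟩
    refine List.forall_mem_cons.2 ⟨(show (f .c * f .f) ^ 2 = 1 from by
      have h : (f .c * (f .f * 1)) ^ 2 = 1 := hb ([4, 7], 2) (by decide)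
      rwa [mul_one] at h), ?_⟩
    refine List.forall_mem_cons.2 ⟨(show (f .c * f .g) ^ 2 = 1 from by
      have h : (f .c * (f .g * 1)) ^ 2 = 1 := hb ([4, 8], 2) (by decide)
      rwa [mul_one] at h), ?_⟩
    refine List.forall_mem_cons.2 ⟨(show (f .c * f .j) ^ 2 = 1 from by
      have h : (f .c * (f .j * 1)) ^ 2 = 1 := hb ([4, 9], 2) (by decide)
      rwa [mul_one] at h), ?_⟩
    refine List.forall_mem_cons.2 ⟨(show (f .c * f .h) ^ 2 = 1 from by
      have h : (f .c * (f .h * 1)) ^ 2 = 1 := hb ([4, 10], 2) (by decide)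
      rwa [mul_one] at h), ?_⟩
    refine List.forall_mem_cons.2 ⟨(show (f .c * f .i) ^ 2 = 1 from by
      have h : (f .c * (f .i * 1)) ^ 2 = 1 := hb ([4, 11], 2) (by decide)
      rwa [mul_one] at h), ?_⟩
    refine List.forall_mem_cons.2 ⟨(show (f .d * f .e) ^ 3 = 1 from by
      have h : (f .d * (f .e * 1)) ^ 3 = 1 := hb ([5, 6], 3) (by decide)
      rwa [mul_one] at h), ?_⟩
    refine List.forall_mem_cons.2 ⟨(show (f .d * f .f) ^ 2 = 1 from by
      have h : (f .d * (f .f * 1)) ^ 2 = 1 := hb ([5, 7], 2) (by decide)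
      rwa [mul_one] at h), ?_⟩
    refine List.forall_mem_cons.2 ⟨(show (f .d * f .g) ^ 2 = 1 from by
      have h : (f .d * (f .g * 1)) ^ 2 = 1 := hb ([5, 8], 2) (by decide)
      rwa [mul_one] at h), ?_⟩
    refine List.forall_mem_cons.2 ⟨(show (f .d * f .j) ^ 2 = 1 from by
      have h : (f .d * (f .j * 1)) ^ 2 = 1 := hb ([5, 9], 2) (by decide)
      rwa [mul_one] at h), ?_⟩
    refine List.forall_mem_cons.2 ⟨(show (f .d * f .h) ^ 3 = 1 from by
      have h : (f .d * (f .h * 1)) ^ 3 = 1 := hb ([5, 10], 3) (by decide)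
      rwa [mul_one] at h), ?_⟩
    refine List.forall_mem_cons.2 ⟨(show (f .d * f .i) ^ 2 = 1 from by
      have h : (f .d * (f .i * 1)) ^ 2 = 1 := hb ([5, 11], 2) (by decide)
      rwa [mul_one] at h), ?_⟩
    refine List.forall_mem_cons.2 ⟨(show (f .e * f .f) ^ 3 = 1 from by
      have h : (f .e * (f .f * 1)) ^ 3 = 1 := hb ([6, 7], 3) (by decide)
      rwa [mul_one] at h), ?_⟩
    refine List.forall_mem_cons.2 ⟨(show (f .e * f .g) ^ 2 = 1 from by
      have h : (f .e * (f .g * 1)) ^ 2 = 1 := hb ([6, 8], 2) (by decide)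
      rwa [mul_one] at h), ?_⟩
    refine List.forall_mem_cons.2 ⟨(show (f .e * f .j) ^ 2 = 1 from by
      have h : (f .e * (f .j * 1)) ^ 2 = 1 := hb ([6, 9], 2) (by decide)
      rwa [mul_one] at h), ?_⟩
    refine List.forall_mem_cons.2 ⟨(show (f .e * f .h) ^ 2 = 1 from by
      have h : (f .e * (f .h * 1)) ^ 2 = 1 := hb ([6, 10], 2) (by decide)
      rwa [mul_one] at h), ?_⟩
    refine List.forall_mem_cons.2 ⟨(show (f .e * f .i) ^ 2 = 1 from by
      have h : (f .e * (f .i * 1)) ^ 2 = 1 := hb ([6, 11], 2) (by decide)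
      rwa [mul_one] at h), ?_⟩
    refine List.forall_mem_cons.2 ⟨(show (f .f * f .g) ^ 3 = 1 from by
      have h : (f .f * (f .g * 1)) ^ 3 = 1 := hb ([7, 8], 3) (by decide)
      rwa [mul_one] at h), ?_⟩
    refine List.forall_mem_cons.2 ⟨(show (f .f * f .j) ^ 2 = 1 from by
      have h : (f .f * (f .j * 1)) ^ 2 = 1 := hb ([7, 9], 2) (by decide)
      rwa [mul_one] at h), ?_⟩
    refine List.forall_mem_cons.2 ⟨(show (f .f * f .h) ^ 2 = 1 from by
      have h : (f .f * (f .h * 1)) ^ 2 = 1 := hb ([7, 10], 2) (by decide)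
      rwa [mul_one] at h), ?_⟩
    refine List.forall_mem_cons.2 ⟨(show (f .f * f .i) ^ 2 = 1 from by
      have h : (f .f * (f .i * 1)) ^ 2 = 1 := hb ([7, 11], 2) (by decide)
      rwa [mul_one] at h), ?_⟩
    refine List.forall_mem_cons.2 ⟨(show (f .g * f .j) ^ 3 = 1 from by
      have h : (f .g * (f .j * 1)) ^ 3 = 1 := hb ([8, 9], 3) (by decide)
      rwa [mul_one] at h), ?_⟩
    refine List.forall_mem_cons.2 ⟨(show (f .g * f .h) ^ 2 = 1 from by
      have h : (f .g * (f .h * 1)) ^ 2 = 1 := hb ([8, 10], 2) (by decide)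
      rwa [mul_one] at h), ?_⟩
    refine List.forall_mem_cons.2 ⟨(show (f .g * f .i) ^ 2 = 1 from by
      have h : (f .g * (f .i * 1)) ^ 2 = 1 := hb ([8, 11], 2) (by decide)
      rwa [mul_one] at h), ?_⟩
    refine List.forall_mem_cons.2 ⟨(show (f .j * f .h) ^ 2 = 1 from by
      have h : (f .h * (f .j * 1)) ^ 2 = 1 := hb ([10, 9], 2) (by decide)
      rw [mul_one] at h
      exact pow_swap _ _ _ h), ?_⟩
    refine List.forall_mem_cons.2 ⟨(show (f .j * f .i) ^ 2 = 1 from by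
      have h : (f .i * (f .j * 1)) ^ 2 = 1 := hb ([11, 9], 2) (by decide)
      rw [mul_one] at h
      exact pow_swap _ _ _ h), ?_⟩
    refine List.forall_mem_cons.2 ⟨(show (f .h * f .i) ^ 3 = 1 from by
      have h : (f .h * (f .i * 1)) ^ 3 = 1 := hb ([10, 11], 3) (by decide)
      rwa [mul_one] at h), ?_⟩
    intro c hc
    exact absurd hc List.not_mem_nil
  · unfold Fi24.extra at hr
    simp only [Set.mem_ofPred_eq, List.mem_cons, List.not_mem_nil, or_false] at hr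
    rcases hr with rfl | rfl
    · have h : ((([0] ++ wpow [2, 3, 4, 5, 6, 7, 10] 9 : List Nat).map (sF f)).prod) ^ 1 = 1 := hb ([0] ++ wpow [2, 3, 4, 5, 6, 7, 10] 9, 1) (by decide)
      have e : (([2, 3, 4, 5, 6, 7, 10] : List Nat).map (sF f)).prod = f .a * f .b * f .c * f .d * f .e * f .f * f .h := by simp [sF, mul_assoc]
      rw [pow_one, List.map_append, List.prod_append, wpow_prod, e, List.map_singleton, List.prod_singleton] at h
      have hl : sF f 0 = f .l := rfl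
      rw [hl] at h
      simp only [map_mul, map_pow, map_inv, FreeGroup.lift_apply_of]
      rw [← mul_eq_one_iff_eq_inv.1 h]
      exact hsq _
    · have h : (([5, 4, 3, 2, 1, 0, 5, 6, 7, 8, 9, 5, 10, 11].map (sF f)).prod) ^ 17 = 1 := hb ([5, 4, 3, 2, 1, 0, 5, 6, 7, 8, 9, 5, 10, 11], 17) (by decide)
      have e : ([5, 4, 3, 2, 1, 0, 5, 6, 7, 8, 9, 5, 10, 11].map (sF f)).prod = f .d * f .c * f .b * f .a * f .k * f .l * f .d * f .e * f .f * f .g * f .j * f .d * f .h * f .i := by simp [sF, mul_assoc]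
      rw [e] at h
      simp only [map_mul, map_pow, map_inv, FreeGroup.lift_apply_of]
      exact h

section grp

/-- the letters of the presented group. -/
def s : Nat → Fi24 := sF (fun x => (PresentedGroup.of x : Fi24))

theorem of_sq (x : Fi24.Gen) : (PresentedGroup.of x * PresentedGroup.of x : Fi24) = 1 := by
  have h := cox_rel Fi24.edges Fi24.extra x x 1 (by cases x <;> decide) (by cases x <;> decide) (by cases x <;> decide)
  rwa [pow_one] at h

theorem s_sq : ∀ l, s l * s l = 1 := sF_sq _ of_sq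

theorem s_inv : ∀ l, s l = (s l)⁻¹ := fun l => eq_inv_of_mul_eq_one_left (s_sq l)

theorem s_31 : s 31 = 1 := rfl

theorem s_top : letterGroup s 12 = ⊤ := by
  rw [eq_top_iff]
  have h : (⊤ : Subgroup Fi24) = Subgroup.closure (Set.range PresentedGroup.of) :=
    (PresentedGroup.closure_range_of _).symm
  rw [h, Subgroup.closure_le]
  rintro _ ⟨x, rfl⟩
  refine Subgroup.subset_closure ?_
  cases x
  · exact ⟨0, by decide, rfl⟩
  · exact ⟨1, by decide, rfl⟩
  · exact ⟨2, by decide, rfl⟩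
  · exact ⟨3, by decide, rfl⟩
  · exact ⟨4, by decide, rfl⟩
  · exact ⟨5, by decide, rfl⟩
  · exact ⟨6, by decide, rfl⟩
  · exact ⟨7, by decide, rfl⟩
  · exact ⟨8, by decide, rfl⟩
  · exact ⟨9, by decide, rfl⟩
  · exact ⟨10, by decide, rfl⟩
  · exact ⟨11, by decide, rfl⟩

/-- index of a generator. -/
def idx : Fi24.Gen → Nat
  | .l => 0
  | .k => 1
  | .a => 2
  | .b => 3
  | .c => 4
  | .d => 5
  | .e => 6
  | .f => 7
  | .g => 8
  | .j => 9
  | .h => 10
  | .i => 11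

theorem sF_idx {P : Type*} [Group P] (t : Nat → P) : ∀ l < 12, sF (fun x => t (idx x)) l = t l := by
  intro l hl
  interval_cases l <;> rfl

/-- the permutation representation attached to a checked table. -/
def homOf {P : Type*} [Group P] (t : Nat → P) (hsq : ∀ l, t l * t l = 1)
    (hb : ∀ p ∈ Fi24t.relsP, ((p.1.map t).prod) ^ p.2 = 1) : Fi24 →* P :=
  PresentedGroup.toGroup (f := fun x => t (idx x)) (lift_of _ (fun x => hsq _) (by
    intro p hp
    have h1 := hb p hp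
    have h2 : p.1.map (sF (fun x => t (idx x))) = p.1.map t := by
      apply List.map_congr_left
      intro l hl
      have : ∀ p ∈ Fi24t.relsP, ∀ l ∈ p.1, l < 12 := by decide
      exact sF_idx t l (this p hp l hl)
    rw [h2]
    exact h1))

theorem homOf_s {P : Type*} [Group P] (t : Nat → P) (hsq : ∀ l, t l * t l = 1)
    (hb : ∀ p ∈ Fi24t.relsP, ((p.1.map t).prod) ^ p.2 = 1) : ∀ l < 12, homOf t hsq hb (s l) = t l := by
  intro l hl
  have key : ∀ x, homOf t hsq hb (PresentedGroup.of x) = t (idx x) := fun x => PresentedGroup.toGroup.of _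
  interval_cases l
  · exact key .l
  · exact key .k
  · exact key .a
  · exact key .b
  · exact key .c
  · exact key .d
  · exact key .e
  · exact key .f
  · exact key .g
  · exact key .j
  · exact key .h
  · exact key .i

end grp

theorem baseP : ∀ p ∈ Fi24t.relsP, ((p.1.map s).prod) ^ p.2 = 1 := by
  have ex : ∀ r ∈ Fi24.extra, (PresentedGroup.mk (coxRelators Fi24.edges ∪ {r | r ∈ Fi24.extra}) r) = 1 :=
    fun r hr => cox_extra Fi24.edges Fi24.extra r hr
  refine base_of _ (fun x y m hm => cox_rel Fi24.edges Fi24.extra x y m (by cases x <;> decide)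
    (by cases y <;> decide) hm) ?_ ?_
  · have h := ex (Fi24.l * (((Fi24.a * Fi24.b * Fi24.c * Fi24.d * Fi24.e * Fi24.f * Fi24.h) ^ 9)⁻¹)) (by simp [Fi24.extra])
    simp only [map_mul, map_pow, map_inv] at h
    have h2 := mul_inv_eq_one.1 h
    change (PresentedGroup.of Fi24.Gen.l : Fi24) = (PresentedGroup.of Fi24.Gen.a * PresentedGroup.of Fi24.Gen.b *
      PresentedGroup.of Fi24.Gen.c * PresentedGroup.of Fi24.Gen.d * PresentedGroup.of Fi24.Gen.e *
      PresentedGroup.of Fi24.Gen.f * PresentedGroup.of Fi24.Gen.h) ^ 9 at h2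
    rw [← h2]
    exact of_sq _
  · have h := ex ((Fi24.d * Fi24.c * Fi24.b * Fi24.a * Fi24.k * Fi24.l * Fi24.d * Fi24.e * Fi24.f * Fi24.g * Fi24.j * Fi24.d * Fi24.h * Fi24.i) ^ 17) (by simp [Fi24.extra])
    simp only [map_mul, map_pow, map_inv] at h
    exact h

theorem sub_ge (es : List Nat) (h : es.length = 10) (l : Nat) (hl : 10 ≤ l) : subS s es l = 1 := by
  unfold subS
  rw [List.getD_eq_default _ _ (by omega)]
  exact s_31

/-- the letters of `Y₅₂₂`. -/
def esY : List Nat := [0, 1, 2, 3, 4, 5, 6, 7, 10, 11]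

theorem relY : ∀ p ∈ Fi24at.rels2, ((p.1.map (subS s esY)).prod) ^ p.2 = 1 :=
  rels_sub s esY _ _ baseP (by decide)

theorem spider : ((([5, 4, 3, 5, 6, 7, 5, 10, 11] : List Nat).map s).prod) ^ 10 = 1 :=
  YP.spider (subS s esY) (fun _ => s_sq _) (sub_ge esY rfl) relY

theorem rels2_eq : Fi24t.rels2 = Fi24t.relsP ++ [([5, 4, 3, 5, 6, 7, 5, 10, 11], 10)] := by decide

theorem base : ∀ p ∈ Fi24t.rels2, ((p.1.map s).prod) ^ p.2 = 1 := by
  rw [rels2_eq]
  intro p hp
  rcases List.mem_append.1 hp with hp | hp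
  · exact baseP p hp
  · rw [List.mem_singleton] at hp
    subst hp
    exact spider

end Cfsg.Agent.H8.Fi24P
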