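import Cfsg.Agent.H15.StemRed

/-!
# Central extensions by a group of order 2
-/

set_option Elab.async false
set_option autoImplicit false
set_option linter.all false
set_option maxHeartbeats 1000000

namespace Cfsg.Agent.H8.PT

open Cfsg.Agent.H15.PExtN

variable {E G : Type*} [Group E] [Group G] {τ : E →* G} {z : E}

theorem zz (h : PExt 2 τ z) : z * z = 1 := by rw [← pow_two]; exact h.zp

theorem cen2 (h : PExt 2 τ z) (x : E) (hx : τ x = 1) : x = 1 ∨ x = z := by
  obtain ⟨n, rfl⟩ := h.eq_zpow hx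
  rcases Int.even_or_odd' n with ⟨m, rfl | rfl⟩
  · left; rw [zpow_mul, show z ^ (2 : ℤ) = 1 by rw [zpow_ofNat]; exact h.zp, one_zpow]
  · right; rw [zpow_add, zpow_mul, show z ^ (2 : ℤ) = 1 by rw [zpow_ofNat]; exact h.zp, one_zpow, one_mul, zpow_one]

theorem lift2 (h : PExt 2 τ z) {x y : E} (hxy : τ x = τ y) : x = y ∨ x = y * z := by
  rcases cen2 h (y⁻¹ * x) (by rw [map_mul, map_inv, hxy, inv_mul_cancel]) with h1 | h1
  · left; exact (inv_mul_eq_one.1 h1).symm
  · right; rw [← h1, mul_inv_cancel_left]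

theorem central_of (h : PExt 2 τ z) (x : E) (hx : τ x = 1) (y : E) : y * x = x * y := by
  rcases cen2 h x hx with rfl | rfl
  · rw [mul_one, one_mul]
  · exact h.cent y

theorem sq_central (h : PExt 2 τ z) (x : E) (hx : τ x = 1) : x * x = 1 := by
  rcases cen2 h x hx with rfl | rfl
  · rw [mul_one]
  · exact zz h

theorem sq_eq (h : PExt 2 τ z) {x y : E} (hxy : τ x = τ y) : x * x = y * y := by
  rcases lift2 h hxy with rfl | rfl
  · rfl
  · rw [mul_assoc, ← mul_assoc z, ← h.cent y, mul_assoc y z z, zz h, mul_one]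

theorem sq_conj (h : PExt 2 τ z) {x y : E} (g : G) (hxy : τ x = g * τ y * g⁻¹) (hy : τ y * τ y = 1) : x * x = y * y := by
  obtain ⟨k, hk⟩ := h.surj g
  rw [sq_eq h (x := x) (y := k * y * k⁻¹) (by rw [hxy, map_mul, map_mul, map_inv, hk])]
  have e : k * y * k⁻¹ * (k * y * k⁻¹) = k * (y * y) * k⁻¹ := by group
  rw [e, central_of h (y * y) (by rw [map_mul, hy]) k, mul_inv_cancel_right]

/-- lifts commute -/
def Cm (τ : E →* G) (x y : G) : Prop := ∀ X Y : E, τ X = x → τ Y = y → X * Y = Y * X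

theorem Cm.symm {x y : G} (hc : Cm τ x y) : Cm τ y x := fun X Y hX hY => (hc Y X hY hX).symm

theorem Cm.of (h : PExt 2 τ z) {x y : G} (X Y : E) (hX : τ X = x) (hY : τ Y = y) (hc : X * Y = Y * X) : Cm τ x y := by
  intro X' Y' hX' hY'
  have e := h.comm_congr (x := X') (y := Y') (x' := X) (y' := Y) (by rw [hX', hX]) (by rw [hY', hY])
  rw [hc, mul_inv_cancel_right, mul_inv_cancel] at e
  rw [mul_inv_eq_one, mul_inv_eq_iff_eq_mul] at e
  exact e

theorem Cm.mul (h : PExt 2 τ z) {x y y' : G} (h1 : Cm τ x y) (h2 : Cm τ x y') : Cm τ x (y * y') := by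
  obtain ⟨X, hX⟩ := h.surj x
  obtain ⟨Y, hY⟩ := h.surj y
  obtain ⟨Y', hY'⟩ := h.surj y'
  refine Cm.of h X (Y * Y') hX (by rw [map_mul, hY, hY']) ?_
  rw [← mul_assoc, h1 X Y hX hY, mul_assoc, h2 X Y' hX hY', mul_assoc]

theorem Cm.one (h : PExt 2 τ z) (x : G) : Cm τ x 1 := by
  intro X Y hX hY
  exact central_of h Y hY X

theorem Cm.sq (h : PExt 2 τ z) {x g : G} (hxg : x * g = g * x) : Cm τ x (g * g) := by
  obtain ⟨X, hX⟩ := h.surj x
  obtain ⟨K, hK⟩ := h.surj g
  refine Cm.of h X (K * K) hX (by rw [map_mul, hK]) ?_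
  rcases lift2 h (x := X * K) (y := K * X) (by rw [map_mul, map_mul, hX, hK, hxg]) with e | e
  · rw [← mul_assoc, e, mul_assoc, e, mul_assoc]
  · calc X * (K * K) = (X * K) * K := by rw [mul_assoc]
      _ = K * X * (z * K) := by rw [e]; simp only [mul_assoc]
      _ = K * (X * K) * z := by rw [← h.cent K]; simp only [mul_assoc]
      _ = K * K * X * (z * z) := by rw [e]; simp only [mul_assoc]
      _ = K * K * X := by rw [zz h, mul_one]

theorem Cm.pow (h : PExt 2 τ z) {x w : G} (k : ℕ) (hw : x = w ^ k) : Cm τ x w := by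
  obtain ⟨W, hW⟩ := h.surj w
  refine Cm.of h (W ^ k) W (by rw [map_pow, hW, hw]) hW ?_
  rw [← pow_succ, pow_succ']

/-- adjust a lift `X` of `x` so that an odd word becomes trivial -/
theorem adjust (h : PExt 2 τ z) (X : E) (W : E → E) (hW1 : τ (W X) = 1) (hW : W (X * z) = W X * z) :
    ∃ X', τ X' = τ X ∧ W X' = 1 ∧ (X' = X ∨ X' = X * z) := by
  rcases cen2 h (W X) hW1 with e | e
  · exact ⟨X, rfl, e, Or.inl rfl⟩
  · refine ⟨X * z, by rw [map_mul, h.tz, mul_one], ?_, Or.inr rfl⟩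
    rw [hW, e, zz h]

theorem commX (h : PExt 2 τ z) (x : E) : x * z = z * x := h.cent x

/-- square of a product of commuting involutions -/
theorem pr2 {X Y : E} (hX : X * X = 1) (hY : Y * Y = 1) (hc : X * Y = Y * X) : (X * Y) ^ 2 = 1 := by
  rw [pow_two, mul_assoc, ← mul_assoc Y X, ← hc, mul_assoc X Y Y, hY, mul_one, hX]

/-- `(XY)⁴ = 1` when `X` commutes with `YXY` -/
theorem pr4 {X Y : E} (hX : X * X = 1) (hY : Y * Y = 1) (hc : X * (Y * X * Y) = Y * X * Y * X) : (X * Y) ^ 4 = 1 := by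
  have e : (X * Y) ^ 2 = X * (Y * X * Y) := by rw [pow_two]; simp only [mul_assoc]
  have e2 : (Y * X * Y) * (Y * X * Y) = 1 := by
    calc (Y * X * Y) * (Y * X * Y) = Y * (X * (Y * Y) * X) * Y := by simp only [mul_assoc]
      _ = 1 := by rw [hY, mul_one, hX, mul_one, hY]
  rw [show 4 = 2 * 2 from rfl, pow_mul, e]
  exact pr2 hX e2 hc

end Cfsg.Agent.H8.PT
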