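import Cfsg.Agent.H8.HeCent
import Cfsg.Agent.H8.PExtTwo

/-!
# The 2-part of the Schur multiplier of He
-/

set_option Elab.async false
set_option autoImplicit false
set_option linter.all false
set_option maxRecDepth 100000
set_option maxHeartbeats 2000000

namespace Cfsg.Agent.H8.HeM

open Cfsg.Spor Cfsg.Agent.H8 Cfsg.Agent.H8.HeC Cfsg.Agent.H15.PExtN Cfsg.Agent.H8.PT

def bs : List ℕ := [69, 843, 14, 84, 345, 1716, 2]

noncomputable def W (w : List ℕ) : He := (w.map HeC.s).prod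

theorem We (u v : List ℕ) (hu : ∀ l ∈ u, l < 41) (hv : ∀ l ∈ v, l < 41) (h : ∀ i ∈ bs, trN T' u i = trN T' v i) : W u = W v :=
  HeC.weq u v hu hv h

theorem Wa (u v : List ℕ) : W (u ++ v) = W u * W v := by
  unfold W; rw [List.map_append, List.prod_append]

theorem W1 : W [] = 1 := rfl

theorem Wpow (w : List ℕ) (k : ℕ) : W w ^ k = W ((List.replicate k w).flatten) := by
  induction k with
  | zero => rw [pow_zero, List.replicate_zero, List.flatten_nil, W1]
  | succ k ih => rw [pow_succ', ih, List.replicate_succ, List.flatten_cons, Wa]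

theorem Ws (l : ℕ) (hl : l < 7) : W [l] = HeP.s l := by
  unfold W; rw [List.map_singleton, List.prod_singleton]; exact s_lt l hl

variable {E : Type*} [Group E] {τ : E →* He} {z : E}

theorem cm_word (h : PExt 2 τ z) (x y a b w : List ℕ) (k : ℕ) (e1 : W (a ++ x) = W (x ++ a)) (e2 : W (b ++ x) = W (x ++ b))
    (e3 : W y = W (a ++ (a ++ (b ++ (b ++ w))))) (e4 : w = [] ∨ W x = W w ^ k) : Cm τ (W x) (W y) := by
  rw [e3, Wa, Wa, Wa, Wa, ← mul_assoc (W a) (W a), ← mul_assoc (W b) (W b)]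
  refine Cm.mul h (Cm.sq h ?_) (Cm.mul h (Cm.sq h ?_) ?_)
  · rw [← Wa, ← Wa, e1]
  · rw [← Wa, ← Wa, e2]
  · rcases e4 with rfl | e4
    · exact Cm.one h _
    · exact Cm.pow h k e4

theorem sq_of_conj (h : PExt 2 τ z) (u v g : List ℕ) (hc : W (v ++ g) = W (g ++ u)) (hu : W u * W u = 1)
    (hs : ∀ X : E, τ X = W u → X * X = 1) : ∀ X : E, τ X = W v → X * X = 1 := by
  intro X hX
  obtain ⟨U, hU⟩ := h.surj (W u)
  have h1 : τ X = W g * τ U * (W g)⁻¹ := by
    rw [hX, hU, ← Wa, ← hc, Wa, mul_inv_cancel_right]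
  rw [sq_conj h (W g) h1 (by rw [hU, hu])]
  exact hs U hU

theorem sq_v4 (h : PExt 2 τ z) (u v g1 g2 : List ℕ) (hu : W u * W u = 1) (cm : Cm τ (W u) (W v))
    (h1 : W (v ++ g1) = W (g1 ++ u)) (h2 : W ((u ++ v) ++ g2) = W (g2 ++ u)) : ∀ X : E, τ X = W u → X * X = 1 := by
  intro X hX
  obtain ⟨V, hV⟩ := h.surj (W v)
  have e1 : V * V = X * X := sq_conj h (W g1) (by rw [hV, hX, ← Wa, ← h1, Wa, mul_inv_cancel_right]) (by rw [hX, hu])
  have e2 : (X * V) * (X * V) = X * X := sq_conj h (W g2) (by rw [map_mul, hV, hX, ← Wa, ← Wa g2 u, ← h2, Wa (u ++ v) g2, mul_inv_cancel_right])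
    (by rw [hX, hu])
  have e3 : (X * V) * (X * V) = (X * X) * (V * V) := by
    have hc := cm X V hX hV
    calc (X * V) * (X * V) = X * (V * X) * V := by simp only [mul_assoc]
      _ = _ := by rw [← hc]; simp only [mul_assoc]
  rw [e3, e1] at e2
  exact mul_eq_left.1 e2

theorem cm0 (h : PExt 2 τ z) : Cm τ (W [0]) (W [2]) :=
  cm_word h [0] [2] [33, 27, 17, 15, 17, 17, 15, 17, 11, 13, 11, 13, 7, 11, 2] [27, 23, 17, 15, 17, 15, 17, 17, 17, 11, 7, 13, 13, 13, 7, 14, 7] [] 0 (We _ _ (by decide +kernel) (by decide +kernel) (by decide +kernel)) (We _ _ (by decide +kernel) (by decide +kernel) (by decide +kernel))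
    (We _ _ (by decide) (by decide +kernel) (by decide +kernel)) (Or.inl rfl)

theorem cm1 (h : PExt 2 τ z) : Cm τ (W [0]) (W [3]) :=
  cm_word h [0] [3] [27, 17, 15, 17, 17, 17, 15, 17, 15, 18, 7, 11, 13, 7, 14, 2, 3] [33, 27, 11, 14, 5] [] 0 (We _ _ (by decide +kernel) (by decide +kernel) (by decide +kernel)) (We _ _ (by decide +kernel) (by decide +kernel) (by decide +kernel))
    (We _ _ (by decide) (by decide +kernel) (by decide +kernel)) (Or.inl rfl)

theorem cm2 (h : PExt 2 τ z) : Cm τ (W [0]) (W [4]) :=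
  cm_word h [0] [4] [33, 31, 27, 17, 17, 17, 15, 17, 17, 11, 13, 11, 14, 14, 11, 7, 11, 6, 3, 2] [27, 23, 17, 15, 18, 18, 15, 17, 17, 17, 14, 7, 13, 11, 7, 14, 11, 2, 3] [] 0 (We _ _ (by decide +kernel) (by decide +kernel) (by decide +kernel)) (We _ _ (by decide +kernel) (by decide +kernel) (by decide +kernel))
    (We _ _ (by decide) (by decide +kernel) (by decide +kernel)) (Or.inl rfl)

theorem cm3 (h : PExt 2 τ z) : Cm τ (W [0]) (W [5]) :=
  cm_word h [0] [5] [31, 23, 17, 17, 15, 18, 15, 18, 15, 14, 7, 14, 14, 11, 6, 3, 2, 4] [33, 31, 23, 17, 15, 17, 15, 7, 14, 14, 14, 11, 6, 3, 2, 4] [] 0 (We _ _ (by decide +kernel) (by decide +kernel) (by decide +kernel)) (We _ _ (by decide +kernel) (by decide +kernel) (by decide +kernel))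
    (We _ _ (by decide) (by decide +kernel) (by decide +kernel)) (Or.inl rfl)

theorem cm4 (h : PExt 2 τ z) : Cm τ (W [0]) (W [6]) :=
  cm_word h [0] [6] [33, 31, 27, 18, 15, 17, 17, 15, 18, 18, 7, 14, 14, 14, 11, 13, 2, 3] [31, 23, 17, 15, 18, 18, 15, 18, 11, 13, 13, 11, 7, 14, 14, 6, 3, 5] [] 0 (We _ _ (by decide +kernel) (by decide +kernel) (by decide +kernel)) (We _ _ (by decide +kernel) (by decide +kernel) (by decide +kernel))
    (We _ _ (by decide) (by decide +kernel) (by decide +kernel)) (Or.inl rfl)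

theorem cm5 (h : PExt 2 τ z) : Cm τ (W [1]) (W [3]) :=
  cm_word h [1] [3] [31, 27, 23, 17, 17, 15, 18, 15, 18, 13, 13, 13, 13, 7, 1, 2, 1, 3, 2, 1, 5, 6] [17, 17, 15, 18, 15, 17, 17, 11, 14, 14, 11, 7, 14, 14, 1, 2, 5, 3, 2, 1, 3, 2, 4, 6] [] 0 (We _ _ (by decide +kernel) (by decide +kernel) (by decide +kernel)) (We _ _ (by decide +kernel) (by decide +kernel) (by decide +kernel))
    (We _ _ (by decide) (by decide +kernel) (by decide +kernel)) (Or.inl rfl)

theorem cm6 (h : PExt 2 τ z) : Cm τ (W [1]) (W [4]) :=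
  cm_word h [1] [4] [31, 27, 17, 15, 18, 18, 15, 18, 18, 7, 11, 13, 11, 1, 0, 6, 3, 2, 1, 3, 5, 3, 2] [31, 23, 18, 15, 18, 15, 13, 13, 11, 13, 7, 11, 1, 0, 2, 1, 3, 2, 6, 3] [] 0 (We _ _ (by decide +kernel) (by decide +kernel) (by decide +kernel)) (We _ _ (by decide +kernel) (by decide +kernel) (by decide +kernel))
    (We _ _ (by decide) (by decide +kernel) (by decide +kernel)) (Or.inl rfl)

theorem cm7 (h : PExt 2 τ z) : Cm τ (W [1]) (W [5]) :=
  cm_word h [1] [5] [33, 31, 27, 17, 17, 17, 15, 18, 18, 7, 13, 13, 11, 13, 7, 14, 11, 1, 2, 3, 2, 6, 3, 2, 1, 0, 3] [31, 27, 17, 17, 15, 18, 13, 13, 13, 7, 11, 13, 13, 1, 0, 2, 1, 3, 2, 3, 4] [] 0 (We _ _ (by decide +kernel) (by decide +kernel) (by decide +kernel)) (We _ _ (by decide +kernel) (by decide +kernel) (by decide +kernel))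
    (We _ _ (by decide) (by decide +kernel) (by decide +kernel)) (Or.inl rfl)

theorem cm8 (h : PExt 2 τ z) : Cm τ (W [1]) (W [6]) :=
  cm_word h [1] [6] [33, 23, 18, 15, 17, 17, 15, 17, 15, 7, 14, 14, 7, 11, 7, 11, 14, 1, 0, 2, 1, 3, 2] [27, 17, 17, 15, 17, 17, 11, 14, 1, 5, 6] [] 0 (We _ _ (by decide +kernel) (by decide +kernel) (by decide +kernel)) (We _ _ (by decide +kernel) (by decide +kernel) (by decide +kernel))
    (We _ _ (by decide) (by decide +kernel) (by decide +kernel)) (Or.inl rfl)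

theorem cm9 (h : PExt 2 τ z) : Cm τ (W [2]) (W [4]) :=
  cm_word h [2] [4] [33, 27, 23, 18, 15, 11, 14, 14, 7, 11, 14, 14, 1, 2, 1, 0, 3, 2, 6] [31, 17, 17, 15, 18, 15, 18, 15, 7, 11, 13, 13, 1, 0, 2, 1, 3, 2, 4, 5] [] 0 (We _ _ (by decide +kernel) (by decide +kernel) (by decide +kernel)) (We _ _ (by decide +kernel) (by decide +kernel) (by decide +kernel))
    (We _ _ (by decide) (by decide +kernel) (by decide +kernel)) (Or.inl rfl)

theorem cm10 (h : PExt 2 τ z) : Cm τ (W [2]) (W [5]) :=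
  cm_word h [2] [5] [33, 18, 11, 13, 11, 14, 7, 14, 11, 1, 2, 3, 2, 1, 5, 6, 3, 5] [33, 27, 23, 17, 15, 11, 14, 14, 14, 7, 14, 7, 14, 1, 2, 6, 3, 4] [] 0 (We _ _ (by decide +kernel) (by decide +kernel) (by decide +kernel)) (We _ _ (by decide +kernel) (by decide +kernel) (by decide +kernel))
    (We _ _ (by decide) (by decide +kernel) (by decide +kernel)) (Or.inl rfl)

theorem cm11 (h : PExt 2 τ z) : Cm τ (W [2]) (W [6]) :=
  cm_word h [2] [6] [33, 18, 15, 17, 15, 18, 15, 7, 11, 13, 13, 11, 13, 7, 1, 2, 5, 3, 2, 1, 6, 3, 4, 5] [31, 17, 17, 17, 15, 18, 18, 7, 13, 13, 11, 14, 14, 1, 2, 5, 3, 2, 1, 3, 2, 5, 3, 6] [] 0 (We _ _ (by decide +kernel) (by decide +kernel) (by decide +kernel)) (We _ _ (by decide +kernel) (by decide +kernel) (by decide +kernel))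
    (We _ _ (by decide) (by decide +kernel) (by decide +kernel)) (Or.inl rfl)

theorem cm12 (h : PExt 2 τ z) : Cm τ (W [4]) (W [5]) :=
  cm_word h [4] [5] [33, 27, 18, 15, 17, 15, 17, 7, 11, 13, 11, 14, 7, 13, 11, 1, 4, 3, 2, 3, 5, 6, 3, 2, 1] [33, 27, 17, 17, 15, 17, 17, 11, 7, 14, 1, 4, 3, 2, 3, 2, 1, 5] [] 0 (We _ _ (by decide +kernel) (by decide +kernel) (by decide +kernel)) (We _ _ (by decide +kernel) (by decide +kernel) (by decide +kernel))
    (We _ _ (by decide) (by decide +kernel) (by decide +kernel)) (Or.inl rfl)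

theorem cm13 (h : PExt 2 τ z) : Cm τ (W [4]) (W [6]) :=
  cm_word h [4] [6] [33, 31, 27, 23, 17, 17, 17, 13, 13, 7, 14, 14, 7, 1, 0, 2, 3, 6, 5, 3, 2, 1, 4, 3] [33, 31, 27, 18, 15, 7, 14, 7, 13, 13, 1, 2, 3, 6, 5, 3, 2, 1, 4, 3, 5] [] 0 (We _ _ (by decide +kernel) (by decide +kernel) (by decide +kernel)) (We _ _ (by decide +kernel) (by decide +kernel) (by decide +kernel))
    (We _ _ (by decide) (by decide +kernel) (by decide +kernel)) (Or.inl rfl)

theorem cm14 (h : PExt 2 τ z) : Cm τ (W [5]) (W [6, 5, 6]) :=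
  cm_word h [5] [6, 5, 6] [31, 27, 17, 17, 17, 15, 17, 11, 13, 13, 13, 7, 1, 2, 1, 3, 2, 4, 6, 3] [31, 7, 14, 7, 13, 13, 11, 7, 1, 5, 3, 2, 3, 2, 6] [] 0 (We _ _ (by decide +kernel) (by decide +kernel) (by decide +kernel)) (We _ _ (by decide +kernel) (by decide +kernel) (by decide +kernel))
    (We _ _ (by decide) (by decide +kernel) (by decide +kernel)) (Or.inl rfl)

theorem cm15 (h : PExt 2 τ z) : Cm τ (W [0]) (W [1, 0, 1]) :=
  cm_word h [0] [1, 0, 1] [33, 31, 27, 23, 18, 15, 17, 17, 17, 15, 18, 11, 14, 14, 14, 7, 13, 7, 6, 3, 2, 4, 3] [33, 27, 17, 15, 17, 15, 17, 17, 17, 7, 14, 11, 14, 14, 14, 5] [27, 18, 15, 17, 17, 15, 17, 7, 13, 13, 11, 14, 14, 11, 6, 3, 2, 4, 3, 6] 14 (We _ _ (by decide +kernel) (by decide +kernel) (by decide +kernel)) (We _ _ (by decide +kernel) (by decide +kernel) (by decide +kernel))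
    (We _ _ (by decide) (by decide +kernel) (by decide +kernel)) (Or.inr (by rw [Wpow]; exact We _ _ (by decide) (by decide +kernel) (by decide +kernel)))

theorem sq0 (h : PExt 2 τ z) : ∀ X : E, τ X = W [0] → X * X = 1 :=
  sq_v4 h [0] [1, 0, 1] [1] [27, 23, 17, 17, 17, 14, 7, 11, 13, 7, 13, 1, 2, 3, 2, 4, 3, 6, 3, 2] (by rw [← Wa]; exact We _ [] (by decide) (by decide) (by decide +kernel)) (cm15 h) (We _ _ (by decide +kernel) (by decide +kernel) (by decide +kernel)) (We _ _ (by decide +kernel) (by decide +kernel) (by decide +kernel))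

theorem sq5 (h : PExt 2 τ z) : ∀ X : E, τ X = W [5] → X * X = 1 :=
  sq_v4 h [5] [6, 5, 6] [6] [33, 27, 18, 15, 17, 7, 11, 13, 11, 14, 11, 7, 14, 6, 3, 2, 1, 5] (by rw [← Wa]; exact We _ [] (by decide) (by decide) (by decide +kernel)) (cm14 h) (We _ _ (by decide +kernel) (by decide +kernel) (by decide +kernel))
    (We _ _ (by decide +kernel) (by decide +kernel) (by decide +kernel))

theorem sq1 (h : PExt 2 τ z) : ∀ X : E, τ X = W [1] → X * X = 1 :=
  sq_of_conj h [0] [1] [31, 27, 23, 17, 15, 17, 15, 11, 13, 11, 7, 11, 13, 13, 1, 0, 2, 3, 2, 6, 3, 4, 5] (We _ _ (by decide +kernel) (by decide +kernel) (by decide +kernel)) (by rw [← Wa]; exact We _ [] (by decide) (by decide) (by decide +kernel)) (sq0 h)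

theorem sq2 (h : PExt 2 τ z) : ∀ X : E, τ X = W [2] → X * X = 1 :=
  sq_of_conj h [0] [2] [33, 31, 27, 18, 15, 17, 15, 11, 13, 11, 13, 13, 13, 7, 1, 2, 3, 2, 1, 6, 3, 2, 5] (We _ _ (by decide +kernel) (by decide +kernel) (by decide +kernel)) (by rw [← Wa]; exact We _ [] (by decide) (by decide) (by decide +kernel)) (sq0 h)

theorem sq3 (h : PExt 2 τ z) : ∀ X : E, τ X = W [3] → X * X = 1 :=
  sq_of_conj h [5] [3] [31, 23, 17, 15, 18, 18, 15, 17, 17, 15, 18, 7, 13, 13, 7, 11, 14, 11, 1, 0, 6, 3, 2, 1, 3, 4, 5, 3, 2, 3, 2, 6] (We _ _ (by decide +kernel) (by decide +kernel) (by decide +kernel)) (by rw [← Wa]; exact We _ [] (by decide) (by decide) (by decide +kernel)) (sq5 h)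

theorem sq4 (h : PExt 2 τ z) : ∀ X : E, τ X = W [4] → X * X = 1 :=
  sq_of_conj h [5] [4] [33, 27, 18, 15, 17, 7, 11, 13, 11, 14, 11, 7, 14, 6, 3, 2, 1, 5] (We _ _ (by decide +kernel) (by decide +kernel) (by decide +kernel)) (by rw [← Wa]; exact We _ [] (by decide) (by decide) (by decide +kernel)) (sq5 h)

theorem sq6 (h : PExt 2 τ z) : ∀ X : E, τ X = W [6] → X * X = 1 :=
  sq_of_conj h [5] [6] [31, 11, 7, 1, 2, 3, 4, 5, 3, 4] (We _ _ (by decide +kernel) (by decide +kernel) (by decide +kernel)) (by rw [← Wa]; exact We _ [] (by decide) (by decide) (by decide +kernel)) (sq5 h)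

theorem sqm (h : PExt 2 τ z) : ∀ X : E, τ X = W [2, 3, 5, 6, 2, 3, 5, 6] → X * X = 1 :=
  sq_of_conj h [5] [2, 3, 5, 6, 2, 3, 5, 6] [31, 23, 18, 15, 17, 17, 14, 14, 11, 13, 11, 1, 0, 2, 3, 6, 5, 3] (We _ _ (by decide +kernel) (by decide +kernel) (by decide +kernel)) (by rw [← Wa]; exact We _ [] (by decide) (by decide) (by decide +kernel)) (sq5 h)

theorem w3 (h : PExt 2 τ z) (X Y : E) : (X * z * Y) ^ 3 = (X * Y) ^ 3 * z := by
  have e : X * z * Y = X * Y * z := by rw [mul_assoc, ← h.cent Y, mul_assoc]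
  have hc : Commute (X * Y) z := h.cent (X * Y)
  rw [e, hc.mul_pow]
  congr 1
  rw [pow_succ, pow_two, zz h, one_mul]

theorem w5 (h : PExt 2 τ z) (X Y : E) : (X * z * Y) ^ 5 = (X * Y) ^ 5 * z := by
  have e : X * z * Y = X * Y * z := by rw [mul_assoc, ← h.cent Y, mul_assoc]
  have hc : Commute (X * Y) z := h.cent (X * Y)
  rw [e, hc.mul_pow]
  congr 1
  rw [show 5 = 2 + 2 + 1 from rfl, pow_add, pow_add, pow_one, pow_two, zz h, one_mul, one_mul]

theorem lifts (h : PExt 2 τ z) : ∃ A B C D E' F G : E, τ A = W [0] ∧ τ B = W [1] ∧ τ C = W [2] ∧ τ D = W [3] ∧ τ E' = W [4] ∧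
    τ F = W [5] ∧ τ G = W [6] ∧ (B * C) ^ 3 = 1 ∧ (D * E') ^ 3 = 1 ∧ (D * F) ^ 3 = 1 ∧ (D * G) ^ 3 = 1 ∧
    E' = F * G * (F * G) ∧ E' * (A * B * C) ^ 3 = 1 ∧ A * (C * D) ^ 5 = 1 := by
  obtain ⟨F0, hF0⟩ := h.surj (W [5])
  obtain ⟨G0, hG0⟩ := h.surj (W [6])
  obtain ⟨D0, hD0⟩ := h.surj (W [3])
  obtain ⟨C0, hC0⟩ := h.surj (W [2])
  obtain ⟨B0, hB0⟩ := h.surj (W [1])
  obtain ⟨A0, hA0⟩ := h.surj (W [0])
  have hE : τ (F0 * G0 * (F0 * G0)) = W [4] := by
    rw [map_mul, map_mul, hF0, hG0, ← Wa, ← Wa]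
    exact We _ _ (by decide) (by decide) (by decide +kernel)
  obtain ⟨D, hD, hDE, _⟩ := adjust h D0 (fun X => (X * (F0 * G0 * (F0 * G0))) ^ 3) (by
    change τ ((D0 * (F0 * G0 * (F0 * G0))) ^ 3) = 1
    rw [map_pow, map_mul, hD0, hE, ← Wa, Wpow]
    exact We _ [] (by decide) (by decide) (by decide +kernel)) (w3 h _ _)
  rw [hD0] at hD
  obtain ⟨F, hF, hDF, _⟩ := adjust h F0 (fun X => (X * D) ^ 3) (by
    change τ ((F0 * D) ^ 3) = 1
    rw [map_pow, map_mul, hF0, hD, ← Wa, Wpow]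
    exact We _ [] (by decide) (by decide) (by decide +kernel)) (w3 h _ _)
  rw [hF0] at hF
  obtain ⟨G, hG, hDG, _⟩ := adjust h G0 (fun X => (X * D) ^ 3) (by
    change τ ((G0 * D) ^ 3) = 1
    rw [map_pow, map_mul, hG0, hD, ← Wa, Wpow]
    exact We _ [] (by decide) (by decide) (by decide +kernel)) (w3 h _ _)
  rw [hG0] at hG
  have hEE : F0 * G0 * (F0 * G0) = F * G * (F * G) := sq_eq h (by rw [map_mul, map_mul, hF, hG, hF0, hG0])
  rw [hEE] at hE
  have hDE' : (D * (F * G * (F * G))) ^ 3 = 1 := by rw [← hEE]; exact hDE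
  have rev : ∀ X Y : E, (X * Y) ^ 3 = 1 → (Y * X) ^ 3 = 1 := by
    intro X Y hxy
    have e : (Y * X) ^ 3 = X⁻¹ * (X * Y) ^ 3 * X := by
      rw [pow_succ, pow_two, pow_succ, pow_two]; group
    rw [e, hxy, mul_one, inv_mul_cancel]
  set E' := F * G * (F * G) with hE'
  clear_value E'
  obtain ⟨B, hB, hBC, _⟩ := adjust h B0 (fun X => (X * C0) ^ 3) (by
    change τ ((B0 * C0) ^ 3) = 1
    rw [map_pow, map_mul, hB0, hC0, ← Wa, Wpow]
    exact We _ [] (by decide) (by decide) (by decide +kernel)) (w3 h _ _)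
  rw [hB0] at hB
  obtain ⟨A, hA, hABC, _⟩ := adjust h A0 (fun X => E' * (X * (B * C0)) ^ 3) (by
    change τ (E' * (A0 * (B * C0)) ^ 3) = 1
    rw [map_mul, map_pow, map_mul, map_mul, hA0, hB, hC0, hE, ← Wa, ← Wa, Wpow, ← Wa]
    exact We _ [] (by decide) (by decide) (by decide +kernel)) (by
    change E' * (A0 * z * (B * C0)) ^ 3 = E' * (A0 * (B * C0)) ^ 3 * z
    rw [w3 h, mul_assoc])
  rw [hA0] at hA
  have h5 : τ (A * (C0 * D) ^ 5) = 1 := by
    rw [map_mul, map_pow, map_mul, hA, hC0, hD, ← Wa, Wpow, ← Wa]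
    exact We _ [] (by decide) (by decide) (by decide +kernel)
  rcases cen2 h _ h5 with e | e
  · refine ⟨A, B, C0, D, E', F, G, hA, hB, hC0, hD, hE, hF, hG, hBC, hDE', rev _ _ hDF, rev _ _ hDG, hE', ?_, e⟩
    rw [mul_assoc A]; exact hABC
  · refine ⟨A, B * z, C0 * z, D, E', F, G, hA, by rw [map_mul, h.tz, mul_one, hB], by rw [map_mul, h.tz, mul_one, hC0], hD, hE, hF, hG,
      ?_, hDE', rev _ _ hDF, rev _ _ hDG, hE', ?_, ?_⟩
    · have : B * z * (C0 * z) = B * C0 := by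
        rw [mul_assoc, ← mul_assoc z, ← h.cent C0, mul_assoc C0, zz h, mul_one]
      rw [this]; exact hBC
    · have : A * (B * z) * (C0 * z) = A * (B * C0) := by
        rw [mul_assoc, mul_assoc B, ← mul_assoc z, ← h.cent C0, mul_assoc C0, zz h, mul_one]
      rw [this]; exact hABC
    · rw [w5 h, ← mul_assoc, e, zz h]

theorem hom2 (h : PExt 2 τ z) : ∃ t : ℕ → E, (∀ l, t l * t l = 1) ∧ (∀ p ∈ Het.relsP, ((p.1.map t).prod) ^ p.2 = 1) ∧
    ∀ l < 7, τ (t l) = HeP.s l := by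
  obtain ⟨A, B, C, D, E', F, G, hA, hB, hC, hD, hE, hF, hG, r1, r2, r3, r4, r5, r6, r7⟩ := lifts h
  have qA := sq0 h A hA
  have qB := sq1 h B hB
  have qC := sq2 h C hC
  have qD := sq3 h D hD
  have qE := sq4 h E' hE
  have qF := sq5 h F hF
  have qG := sq6 h G hG
  have p01 : (A * B) ^ 4 = 1 := pr4 qA qB ((cm15 h) A (B * A * B) hA (by rw [map_mul, map_mul, hA, hB, ← Wa, ← Wa]; rfl))
  have p56 : (F * G) ^ 4 = 1 := pr4 qF qG ((cm14 h) F (G * F * G) hF (by rw [map_mul, map_mul, hF, hG, ← Wa, ← Wa]; rfl))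
  have p23 : (C * D) ^ 10 = 1 := by
    have e : (C * D) ^ 5 = A := by
      have : A * (A * (C * D) ^ 5) = A * 1 := by rw [r7]
      rw [← mul_assoc, qA, one_mul, mul_one] at this
      exact this
    rw [show 10 = 5 * 2 from rfl, pow_mul, e, pow_two, qA]
  have pm : (C * D * F * G) ^ 4 = 1 := by
    rw [show 4 = 2 * 2 from rfl, pow_mul, pow_two, pow_two]
    apply sqm h
    rw [map_mul, map_mul, map_mul, map_mul, hC, hD, hF, hG, ← Wa, ← Wa, ← Wa, ← Wa]
    rfl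
  have pe : E' * F * G * F * G = 1 := by
    have : E' * F * G * F * G = E' * (F * G * (F * G)) := by simp only [mul_assoc]
    rw [this, ← r5, qE]
  have p02 : (A * C) ^ 2 = 1 := pr2 qA qC ((cm0 h) A C hA hC)
  have p03 : (A * D) ^ 2 = 1 := pr2 qA qD ((cm1 h) A D hA hD)
  have p04 : (A * E') ^ 2 = 1 := pr2 qA qE ((cm2 h) A E' hA hE)
  have p05 : (A * F) ^ 2 = 1 := pr2 qA qF ((cm3 h) A F hA hF)
  have p06 : (A * G) ^ 2 = 1 := pr2 qA qG ((cm4 h) A G hA hG)
  have p13 : (B * D) ^ 2 = 1 := pr2 qB qD ((cm5 h) B D hB hD)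
  have p14 : (B * E') ^ 2 = 1 := pr2 qB qE ((cm6 h) B E' hB hE)
  have p15 : (B * F) ^ 2 = 1 := pr2 qB qF ((cm7 h) B F hB hF)
  have p16 : (B * G) ^ 2 = 1 := pr2 qB qG ((cm8 h) B G hB hG)
  have p24 : (C * E') ^ 2 = 1 := pr2 qC qE ((cm9 h) C E' hC hE)
  have p25 : (C * F) ^ 2 = 1 := pr2 qC qF ((cm10 h) C F hC hF)
  have p26 : (C * G) ^ 2 = 1 := pr2 qC qG ((cm11 h) C G hC hG)
  have p45 : (E' * F) ^ 2 = 1 := pr2 qE qF ((cm12 h) E' F hE hF)
  have p46 : (E' * G) ^ 2 = 1 := pr2 qE qG ((cm13 h) E' G hE hG)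
  refine ⟨fun l => match l with | 0 => A | 1 => B | 2 => C | 3 => D | 4 => E' | 5 => F | 6 => G | _ => 1, ?_, ?_, ?_⟩
  · intro l
    match l with
    | 0 => exact qA
    | 1 => exact qB
    | 2 => exact qC
    | 3 => exact qD
    | 4 => exact qE
    | 5 => exact qF
    | 6 => exact qG
    | (n + 7) => exact mul_one 1
  · intro p hp
    simp only [Het.relsP, List.mem_cons, List.not_mem_nil, or_false] at hp
    rcases hp with rfl | rfl | rfl | rfl | rfl | rfl | rfl | rfl | rfl | rfl | rfl | rfl | rfl | rfl | rfl | rfl | rfl | rfl | rfl | rfl | rfl | rfl | rfl | rfl | rfl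
    · change (A * (B * 1)) ^ 4 = 1
      rw [mul_one]; exact p01
    · change (A * (C * 1)) ^ 2 = 1
      rw [mul_one]; exact p02
    · change (A * (D * 1)) ^ 2 = 1
      rw [mul_one]; exact p03
    · change (A * (E' * 1)) ^ 2 = 1
      rw [mul_one]; exact p04
    · change (A * (F * 1)) ^ 2 = 1
      rw [mul_one]; exact p05
    · change (A * (G * 1)) ^ 2 = 1
      rw [mul_one]; exact p06
    · change (B * (C * 1)) ^ 3 = 1
      rw [mul_one]; exact r1
    · change (B * (D * 1)) ^ 2 = 1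
      rw [mul_one]; exact p13
    · change (B * (E' * 1)) ^ 2 = 1
      rw [mul_one]; exact p14
    · change (B * (F * 1)) ^ 2 = 1
      rw [mul_one]; exact p15
    · change (B * (G * 1)) ^ 2 = 1
      rw [mul_one]; exact p16
    · change (C * (D * 1)) ^ 10 = 1
      rw [mul_one]; exact p23
    · change (C * (E' * 1)) ^ 2 = 1
      rw [mul_one]; exact p24
    · change (C * (F * 1)) ^ 2 = 1
      rw [mul_one]; exact p25
    · change (C * (G * 1)) ^ 2 = 1
      rw [mul_one]; exact p26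
    · change (D * (E' * 1)) ^ 3 = 1
      rw [mul_one]; exact r2
    · change (D * (F * 1)) ^ 3 = 1
      rw [mul_one]; exact r3
    · change (D * (G * 1)) ^ 3 = 1
      rw [mul_one]; exact r4
    · change (E' * (F * 1)) ^ 2 = 1
      rw [mul_one]; exact p45
    · change (E' * (G * 1)) ^ 2 = 1
      rw [mul_one]; exact p46
    · change (F * (G * 1)) ^ 4 = 1
      rw [mul_one]; exact p56
    · change (E' * (F * (G * (F * (G * 1))))) ^ 1 = 1
      rw [pow_one, mul_one, ← pe]; simp only [mul_assoc]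
    · change (E' * (A * (B * (C * (A * (B * (C * (A * (B * (C * 1)))))))))) ^ 1 = 1
      rw [pow_one, mul_one, ← r6, pow_succ, pow_two]; simp only [mul_assoc]
    · change (A * (C * (D * (C * (D * (C * (D * (C * (D * (C * (D * 1))))))))))) ^ 1 = 1
      rw [pow_one, mul_one, ← r7, pow_succ, pow_succ, pow_succ, pow_two]; simp only [mul_assoc]
    · change (C * (D * (F * (G * 1)))) ^ 4 = 1
      rw [mul_one, ← pm]; simp only [mul_assoc]
  · intro l hl
    rw [← Ws l hl]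
    interval_cases l
    · exact hA
    · exact hB
    · exact hC
    · exact hD
    · exact hE
    · exact hF
    · exact hG

theorem two_part [Finite E] (h : PExt 2 τ z) : z ∉ commutator E := by
  intro hz
  obtain ⟨t, hsq, hb, ht⟩ := hom2 h
  set φ := HeP.homOf t hsq hb with hφ
  have hs : ∀ l < 7, φ (HeP.s l) = t l := HeP.homOf_s t hsq hb
  have hid : ∀ x : He, τ (φ x) = x := by
    have hle : letterGroup HeP.s 7 ≤ (τ.comp φ).eqLocus (MonoidHom.id He) := by
      unfold letterGroup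
      rw [Subgroup.closure_le]
      rintro g ⟨l, hl, rfl⟩
      change τ (φ (HeP.s l)) = HeP.s l
      rw [hs l hl, ht l hl]
    intro x
    have hx : x ∈ letterGroup HeP.s 7 := by rw [HeP.s_top]; exact Subgroup.mem_top x
    exact hle hx
  have hle : commutator E ≤ φ.range := by
    rw [_root_.commutator_def, Subgroup.commutator_le]
    intro a _ b _
    have e := h.comm_congr (x := a) (y := b) (x' := φ (τ a)) (y' := φ (τ b)) (hid _).symm (hid _).symm
    rw [commutatorElement_def, e]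
    exact ⟨τ a * τ b * (τ a)⁻¹ * (τ b)⁻¹, by rw [map_mul, map_mul, map_mul, map_inv, map_inv]⟩
  obtain ⟨x, hx⟩ := hle hz
  have h1 : x = 1 := by rw [← hid x, hx, h.tz]
  rw [h1, map_one] at hx
  exact h.ne_one Nat.prime_two hx.symm

end Cfsg.Agent.H8.HeM
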