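import Cfsg.Agent.H8.AccSift

/-!
# The order of a two-generator group with central commutator
-/

set_option autoImplicit false
set_option linter.all false

namespace Cfsg.Agent.H8.HK

variable {G : Type*} [Group G] [Finite G]

theorem card_heis (p r : ℕ) (hp : 0 < p) (hr : 0 < r) (x y c : G) (hx : x ^ p = 1) (hy : y ^ p = 1) (hc : c ^ r = 1)
    (hxy : x * y = c * (y * x)) (hxc : x * c = c * x) (hyc : y * c = c * y)
    (hinj : Function.Injective (fun m : Fin p × Fin p × Fin r => x ^ (m.1 : ℕ) * y ^ (m.2.1 : ℕ) * c ^ (m.2.2 : ℕ))) :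
    Nat.card (Subgroup.closure ({x, y} : Set G)) = p * (p * r) := by
  have xcz : ∀ k : ℤ, x * c ^ k = c ^ k * x := fun k => (show Commute x c from hxc).zpow_right k
  have ycz : ∀ j k : ℤ, y ^ j * c ^ k = c ^ k * y ^ j := fun j k => ((show Commute y c from hyc).zpow_left j).zpow_right k
  have hyx : ∀ j : ℤ, y ^ j * x = x * (y ^ j * c ^ (-j)) := by
    intro j
    have e1 : x⁻¹ * y * x⁻¹⁻¹ = y * c⁻¹ := by
      have : y * x = c⁻¹ * (x * y) := by rw [hxy, inv_mul_cancel_left]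
      have hcx : x⁻¹ * c⁻¹ = c⁻¹ * x⁻¹ := by
        rw [← mul_inv_rev, ← mul_inv_rev, hxc]
      have hcy : c⁻¹ * y = y * c⁻¹ := by
        have h3 : Commute y c := hyc
        exact (h3.inv_right).symm.eq
      rw [inv_inv, mul_assoc, this, ← mul_assoc, hcx, mul_assoc, inv_mul_cancel_left, hcy]
    have e2 : (x⁻¹ * y * x⁻¹⁻¹) ^ j = x⁻¹ * y ^ j * x⁻¹⁻¹ := conj_zpow
    have hcy : Commute y c⁻¹ := (show Commute y c from hyc).inv_right
    rw [e1, hcy.mul_zpow, inv_inv] at e2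
    have e3 : y ^ j * x = x * (x⁻¹ * y ^ j * x) := by group
    rw [e3, ← e2, inv_zpow']
  have hx' : x ∈ Subgroup.closure ({x, y} : Set G) := Subgroup.subset_closure (by simp)
  have hy' : y ∈ Subgroup.closure ({x, y} : Set G) := Subgroup.subset_closure (by simp)
  have hc' : c ∈ Subgroup.closure ({x, y} : Set G) := by
    have : c = x * y * x⁻¹ * y⁻¹ := by rw [hxy]; group
    rw [this]
    exact Subgroup.mul_mem _ (Subgroup.mul_mem _ (Subgroup.mul_mem _ hx' hy') (Subgroup.inv_mem _ hx')) (Subgroup.inv_mem _ hy')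
  have hA : ∀ g ∈ Subgroup.closure ({x, y} : Set G), ∃ i j k : ℤ, g = x ^ i * y ^ j * c ^ k := by
    have hcl := mem_closed {g : G | ∃ i j k : ℤ, g = x ^ i * y ^ j * c ^ k} ({x, y} : Set G) (by
      rintro t ht m ⟨i, j, k, rfl⟩
      rcases ht with rfl | rfl
      · refine ⟨i + 1, j, -j + k, ?_⟩
        calc t ^ i * y ^ j * c ^ k * t = t ^ i * y ^ j * (t * c ^ k) := by rw [xcz k]; simp only [mul_assoc]
          _ = t ^ i * (y ^ j * t) * c ^ k := by simp only [mul_assoc]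
          _ = _ := by rw [hyx, zpow_add, zpow_one, zpow_add]; simp only [mul_assoc]
      · refine ⟨i, j + 1, k, ?_⟩
        have h1 := ycz 1 k
        rw [zpow_one] at h1
        calc x ^ i * t ^ j * c ^ k * t = x ^ i * t ^ j * (c ^ k * t) := by simp only [mul_assoc]
          _ = _ := by rw [← h1, zpow_add, zpow_one]; simp only [mul_assoc])
    intro g hg
    have := hcl g hg 1 ⟨0, 0, 0, by simp⟩
    rwa [one_mul] at this
  have hmod : ∀ (g : G) (n : ℕ), 0 < n → g ^ n = 1 → ∀ i : ℤ, ∃ m : Fin n, g ^ i = g ^ (m : ℕ) := by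
    intro g n hn hg i
    have h1 : 0 ≤ i % (n : ℤ) := Int.emod_nonneg _ (by omega)
    have h2 : i % (n : ℤ) < n := Int.emod_lt_of_pos _ (by omega)
    refine ⟨⟨(i % (n : ℤ)).toNat, by omega⟩, ?_⟩
    have h3 : g ^ i = g ^ (i % (n : ℤ)) := by
      conv_lhs => rw [← Int.mul_ediv_add_emod i n]
      rw [zpow_add, zpow_mul, zpow_natCast, hg, one_zpow, one_mul]
    rw [h3, ← zpow_natCast]
    congr 1
    change i % (n : ℤ) = ((i % (n : ℤ)).toNat : ℤ)
    omega
  have hset : ((Subgroup.closure ({x, y} : Set G) : Subgroup G) : Set G) =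
      Set.range (fun m : Fin p × Fin p × Fin r => x ^ (m.1 : ℕ) * y ^ (m.2.1 : ℕ) * c ^ (m.2.2 : ℕ)) := by
    ext g
    constructor
    · intro hg
      obtain ⟨i, j, k, rfl⟩ := hA g hg
      obtain ⟨i', hi⟩ := hmod x p hp hx i
      obtain ⟨j', hj⟩ := hmod y p hp hy j
      obtain ⟨k', hk⟩ := hmod c r hr hc k
      exact ⟨(i', j', k'), by rw [hi, hj, hk]⟩
    · rintro ⟨m, rfl⟩
      exact Subgroup.mul_mem _ (Subgroup.mul_mem _ (Subgroup.pow_mem _ hx' _) (Subgroup.pow_mem _ hy' _)) (Subgroup.pow_mem _ hc' _)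
  have h1 : Nat.card (Subgroup.closure ({x, y} : Set G)) =
      Nat.card (Set.range (fun m : Fin p × Fin p × Fin r => x ^ (m.1 : ℕ) * y ^ (m.2.1 : ℕ) * c ^ (m.2.2 : ℕ))) := by
    change Nat.card ((Subgroup.closure ({x, y} : Set G) : Subgroup G) : Set G) = _
    rw [hset]
  rw [h1, Nat.card_range_of_injective hinj, Nat.card_prod, Nat.card_prod, Nat.card_eq_fintype_card, Nat.card_eq_fintype_card,
    Fintype.card_fin, Fintype.card_fin]

end Cfsg.Agent.H8.HK
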