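import Cfsg.Agent.H8.T.J2Cz
import Cfsg.Agent.H8.T.J2Cb
import Cfsg.Agent.H8.J2Hom

/-!
# Centraliser of an involution of J2P.J
-/

set_option Elab.async false
set_option autoImplicit false
set_option linter.all false
set_option maxRecDepth 100000
set_option maxHeartbeats 2000000

namespace Cfsg.Agent.H8.J2C

open Cfsg.Spor
open Cfsg.Agent.H8

noncomputable def s : Nat → J2P.J := OT.extI Cfsg.Agent.H8.J2P.s 5 bws

theorem s_lt (l : Nat) (h : l < 5) : s l = Cfsg.Agent.H8.J2P.s l := OT.extI_lt _ _ _ l h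

noncomputable def ρ : J2P.J →* Equiv.Perm (Fin 280) := Cfsg.Agent.H8.J2P.ρ

theorem hρ : ∀ l < 21, ρ (s l) = permL tok l :=
  OT.extI_rho tok ρ bws Cfsg.Agent.H8.J2P.s 5 (by
    intro l hl
    have h0 : ρ (Cfsg.Agent.H8.J2P.s l) = permL Cfsg.Agent.H8.J2t.tok l := Cfsg.Agent.H8.J2P.hρ l hl
    rw [h0]
    ext j
    rw [permL_apply Cfsg.Agent.H8.J2t.tok l hl, permL_apply tok l (lt_trans hl (by decide)), hii l hl,
      hTT _ (Cfsg.Agent.H8.J2t.tok.inv_lt l hl)]) (by decide) hwb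

theorem inj : Function.Injective ρ := Cfsg.Agent.H8.J2P.ρ_injective

theorem cardG : Nat.card J2P.J = 604800 := Cfsg.Agent.H8.J2P.card_J

instance finG : Finite J2P.J := Nat.finite_of_card_ne_zero (by rw [cardG]; decide)

noncomputable def z : J2P.J := (([15] : List Nat).map s).prod

theorem Zchain : wordGroup s ZG0 = ⊤ ∧ (∀ g ∈ wordGroup s ZG0, ZQ0 (act ρ ⟨116, by decide⟩ g : Fin 280) ≠ 0) ∧ (∀ g ∈ wordGroup s ZG0, act ρ ⟨116, by decide⟩ g = ⟨116, by decide⟩ → g ∈ wordGroup s ZG1) ∧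
    (∀ g ∈ wordGroup s ZG1, ZQ1 (act ρ ⟨262, by decide⟩ g : Fin 280) ≠ 0) ∧ (∀ g ∈ wordGroup s ZG1, act ρ ⟨262, by decide⟩ g = ⟨262, by decide⟩ → g ∈ wordGroup s ZG2) ∧
    (∀ g ∈ wordGroup s ZG2, ZQ2 (act ρ ⟨0, by decide⟩ g : Fin 280) ≠ 0) ∧ (∀ g ∈ wordGroup s ZG2, act ρ ⟨0, by decide⟩ g = ⟨0, by decide⟩ → g ∈ wordGroup s ZG3) ∧
    (∀ g ∈ wordGroup s ZG3, ZQ3 (act ρ ⟨4, by decide⟩ g : Fin 280) ≠ 0) ∧ (∀ g ∈ wordGroup s ZG3, act ρ ⟨4, by decide⟩ g = ⟨4, by decide⟩ → g ∈ wordGroup s ([] : List (List Nat))) ∧ Nat.card (wordGroup s ZG3) = 2 := by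
  have k0 := card_step s tok ρ hρ ZQ0 280 ZG0 ZG1 (by decide) ⟨116, by decide⟩ Zr0 Zc0
    (by decide) (by decide +kernel) inferInstance
  have k1 := card_step s tok ρ hρ ZQ1 108 ZG1 ZG2 (by decide) ⟨262, by decide⟩ Zr1 Zc1
    (by decide) (by decide +kernel) inferInstance
  have k2 := card_step s tok ρ hρ ZQ2 10 ZG2 ZG3 (by decide) ⟨0, by decide⟩ Zr2 Zc2
    (by decide) (by decide +kernel) inferInstance
  have k3 := card_step s tok ρ hρ ZQ3 2 ZG3 ([] : List (List Nat)) (by decide) ⟨4, by decide⟩ Zr3 Zc3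
    (by decide) (by decide +kernel) inferInstance
  have k : Nat.card (wordGroup s ZG0) ≤ 604800 := by rw [← cardG]; exact Subgroup.card_le_card_group _
  have kl : 0 < Nat.card (wordGroup s ([] : List (List Nat))) := Nat.card_pos
  have e0 : Nat.card (wordGroup s ZG0) = 604800 := by omega
  have e1 : Nat.card (wordGroup s ZG1) = 2160 := by omega
  have e2 : Nat.card (wordGroup s ZG2) = 20 := by omega
  have e3 : Nat.card (wordGroup s ZG3) = 2 := by omega
  have e4 : Nat.card (wordGroup s ([] : List (List Nat))) = 1 := by omega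
  have x0 := exact_step s tok ρ ZQ0 280 ZG0 ZG1 (by decide) ⟨116, by decide⟩ Zr0 Zc0
    (by decide) (by decide +kernel) inferInstance hρ (by rw [e0, e1])
  have x1 := exact_step s tok ρ ZQ1 108 ZG1 ZG2 (by decide) ⟨262, by decide⟩ Zr1 Zc1
    (by decide) (by decide +kernel) inferInstance hρ (by rw [e1, e2])
  have x2 := exact_step s tok ρ ZQ2 10 ZG2 ZG3 (by decide) ⟨0, by decide⟩ Zr2 Zc2
    (by decide) (by decide +kernel) inferInstance hρ (by rw [e2, e3])
  have x3 := exact_step s tok ρ ZQ3 2 ZG3 ([] : List (List Nat)) (by decide) ⟨4, by decide⟩ Zr3 Zc3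
    (by decide) (by decide +kernel) inferInstance hρ (by rw [e3, e4])
  exact ⟨Subgroup.eq_top_of_card_eq _ (by rw [e0, cardG]), x0.1, x0.2, x1.1, x1.2, x2.1, x2.2, x3.1, x3.2, e3⟩

theorem Zbot : wordGroup s ([] : List (List Nat)) = ⊥ := by
  unfold wordGroup
  rw [eq_bot_iff, Subgroup.closure_le]
  rintro g ⟨w, hw, _⟩
  simp at hw

/-- an element fixing the base is trivial. -/
theorem Zbase (g : J2P.J) (h0 : act ρ ⟨116, by decide⟩ g = (⟨116, by decide⟩ : Fin 280)) (h1 : act ρ ⟨262, by decide⟩ g = (⟨262, by decide⟩ : Fin 280)) (h2 : act ρ ⟨0, by decide⟩ g = (⟨0, by decide⟩ : Fin 280)) (h3 : act ρ ⟨4, by decide⟩ g = (⟨4, by decide⟩ : Fin 280)) : g = 1 := by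
  have g0 : g ∈ wordGroup s ZG0 := by rw [Zchain.1]; exact Subgroup.mem_top g
  have g1 := Zchain.2.2.1 g g0 h0
  have g2 := Zchain.2.2.2.2.1 g g1 h1
  have g3 := Zchain.2.2.2.2.2.2.1 g g2 h2
  have g4 := Zchain.2.2.2.2.2.2.2.2.1 g g3 h3
  rw [Zbot] at g4
  exact Subgroup.mem_bot.1 g4


theorem weq (u v : List Nat) (hu : ∀ l ∈ u, l < 21) (hv : ∀ l ∈ v, l < 21)
    (h : ∀ i ∈ ([116, 262, 0, 4] : List Nat), trN T' u i = trN T' v i) : (u.map s).prod = (v.map s).prod := by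
  have key : ∀ b : Fin 280, (b : Nat) ∈ ([116, 262, 0, 4] : List Nat) → act ρ b ((u.map s).prod * ((v.map s).prod)⁻¹) = b := by
    intro b hb
    have h1 : act ρ b (u.map s).prod = act ρ b (v.map s).prod := by
      apply Fin.ext
      rw [act_word s tok ρ hρ b u hu, act_word s tok ρ hρ b v hv]
      exact h b hb
    rw [act_mul, h1, ← act_mul, mul_inv_cancel, act_one]
  exact mul_inv_eq_one.1 (Zbase _ (key ⟨116, by decide⟩ (by decide)) (key ⟨262, by decide⟩ (by decide)) (key ⟨0, by decide⟩ (by decide)) (key ⟨4, by decide⟩ (by decide)))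

/-- the order of the centraliser is at most 1920. -/
theorem cent_le : Nat.card (Subgroup.centralizer ({z} : Set J2P.J)) ≤ 1920 := by
  have c0 := cent_step s tok ρ hρ [15] (by decide) (wordGroup s ZG0) (wordGroup s ZG1) ⟨116, by decide⟩ ZQ0 40
    Zchain.2.1 Zchain.2.2.1 (by decide +kernel) Zf0
  have c1 := cent_step s tok ρ hρ [15] (by decide) (wordGroup s ZG1) (wordGroup s ZG2) ⟨262, by decide⟩ ZQ1 12
    Zchain.2.2.2.1 Zchain.2.2.2.2.1 (by decide +kernel) Zf1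
  have c2 := cent_step s tok ρ hρ [15] (by decide) (wordGroup s ZG2) (wordGroup s ZG3) ⟨0, by decide⟩ ZQ2 2
    Zchain.2.2.2.2.2.1 Zchain.2.2.2.2.2.2.1 (by decide +kernel) Zf2
  have cl : Nat.card ↥(Subgroup.centralizer ({(([15] : List Nat).map s).prod} : Set J2P.J) ⊓ wordGroup s ZG3) ≤ 2 := by
    rw [← Zchain.2.2.2.2.2.2.2.2.2]
    exact Nat.card_le_card_of_injective _ (Subgroup.inclusion_injective inf_le_right)
  rw [Zchain.1, inf_top_eq] at c0
  unfold z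
  omega

end Cfsg.Agent.H8.J2C
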