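import Cfsg.Agent.H8.J2Inv

/-!
# Reflection centralisers in `J₂`
-/

set_option Elab.async false
set_option autoImplicit false
set_option linter.all false
set_option maxRecDepth 100000
set_option maxHeartbeats 1000000

namespace Cfsg.Agent.H8.J2F

open Cfsg Cfsg.Spor Cfsg.Agent.H8 Cfsg.Agent.H8.Ico

theorem iso_eq (x : J2P.J) (g : ↥twoJ2) (h : ψ x = Θ g) : iso x = QuotientGroup.mk g := by
  have h1 : (QuotientGroup.quotientKerEquivRange Θ).symm ((MulEquiv.subgroupCongr range_eq) ((MonoidHom.ofInjective ψ_inj) x)) =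
      QuotientGroup.mk g := by
    rw [MulEquiv.symm_apply_eq]; apply Subtype.ext; exact h
  change (QuotientGroup.quotientMulEquivOfEq ker_Θ) ((QuotientGroup.quotientKerEquivRange Θ).symm
    ((MulEquiv.subgroupCongr range_eq) ((MonoidHom.ofInjective ψ_inj) x))) = _
  rw [h1]; rfl

theorem z0 : J2C.z = J2P.s 0 := by
  have h := J2I.We J2I.Z [0] (by decide) (by decide) (by decide +kernel)
  have h2 : J2I.W [0] = J2P.s 0 := by
    unfold J2I.W
    rw [List.map_singleton, List.prod_singleton]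
    exact J2C.s_lt 0 (by decide)
  rw [J2I.zW, h, h2]

theorem iso_z : iso J2C.z = QuotientGroup.mk (AA 0) := by
  apply iso_eq
  rw [z0, ψ_s, Θ_AA 0 (by decide)]

theorem result (f : Equiv.Perm ↥icoLeech) (hf : IsIcoReflection f) (hfm : f ∈ twoJ2) :
    ∃ (Q : Subgroup ↥(Subgroup.centralizer ({(QuotientGroup.mk ⟨f, hfm⟩ : J2)} : Set J2))) (_ : Q.Normal), Nat.card Q = 32 ∧
      IsExtraspecial 2 Q ∧
      Nonempty (↥(Subgroup.centralizer ({(QuotientGroup.mk ⟨f, hfm⟩ : J2)} : Set J2)) ⧸ Q ≃* alternatingGroup (Fin 5)) := by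
  have hA : IsIcoReflection (A 0) := by
    have : A 0 = S (rep (gi 0)) := by unfold A gl; rfl
    rw [this]
    exact isRefl_S (root_rep _ (by decide))
  obtain ⟨g, hg, hgf⟩ := transitive_refl (A 0) f hA hf
  set γ : J2 := QuotientGroup.mk (⟨g, hg⟩ : ↥twoJ2) with hγ
  have hx : (QuotientGroup.mk ⟨f, hfm⟩ : J2) = γ * iso J2C.z * γ⁻¹ := by
    rw [iso_z, hγ]
    have : (⟨f, hfm⟩ : ↥twoJ2) = ⟨g, hg⟩ * AA 0 * (⟨g, hg⟩ : ↥twoJ2)⁻¹ := Subtype.ext hgf.symm
    rw [this]; rfl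
  let e : J2 ≃* J2P.J := (MulAut.conj γ⁻¹).trans iso.symm
  have he : e.symm J2C.z = (QuotientGroup.mk ⟨f, hfm⟩ : J2) := by
    rw [hx, MulEquiv.symm_apply_eq]
    change J2C.z = iso.symm (γ⁻¹ * (γ * iso J2C.z * γ⁻¹) * γ⁻¹⁻¹)
    have : γ⁻¹ * (γ * iso J2C.z * γ⁻¹) * γ⁻¹⁻¹ = iso J2C.z := by group
    rw [this, MulEquiv.symm_apply_apply]
  have h := J2I.fin e
  rw [he] at h
  exact h

end Cfsg.Agent.H8.J2F
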