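import Cfsg.Agent.H8.J2Cent
import Cfsg.Agent.H8.ExtraCritB
import Cfsg.Agent.H8.Ico10

/-!
# The centraliser of a 2A involution of `J₂`
-/

set_option Elab.async false
set_option autoImplicit false
set_option linter.all false
set_option maxRecDepth 100000
set_option maxHeartbeats 1000000

namespace Cfsg.Agent.H8.J2I

open Cfsg.Agent.H8

/-! ### `A₅` -/

def tb : List (List ℕ) := [[3, 1, 4, 0, 2], [3, 1, 4, 0, 2], [3, 2, 4, 1, 0], [4, 3, 1, 0, 2]]
def T5 (l i : ℕ) : ℕ := (tb.getD l []).getD i 0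
def inv5 (l : ℕ) : ℕ := ([1, 0, 3, 2] : List ℕ).getD l 0

theorem tok5 : TableOK 5 4 T5 inv5 where
  lt := by decide
  inv_lt := by decide
  inv_inv := by decide
  inv_apply := by decide

noncomputable def s5 (l : ℕ) : Equiv.Perm (Fin 5) := permL tok5 l

def Q0 (i : ℕ) : ℕ := ([16, 50, 48, 32, 33] : List ℕ).getD i 0
def Q1 (i : ℕ) : ℕ := ([0, 16, 49, 48, 32] : List ℕ).getD i 0
def Q2 (i : ℕ) : ℕ := ([0, 0, 16, 32, 48] : List ℕ).getD i 0
def G0 : List (List ℕ) := [[0], [2], [0, 3], [3, 0, 2, 2]]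
def G1 : List (List ℕ) := [[0, 3], [3, 0, 2, 2]]
def G2 : List (List ℕ) := [[3, 0, 2, 2]]

theorem card60 : 60 ≤ Nat.card (wordGroup s5 G0) := by
  have k0 := card_step s5 tok5 (MonoidHom.id _) (fun l _ => rfl) Q0 5 G0 G1 (by decide) ⟨0, by decide⟩ (by decide +kernel) (by decide +kernel)
    (by decide) (by decide +kernel) inferInstance
  have k1 := card_step s5 tok5 (MonoidHom.id _) (fun l _ => rfl) Q1 4 G1 G2 (by decide) ⟨1, by decide⟩ (by decide +kernel) (by decide +kernel)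
    (by decide) (by decide +kernel) inferInstance
  have k2 := card_step s5 tok5 (MonoidHom.id _) (fun l _ => rfl) Q2 3 G2 ([] : List (List ℕ)) (by decide) ⟨2, by decide⟩ (by decide +kernel) (by decide +kernel)
    (by decide) (by decide +kernel) inferInstance
  have kl : 1 ≤ Nat.card (wordGroup s5 ([] : List (List ℕ))) := Nat.card_pos
  omega

theorem s5_inv (l : ℕ) (hl : l < 4) : s5 (inv5 l) = (s5 l)⁻¹ := by
  apply eq_inv_of_mul_eq_one_left
  ext1 i
  apply Fin.ext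
  rw [Equiv.Perm.mul_apply]
  unfold s5
  rw [permL_apply tok5 _ (tok5.inv_lt l hl), permL_apply tok5 _ hl]
  exact tok5.inv_apply _ (tok5.inv_lt l hl) i i.2

theorem le_closure : wordGroup s5 G0 ≤ Subgroup.closure ({s5 1, s5 3} : Set (Equiv.Perm (Fin 5))) := by
  have h1 : s5 1 ∈ Subgroup.closure ({s5 1, s5 3} : Set (Equiv.Perm (Fin 5))) := Subgroup.subset_closure (Or.inl rfl)
  have h2 : s5 3 ∈ Subgroup.closure ({s5 1, s5 3} : Set (Equiv.Perm (Fin 5))) := Subgroup.subset_closure (Or.inr rfl)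
  have h3 : s5 0 ∈ Subgroup.closure ({s5 1, s5 3} : Set (Equiv.Perm (Fin 5))) := by
    rw [show s5 0 = (s5 1)⁻¹ from s5_inv 1 (by decide)]; exact Subgroup.inv_mem _ h1
  have h4 : s5 2 ∈ Subgroup.closure ({s5 1, s5 3} : Set (Equiv.Perm (Fin 5))) := by
    rw [show s5 2 = (s5 3)⁻¹ from s5_inv 3 (by decide)]; exact Subgroup.inv_mem _ h2
  have hl : ∀ l < 4, s5 l ∈ Subgroup.closure ({s5 1, s5 3} : Set (Equiv.Perm (Fin 5))) := by
    intro l hl
    interval_cases l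
    · exact h3
    · exact h1
    · exact h4
    · exact h2
  unfold wordGroup
  rw [Subgroup.closure_le]
  rintro g ⟨w, hw, rfl⟩
  apply Subgroup.list_prod_mem
  intro x hx
  obtain ⟨l, hl', rfl⟩ := List.mem_map.1 hx
  exact hl l ((show ∀ w ∈ G0, ∀ l ∈ w, l < 4 by decide) w hw l hl')

def e0 : Equiv.Perm (Fin 5) := ⟨fun i => ⟨T5 0 i, tok5.lt 0 (by decide) i i.2⟩, fun i => ⟨T5 1 i, tok5.lt 1 (by decide) i i.2⟩, by decide, by decide⟩
def e2 : Equiv.Perm (Fin 5) := ⟨fun i => ⟨T5 2 i, tok5.lt 2 (by decide) i i.2⟩, fun i => ⟨T5 3 i, tok5.lt 3 (by decide) i i.2⟩, by decide, by decide⟩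

theorem s5_0 : s5 1 = e0 := by
  ext1 i; apply Fin.ext; unfold s5; rw [permL_apply tok5 1 (by decide)]; rfl
theorem s5_2 : s5 3 = e2 := by
  ext1 i; apply Fin.ext; unfold s5; rw [permL_apply tok5 3 (by decide)]; rfl

theorem ev0 : s5 1 ∈ alternatingGroup (Fin 5) := by
  rw [s5_0, Equiv.Perm.mem_alternatingGroup]; decide +kernel
theorem ev2 : s5 3 ∈ alternatingGroup (Fin 5) := by
  rw [s5_2, Equiv.Perm.mem_alternatingGroup]; decide +kernel

/-! ### labels -/

section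

variable {G : Type*} [Group G] {X : Type*} (A : X → G → X) (hA1 : ∀ x, A x 1 = x)
  (hAm : ∀ x g h, A x (g * h) = A (A x g) h) {m : ℕ} (f : Fin m → X) (lab : Fin m → Fin 5 → Bool)

def RP (g : G) (σ : Equiv.Perm (Fin 5)) : Prop := ∀ i, ∃ j, A (f i) g = f j ∧ ∀ b, lab j b = lab i (σ b)

include hAm in
theorem RP.mul {g h : G} {σ τ : Equiv.Perm (Fin 5)} (h1 : RP A f lab g σ) (h2 : RP A f lab h τ) : RP A f lab (g * h) (σ * τ) := by
  intro i
  obtain ⟨j, hj1, hj2⟩ := h1 i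
  obtain ⟨k, hk1, hk2⟩ := h2 j
  refine ⟨k, by rw [hAm, hj1, hk1], ?_⟩
  intro b
  rw [hk2, hj2]; rfl

include hA1 in
theorem RP.one : RP A f lab (1 : G) 1 := fun i => ⟨i, hA1 _, fun b => rfl⟩

theorem RP.unique (hf : Function.Injective f) (hsep : ∀ a b : Fin 5, (∀ i, lab i a = lab i b) → a = b)
    {g : G} {σ τ : Equiv.Perm (Fin 5)} (h1 : RP A f lab g σ) (h2 : RP A f lab g τ) : σ = τ := by
  ext1 b
  apply hsep
  intro i
  obtain ⟨j, hj1, hj2⟩ := h1 i
  obtain ⟨k, hk1, hk2⟩ := h2 i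
  have : j = k := hf (hj1.symm.trans hk1)
  rw [← hj2, ← hk2, this]

include hA1 hAm in
theorem exists_of_closure [Finite G] (S : Set G) (h : ∀ g ∈ S, ∃ M, RP A f lab g M) :
    ∀ g ∈ Subgroup.closure S, ∃ M, RP A f lab g M := by
  have hpow : ∀ (g : G) (M : Equiv.Perm (Fin 5)), RP A f lab g M → ∀ k : ℕ, RP A f lab (g ^ k) (M ^ k) := by
    intro g M hg k
    induction k with
    | zero => rw [pow_zero, pow_zero]; exact RP.one A hA1 f lab
    | succ k ih => rw [pow_succ, pow_succ]; exact ih.mul A hAm f lab hg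
  intro g hg
  induction hg using Subgroup.closure_induction with
  | mem x hx => exact h x hx
  | one => exact ⟨1, RP.one A hA1 f lab⟩
  | mul x y _ _ hx hy =>
    obtain ⟨M, hM⟩ := hx
    obtain ⟨N, hN⟩ := hy
    exact ⟨M * N, hM.mul A hAm f lab hN⟩
  | inv x _ hx =>
    obtain ⟨M, hM⟩ := hx
    have e : x⁻¹ = x ^ (orderOf x - 1) := by
      rw [eq_comm, ← mul_eq_one_iff_eq_inv, ← pow_succ, Nat.sub_add_cancel (orderOf_pos x), pow_orderOf_eq_one]
    rw [e]
    exact ⟨_, hpow x M hM _⟩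

include hA1 hAm in
theorem main [Finite G] (hf : Function.Injective f)
    (hsep : ∀ a b : Fin 5, (∀ i, lab i a = lab i b) → a = b)
    (z c1 c2 : G) (q : Fin 4 → G) (σ : Fin 4 → Fin 4) (hσ : ∀ i, σ (σ i) = i)
    (hz1 : z ≠ 1) (hz2 : z * z = 1) (hzq : ∀ i, q i * z = z * q i)
    (hB : ∀ i j, q (σ i) * q j = (if i = j then z else 1) * (q j * q (σ i)))
    (hsq : ∀ i, q i * q i = 1 ∨ q i * q i = z)
    (h1 : RP A f lab c1 (s5 1)) (h2 : RP A f lab c2 (s5 3)) (hq : ∀ i, RP A f lab (q i) 1)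
    (hc1 : c1 * z = z * c1) (hc2 : c2 * z = z * c2)
    (hcard : Nat.card (Subgroup.centralizer ({z} : Set G)) ≤ 1920) :
    ∃ (Q : Subgroup ↥(Subgroup.centralizer ({z} : Set G))) (_ : Q.Normal), Nat.card Q = 32 ∧ Cfsg.IsExtraspecial 2 Q ∧
      Nonempty (↥(Subgroup.centralizer ({z} : Set G)) ⧸ Q ≃* alternatingGroup (Fin 5)) := by
  classical
  set C := Subgroup.centralizer ({z} : Set G) with hC
  set H := Subgroup.closure (({c1, c2} : Set G) ∪ Set.range q) with hH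
  have hHC : H ≤ C := by
    rw [hH, Subgroup.closure_le]
    rintro g ((rfl | rfl) | ⟨i, rfl⟩)
    · exact Subgroup.mem_centralizer_singleton_iff.2 hc1
    · exact Subgroup.mem_centralizer_singleton_iff.2 hc2
    · exact Subgroup.mem_centralizer_singleton_iff.2 (hzq i)
  have hex : ∀ g ∈ H, ∃ M, RP A f lab g M := by
    apply exists_of_closure A hA1 hAm f lab
    rintro g ((rfl | rfl) | ⟨i, rfl⟩)
    · exact ⟨_, h1⟩
    · exact ⟨_, h2⟩
    · exact ⟨1, hq i⟩
  have huniq : ∀ {g : G} {M N : Equiv.Perm (Fin 5)}, RP A f lab g M → RP A f lab g N → M = N := fun h h' => RP.unique A f lab hf hsep h h'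
  let ψ : H →* Equiv.Perm (Fin 5) :=
    { toFun := fun g => (hex g g.2).choose
      map_one' := huniq (hex 1 H.one_mem).choose_spec (RP.one A hA1 f lab)
      map_mul' := fun g h => huniq (hex _ (H.mul_mem g.2 h.2)).choose_spec
        ((hex g g.2).choose_spec.mul A hAm f lab (hex h h.2).choose_spec) }
  have hψ : ∀ (g : G) (hg : g ∈ H) (M : Equiv.Perm (Fin 5)), RP A f lab g M → ψ ⟨g, hg⟩ = M := fun g hg M h => huniq (hex g hg).choose_spec h
  have hc1m : c1 ∈ H := Subgroup.subset_closure (Or.inl (Or.inl rfl))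
  have hc2m : c2 ∈ H := Subgroup.subset_closure (Or.inl (Or.inr rfl))
  have hqm : ∀ i, q i ∈ H := fun i => Subgroup.subset_closure (Or.inr ⟨i, rfl⟩)
  have hr1 : Subgroup.closure ({s5 1, s5 3} : Set (Equiv.Perm (Fin 5))) ≤ ψ.range := by
    rw [Subgroup.closure_le]
    rintro M (rfl | rfl)
    · exact ⟨⟨c1, hc1m⟩, hψ _ _ _ h1⟩
    · exact ⟨⟨c2, hc2m⟩, hψ _ _ _ h2⟩
  have hr2 : ψ.range ≤ alternatingGroup (Fin 5) := by
    have key : ∀ g ∈ H, ∀ hg : g ∈ H, ψ ⟨g, hg⟩ ∈ alternatingGroup (Fin 5) := by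
      intro g hg
      have : ∃ hg : g ∈ H, ψ ⟨g, hg⟩ ∈ alternatingGroup (Fin 5) := by
        induction hg using Subgroup.closure_induction with
        | mem x hx =>
          rcases hx with (rfl | rfl) | ⟨i, rfl⟩
          · exact ⟨hc1m, by rw [hψ _ _ _ h1]; exact ev0⟩
          · exact ⟨hc2m, by rw [hψ _ _ _ h2]; exact ev2⟩
          · exact ⟨hqm i, by rw [hψ _ _ _ (hq i)]; exact one_mem _⟩
        | one => exact ⟨H.one_mem, by rw [show (⟨1, H.one_mem⟩ : H) = 1 from rfl, map_one]; exact one_mem _⟩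
        | mul x y _ _ hx hy =>
          obtain ⟨hx1, hx2⟩ := hx
          obtain ⟨hy1, hy2⟩ := hy
          exact ⟨H.mul_mem hx1 hy1, by
            rw [show (⟨x * y, H.mul_mem hx1 hy1⟩ : H) = ⟨x, hx1⟩ * ⟨y, hy1⟩ from rfl, map_mul]; exact mul_mem hx2 hy2⟩
        | inv x _ hx =>
          obtain ⟨hx1, hx2⟩ := hx
          exact ⟨H.inv_mem hx1, by
            rw [show (⟨x⁻¹, H.inv_mem hx1⟩ : H) = (⟨x, hx1⟩ : H)⁻¹ from rfl, map_inv]; exact inv_mem hx2⟩
      obtain ⟨_, h⟩ := this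
      intro _
      exact h
    rintro _ ⟨⟨g, hg⟩, rfl⟩
    exact key g hg hg
  have hA5 : Nat.card (alternatingGroup (Fin 5)) = 60 := by
    have := two_mul_nat_card_alternatingGroup (α := Fin 5)
    rw [Nat.card_perm, Nat.card_eq_fintype_card (α := Fin 5), Fintype.card_fin] at this
    have h5 : Nat.factorial 5 = 120 := by decide
    omega
  have hc60 : 60 ≤ Nat.card ψ.range := (card60.trans (Subgroup.card_le_of_le le_closure)).trans (Subgroup.card_le_of_le hr1)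
  have hreq : ψ.range = alternatingGroup (Fin 5) := Subgroup.eq_of_le_of_card_ge hr2 (by omega)
  have hzm : z ∈ H := by
    have h := hB 0 0
    rw [if_pos rfl] at h
    have : z = q (σ 0) * q 0 * (q (σ 0))⁻¹ * (q 0)⁻¹ := by rw [h]; group
    rw [this]
    exact H.mul_mem (H.mul_mem (H.mul_mem (hqm _) (hqm _)) (H.inv_mem (hqm _))) (H.inv_mem (hqm _))
  obtain ⟨x1, x2⟩ := XC4.crit (⟨z, hzm⟩ : H) (fun i => (⟨q i, hqm i⟩ : H)) σ hσ
    (fun h => hz1 (congrArg Subtype.val h)) (Subtype.ext hz2) (fun i => Subtype.ext (hzq i))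
    (by
      intro i j
      apply Subtype.ext
      have h := hB i j
      by_cases hij : i = j
      · rw [if_pos hij] at h ⊢; exact h
      · rw [if_neg hij] at h ⊢; exact h)
    (fun i => (hsq i).imp (fun h => Subtype.ext h) (fun h => Subtype.ext h))
  set E : Subgroup H := Subgroup.closure (Set.range fun i => (⟨q i, hqm i⟩ : H)) with hE
  have hEk : E ≤ ψ.ker := by
    rw [hE, Subgroup.closure_le]
    rintro _ ⟨i, rfl⟩
    exact MonoidHom.mem_ker.2 (hψ _ _ _ (hq i))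
  have hEc : Nat.card E ≤ Nat.card ψ.ker := Subgroup.card_le_of_le hEk
  have hmul : Nat.card H = 60 * Nat.card ψ.ker := by
    rw [Subgroup.card_eq_card_quotient_mul_card_subgroup ψ.ker,
      Nat.card_congr (QuotientGroup.quotientKerEquivRange ψ).toEquiv, hreq, hA5]
  have hHle : Nat.card H ≤ Nat.card C := Subgroup.card_le_of_le hHC
  have hk : Nat.card ψ.ker = 32 := by omega
  have hHeq : H = C := Subgroup.eq_of_le_of_card_ge hHC (by omega)
  have hEeq : E = ψ.ker := Subgroup.eq_of_le_of_card_ge hEk (by omega)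
  have hxs := x2 (by omega)
  rw [← hHeq]
  refine ⟨ψ.ker, inferInstance, hk, ?_, ?_⟩
  · rw [← hEeq]
    exact hxs.isExtraspecial
  · exact ⟨(QuotientGroup.quotientKerEquivRange ψ).trans (MulEquiv.subgroupCongr hreq)⟩

end

/-! ### data -/

open Cfsg.Agent.H8.J2C

def PF : List ℕ := [0, 1, 2, 3, 5, 8, 39, 47, 56, 57, 66, 67, 77, 78, 79, 88, 89, 90, 102, 103, 104, 105, 116, 117, 118, 119, 137, 139, 153, 155, 249, 262, 267, 270, 271, 275, 276, 277, 278, 279]
def LF : List ℕ := [3, 5, 6, 6, 5, 3, 9, 17, 18, 17, 10, 9, 18, 12, 10, 10, 20, 18, 9, 12, 20, 10, 17, 20, 12, 18, 20, 17, 12, 9, 5, 6, 24, 6, 3, 5, 24, 24, 3, 24]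
def NA : List ℕ := [21, 39, 25, 12, 32, 15, 11, 13, 31, 19, 38, 18, 3, 22, 34, 5, 23, 33, 29, 27, 16, 0, 28, 26, 9, 2, 20, 24, 7, 6, 36, 8, 1, 17, 14, 37, 35, 30, 10, 4]
def NB : List ℕ := [37, 8, 10, 14, 17, 36, 27, 20, 24, 26, 29, 7, 13, 38, 6, 18, 33, 28, 22, 0, 31, 11, 16, 3, 34, 19, 2, 23, 5, 9, 25, 21, 35, 15, 39, 12, 4, 30, 32, 1]
def NQ : List (List ℕ) := [[5, 1, 2, 3, 4, 0, 29, 27, 25, 22, 21, 18, 17, 13, 15, 14, 16, 12, 11, 19, 20, 10, 9, 23, 24, 8, 26, 7, 28, 6, 30, 31, 37, 33, 38, 35, 39, 32, 34, 36], [34, 35, 31, 33, 30, 38, 6, 9, 25, 7, 15, 11, 17, 19, 21, 10, 26, 12, 18, 13, 23, 14, 27, 20, 28, 8, 16, 22, 24, 29, 4, 2, 36, 3, 0, 1, 32, 39, 5, 37], [0, 4, 2, 3, 1, 5, 18, 22, 8, 27, 10, 29, 12, 28, 14, 15, 26, 17, 6, 24, 23, 21, 7, 20, 19, 25, 16, 9, 13, 11, 35, 31, 39, 33, 34, 30, 37, 36, 38, 32], [5, 4, 3, 2, 1, 0, 11, 9, 17, 7, 14, 6, 25, 24, 10, 21, 20, 8, 29, 28, 16, 15, 27, 26, 13, 12, 23, 22, 19,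 18, 35, 33, 32, 31, 38, 30, 36, 37, 34, 39]]
def qw : List (List ℕ) := [[4, 3, 2, 3, 4], [11, 7, 5, 5, 5, 7, 5, 5, 3, 2, 3, 4, 3, 2, 3, 4], [3, 2, 3], [13, 7, 3, 2, 3, 4, 3, 2, 3, 4]]

theorem PF_lt : ∀ i < 40, PF.getD i 0 < 280 := by decide +kernel

def fF (i : Fin 40) : Fin 280 := ⟨PF.getD i 0, PF_lt i i.2⟩

theorem PF_inj : ∀ i < 40, ∀ j < 40, PF.getD i 0 = PF.getD j 0 → i = j := by decide +kernel

theorem fF_inj : Function.Injective fF := by
  intro a b h
  exact Fin.ext (PF_inj a a.2 b b.2 (congrArg (fun x : Fin 280 => (x : ℕ)) h))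

def lF (i : Fin 40) (b : Fin 5) : Bool := (LF.getD i 0).testBit b

theorem hsep : ∀ a b : Fin 5, (∀ i, lF i a = lF i b) → a = b := by decide +kernel

noncomputable def W (w : List ℕ) : J2P.J := (w.map s).prod

theorem act_W (w : List ℕ) (hw : ∀ l ∈ w, l < 21) (x : Fin 280) : ((act ρ x (W w) : Fin 280) : ℕ) = trN T' w x :=
  act_word s tok ρ hρ x w hw

def bse : List ℕ := [116, 262, 0, 4]

theorem We (u v : List ℕ) (hu : ∀ l ∈ u, l < 21) (hv : ∀ l ∈ v, l < 21) (h : ∀ i ∈ bse, trN T' u i = trN T' v i) : W u = W v :=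
  weq u v hu hv h

theorem Wa (u v : List ℕ) : W (u ++ v) = W u * W v := by
  unfold W; rw [List.map_append, List.prod_append]

def Z : List ℕ := [15]
def CA : List ℕ := [17]
def CB : List ℕ := [19]
def q4 (i : Fin 4) : List ℕ := qw.getD i []
def sg (i : Fin 4) : Fin 4 := i + 2

theorem ckA : ∀ i < 40, NA.getD i 0 < 40 ∧ trN T' CA (PF.getD i 0) = PF.getD (NA.getD i 0) 0 ∧
    ∀ b < 5, (LF.getD (NA.getD i 0) 0).testBit b = (LF.getD i 0).testBit (T5 0 b) := by decide +kernel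
theorem ckB : ∀ i < 40, NB.getD i 0 < 40 ∧ trN T' CB (PF.getD i 0) = PF.getD (NB.getD i 0) 0 ∧
    ∀ b < 5, (LF.getD (NB.getD i 0) 0).testBit b = (LF.getD i 0).testBit (T5 2 b) := by decide +kernel
theorem ckQ : ∀ k : Fin 4, ∀ i < 40, (NQ.getD k []).getD i 0 < 40 ∧ trN T' (q4 k) (PF.getD i 0) = PF.getD ((NQ.getD k []).getD i 0) 0 ∧
    LF.getD ((NQ.getD k []).getD i 0) 0 = LF.getD i 0 := by decide +kernel
theorem q4L : ∀ k : Fin 4, ∀ l ∈ q4 k, l < 21 := by decide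

theorem zW : z = W Z := rfl

theorem z_ne : z ≠ 1 := by
  intro h1
  have h := act_W Z (by decide) ⟨4, by decide⟩
  rw [← zW, h1, act_one] at h
  exact absurd h (by decide +kernel)

theorem z_sq : z * z = 1 := by
  rw [zW, ← Wa]
  exact We _ [] (by decide) (by decide) (by decide +kernel)

theorem q_z (i : Fin 4) : W (q4 i) * z = z * W (q4 i) := by
  rw [zW, ← Wa, ← Wa]
  have h : ∀ i : Fin 4, (∀ l ∈ q4 i ++ Z, l < 21) ∧ (∀ l ∈ Z ++ q4 i, l < 21) ∧ ∀ b ∈ bse, trN T' (q4 i ++ Z) b = trN T' (Z ++ q4 i) b := by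
    decide +kernel
  exact We _ _ (h i).1 (h i).2.1 (h i).2.2

theorem cA_z : W CA * z = z * W CA := by
  rw [zW, ← Wa, ← Wa]
  exact We _ _ (by decide) (by decide) (by decide +kernel)
theorem cB_z : W CB * z = z * W CB := by
  rw [zW, ← Wa, ← Wa]
  exact We _ _ (by decide) (by decide) (by decide +kernel)

theorem q_B (i j : Fin 4) : W (q4 (sg i)) * W (q4 j) = (if i = j then z else 1) * (W (q4 j) * W (q4 (sg i))) := by
  have h : ∀ i j : Fin 4, (∀ l ∈ q4 (sg i) ++ q4 j, l < 21) ∧ (∀ l ∈ Z ++ (q4 j ++ q4 (sg i)), l < 21) ∧ (∀ l ∈ q4 j ++ q4 (sg i), l < 21) ∧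
      ∀ b ∈ bse, trN T' (q4 (sg i) ++ q4 j) b = trN T' (if i = j then Z ++ (q4 j ++ q4 (sg i)) else q4 j ++ q4 (sg i)) b := by
    decide +kernel
  obtain ⟨h1, h2, h3, h4⟩ := h i j
  by_cases hij : i = j
  · rw [if_pos hij] at h4 ⊢
    rw [zW, ← Wa, ← Wa, ← Wa]
    exact We _ _ h1 h2 h4
  · rw [if_neg hij] at h4 ⊢
    rw [one_mul, ← Wa, ← Wa]
    exact We _ _ h1 h3 h4

def sqf (i : Fin 4) : Bool := ([0, 1, 0, 1] : List ℕ).getD i 0 == 1

theorem q_sq (i : Fin 4) : W (q4 i) * W (q4 i) = 1 ∨ W (q4 i) * W (q4 i) = z := by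
  have h : ∀ i : Fin 4, (∀ l ∈ q4 i ++ q4 i, l < 21) ∧ (∀ l ∈ (if sqf i then Z else []), l < 21) ∧
      ∀ b ∈ bse, trN T' (q4 i ++ q4 i) b = trN T' (if sqf i then Z else []) b := by
    decide +kernel
  obtain ⟨h1, h2, h3⟩ := h i
  have h4 := We _ _ h1 h2 h3
  rw [Wa] at h4
  by_cases hs : sqf i = true
  · right; rw [h4, if_pos hs, zW]
  · left; rw [h4, if_neg hs]; rfl

theorem fin {G1 : Type*} [Group G1] (e : G1 ≃* J2P.J) :
    ∃ (Q : Subgroup ↥(Subgroup.centralizer ({e.symm z} : Set G1))) (_ : Q.Normal), Nat.card Q = 32 ∧ Cfsg.IsExtraspecial 2 Q ∧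
      Nonempty (↥(Subgroup.centralizer ({e.symm z} : Set G1)) ⧸ Q ≃* alternatingGroup (Fin 5)) := by
  haveI : Finite J2P.J := finG
  haveI : Finite G1 := Finite.of_equiv _ e.symm.toEquiv
  apply main (fun (x : Fin 280) (g : G1) => act ρ x (e g)) (fun x => by rw [map_one, act_one])
    (fun x g h => by rw [map_mul, act_mul]) fF lF fF_inj hsep (e.symm z) (e.symm (W CA)) (e.symm (W CB))
    (fun i => e.symm (W (q4 i))) sg (by decide)
  · intro h
    exact z_ne (by rw [← e.apply_symm_apply z, h, map_one])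
  · rw [← map_mul, z_sq, map_one]
  · intro i
    rw [← map_mul, q_z, map_mul]
  · intro i j
    rw [← map_mul, q_B, map_mul, map_mul]
    by_cases hij : i = j
    · rw [if_pos hij, if_pos hij]
    · rw [if_neg hij, if_neg hij, map_one]
  · intro i
    rcases q_sq i with h | h
    · left; rw [← map_mul, h, map_one]
    · right; rw [← map_mul, h]
  · intro i
    refine ⟨⟨NA.getD i 0, (ckA i i.2).1⟩, ?_, ?_⟩
    · change act ρ (fF i) (e (e.symm (W CA))) = _
      rw [e.apply_symm_apply]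
      apply Fin.ext
      rw [act_W CA (by decide)]
      exact (ckA i i.2).2.1
    · intro b
      have h := (ckA i i.2).2.2 b b.2
      have h2 : ((s5 1 b : Fin 5) : ℕ) = T5 0 b := by unfold s5; rw [permL_apply tok5 1 (by decide)]; rfl
      unfold lF
      rw [h2]; exact h
  · intro i
    refine ⟨⟨NB.getD i 0, (ckB i i.2).1⟩, ?_, ?_⟩
    · change act ρ (fF i) (e (e.symm (W CB))) = _
      rw [e.apply_symm_apply]
      apply Fin.ext
      rw [act_W CB (by decide)]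
      exact (ckB i i.2).2.1
    · intro b
      have h := (ckB i i.2).2.2 b b.2
      have h2 : ((s5 3 b : Fin 5) : ℕ) = T5 2 b := by unfold s5; rw [permL_apply tok5 3 (by decide)]; rfl
      unfold lF
      rw [h2]; exact h
  · intro k i
    refine ⟨⟨(NQ.getD k []).getD i 0, (ckQ k i i.2).1⟩, ?_, ?_⟩
    · change act ρ (fF i) (e (e.symm (W (q4 k)))) = _
      rw [e.apply_symm_apply]
      apply Fin.ext
      rw [act_W (q4 k) (q4L k)]
      exact (ckQ k i i.2).2.1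
    · intro b
      have h := (ckQ k i i.2).2.2
      unfold lF
      change (LF.getD ((NQ.getD k []).getD i 0) 0).testBit b = _
      rw [h]; rfl
  · rw [← map_mul, cA_z, map_mul]
  · rw [← map_mul, cB_z, map_mul]
  · refine le_trans ?_ cent_le
    apply Nat.card_le_card_of_injective (fun g : Subgroup.centralizer ({e.symm z} : Set G1) =>
      (⟨e g, Subgroup.mem_centralizer_singleton_iff.2 (by
        have h := Subgroup.mem_centralizer_singleton_iff.1 g.2
        have h2 := congrArg e h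
        rw [map_mul, map_mul, e.apply_symm_apply] at h2
        exact h2)⟩ : Subgroup.centralizer ({z} : Set J2P.J)))
    intro a b hab
    exact Subtype.ext (e.injective (congrArg Subtype.val hab))

end Cfsg.Agent.H8.J2I
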