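import Cfsg.Agent.H8.J2Spec
import Cfsg.Agent.H8.J2Hom
import Cfsg.Agent.H8.CentExt

/-!
# Central extensions of `J₂`
-/

set_option Elab.async false
set_option autoImplicit false
set_option linter.all false
set_option maxRecDepth 100000
set_option maxHeartbeats 1000000

namespace Cfsg.Agent.H8.J2M

open Cfsg.Agent.H8.CE
open Cfsg.Agent.H8.J2P (J s)

/-! ### Word identities -/

theorem weq (u v : List Nat) (h : ∀ l ∈ u ++ v.reverse, l < 5)
    (h2 : allR (fun i => powT ((u ++ v.reverse).map J2t.T) i 1 i) 0 280 = true) : (u.map s).prod = (v.map s).prod :=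
  word_eq s J2P.s_inv u v (J2P.wd _ h h2)

theorem s_inv' (l : Nat) : (s l)⁻¹ = s l := (J2P.s_inv l).symm

theorem ac : s 0 * s 2 = s 2 * s 0 := by
  have := weq [0, 2] [2, 0] (by decide) (by decide +kernel)
  simpa using this
theorem ad : s 0 * s 3 = s 3 * s 0 := by
  have := weq [0, 3] [3, 0] (by decide) (by decide +kernel)
  simpa using this
theorem ae : s 0 * s 4 = s 4 * s 0 := by
  have := weq [0, 4] [4, 0] (by decide) (by decide +kernel)
  simpa using this
theorem bd : s 1 * s 3 = s 3 * s 1 := by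
  have := weq [1, 3] [3, 1] (by decide) (by decide +kernel)
  simpa using this
theorem be : s 1 * s 4 = s 4 * s 1 := by
  have := weq [1, 4] [4, 1] (by decide) (by decide +kernel)
  simpa using this
theorem ce : s 2 * s 4 = s 4 * s 2 := by
  have := weq [2, 4] [4, 2] (by decide) (by decide +kernel)
  simpa using this

noncomputable def wordJ (w : List Nat) : J := (w.map s).prod

/-- data: `x`, `y`, `g`, `h` with `g`, `h` commuting with `x` and `y = g²h²`. -/
def data : List (Nat × Nat × List Nat × List Nat) :=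
  [(0, 2, [1,0,2,1,0,1,3,2,3,4,3,2,1,0,1,0,3,2,1,4], []),
   (0, 3, [1,2,1,0,1,0,4,3,2,1,3,2,3,2,1,0,1], [1,0,2,3,2,1,0,1,2,3,2,1,0,3,2,1,4]),
   (0, 4, [1,0,1,2,3,2,1,0,3,2,1,0,1,3,2,1,3,4], [1,0,1,2,1,0,3,2,1,0,1,2,3,2,1]),
   (1, 3, [3,2,1,0,3,2,1,0,1,3,2,1,0,4], [3,2,1,0,4,3,2,1,0,1,3,2,1,0]),
   (1, 4, [0,1,2,1,0,1,0,3,2,1,3,2], [0,1,4,3,2,1,0,1,0,3,2,1,3,2,3]),
   (2, 4, [0,3,2,1,0,3,2,1,0,1], [1,0,1,2,4,3,2,1,0,3,2,1,0,1,3,2,1,3])]

theorem data_g : ∀ q ∈ data, (∀ l ∈ q.2.2.1, l < 5) ∧ (∀ l ∈ q.2.2.2, l < 5) ∧ q.1 < 5 ∧ q.2.1 < 5 := by decide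

noncomputable def fx (w : List Nat) : Bool := (trN J2t.T w 0 == 0) && (trN J2t.T w 8 == 8) && (trN J2t.T w 4 == 4) && (trN J2t.T w 2 == 2)

theorem fx_sound (w : List Nat) (hw : ∀ l ∈ w, l < 5) (h : fx w = true) : (w.map s).prod = 1 := by
  unfold fx at h
  simp only [Bool.and_eq_true, beq_iff_eq] at h
  obtain ⟨⟨⟨h0, h8⟩, h4⟩, h2⟩ := h
  have := J2s.pow_one' w hw 1 h0 h8 h4 h2
  rwa [pow_one] at this

theorem data_ok : ∀ q ∈ data, fx ([q.1] ++ q.2.2.1 ++ [q.1] ++ q.2.2.1.reverse) = true ∧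
    fx ([q.1] ++ q.2.2.2 ++ [q.1] ++ q.2.2.2.reverse) = true ∧
    fx ([q.2.1] ++ (q.2.2.1 ++ q.2.2.1 ++ (q.2.2.2 ++ q.2.2.2)).reverse) = true := by decide +kernel

theorem comm_word (x : Nat) (g : List Nat) (hx : x < 5) (hg : ∀ l ∈ g, l < 5) (h : fx ([x] ++ g ++ [x] ++ g.reverse) = true) :
    s x * wordJ g = wordJ g * s x := by
  have h1 := fx_sound _ (by
    intro l hl
    simp only [List.mem_append, List.mem_singleton, List.mem_reverse] at hl
    rcases hl with ((rfl | hl) | rfl) | hl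
    · exact hx
    · exact hg l hl
    · exact hx
    · exact hg l hl) h
  rw [List.map_append, List.prod_append, List.map_append, List.prod_append, List.map_append, List.prod_append,
    ← word_inv s J2P.s_inv g, List.map_singleton, List.prod_singleton] at h1
  change s x * wordJ g * s x * (wordJ g)⁻¹ = 1 at h1
  rw [mul_inv_eq_one] at h1
  have h2 := congrArg (fun y => y * s x) h1
  rw [mul_assoc, J2P.sq, mul_one] at h2
  exact h2

theorem sq_word (y : Nat) (g h : List Nat) (hy : y < 5) (hg : ∀ l ∈ g, l < 5) (hh : ∀ l ∈ h, l < 5)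
    (hf : fx ([y] ++ (g ++ g ++ (h ++ h)).reverse) = true) : s y = wordJ g * wordJ g * (wordJ h * wordJ h) := by
  have h1 := fx_sound _ (by
    intro l hl
    simp only [List.mem_append, List.mem_singleton, List.mem_reverse] at hl
    rcases hl with rfl | (hl | hl) | (hl | hl)
    · exact hy
    · exact hg l hl
    · exact hg l hl
    · exact hh l hl
    · exact hh l hl) hf
  rw [List.map_append, List.prod_append, ← word_inv s J2P.s_inv, List.map_singleton, List.prod_singleton,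
    mul_inv_eq_one] at h1
  rw [h1, List.map_append, List.prod_append, List.map_append, List.prod_append, List.map_append, List.prod_append]
  rfl

section ext

variable {Γ : Type*} [Group Γ] (σ : Γ →* J) (hs : Function.Surjective σ) (hc : σ.ker ≤ Subgroup.center Γ)

include hc in
theorem K_mul_right (X Y1 Y2 : Γ) (h2 : σ X * σ Y2 = σ Y2 * σ X) : K X (Y1 * Y2) = K X Y1 * K X Y2 := by
  have hk := cen σ hc _ (K_ker σ X Y2 h2) Y1
  have e : K X (Y1 * Y2) = K X Y1 * (Y1 * K X Y2 * Y1⁻¹) := by unfold K; group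
  rw [e, hk]; group

include hs hc in
theorem comm_of_sq (X Y : Γ) (g h : J) (hx : σ X * σ X = 1) (hg : σ X * g = g * σ X) (hh : σ X * h = h * σ X)
    (hy : σ Y = g * g * (h * h)) : X * Y = Y * X := by
  obtain ⟨G, rfl⟩ := hs g
  obtain ⟨H, rfl⟩ := hs h
  apply comm_of_K
  have e1 : K X Y = K X (G * G * (H * H)) := by
    apply K_congr σ hc
    rw [hy]; simp
  have hH2 : σ X * σ (H * H) = σ (H * H) * σ X := by
    rw [map_mul, ← mul_assoc, hh, mul_assoc, hh, mul_assoc]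
  rw [e1, K_mul_right σ hc X _ _ hH2, K_mul_right σ hc X _ _ hg, K_mul_right σ hc X _ _ hh,
    K_sq σ hc X G hx hg, K_sq σ hc X H hx hh, mul_one]

theorem data_cases (x y : Nat) (h : (x, y) ∈ [(0, 2), (0, 3), (0, 4), (1, 3), (1, 4), (2, 4)]) :
    ∃ q ∈ data, q.1 = x ∧ q.2.1 = y := by
  revert h
  simp only [List.mem_cons, Prod.mk.injEq, List.not_mem_nil, or_false]
  rintro (⟨rfl, rfl⟩ | ⟨rfl, rfl⟩ | ⟨rfl, rfl⟩ | ⟨rfl, rfl⟩ | ⟨rfl, rfl⟩ | ⟨rfl, rfl⟩)
  · exact ⟨_, List.mem_cons_self, rfl, rfl⟩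
  · exact ⟨_, List.mem_cons_of_mem _ List.mem_cons_self, rfl, rfl⟩
  · exact ⟨_, List.mem_cons_of_mem _ (List.mem_cons_of_mem _ List.mem_cons_self), rfl, rfl⟩
  · exact ⟨_, List.mem_cons_of_mem _ (List.mem_cons_of_mem _ (List.mem_cons_of_mem _ List.mem_cons_self)), rfl, rfl⟩
  · exact ⟨_, List.mem_cons_of_mem _ (List.mem_cons_of_mem _ (List.mem_cons_of_mem _ (List.mem_cons_of_mem _
      List.mem_cons_self))), rfl, rfl⟩
  · exact ⟨_, List.mem_cons_of_mem _ (List.mem_cons_of_mem _ (List.mem_cons_of_mem _ (List.mem_cons_of_mem _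
      (List.mem_cons_of_mem _ List.mem_cons_self)))), rfl, rfl⟩

include hs hc in
/-- commuting pairs of generators have commuting lifts. -/
theorem comm_lift (x y : Nat) (h : (x, y) ∈ [(0, 2), (0, 3), (0, 4), (1, 3), (1, 4), (2, 4)]) (X Y : Γ)
    (hX : σ X = s x) (hY : σ Y = s y) : X * Y = Y * X := by
  obtain ⟨q, hq, rfl, rfl⟩ := data_cases x y h
  obtain ⟨g1, g2, g3, g4⟩ := data_g q hq
  obtain ⟨d1, d2, d3⟩ := data_ok q hq
  refine comm_of_sq σ hs hc X Y (wordJ q.2.2.1) (wordJ q.2.2.2) ?_ ?_ ?_ ?_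
  · rw [hX, J2P.sq]
  · rw [hX]; exact comm_word _ _ g3 g1 d1
  · rw [hX]; exact comm_word _ _ g3 g2 d2
  · rw [hY]; exact sq_word _ _ _ g4 g1 g2 d3

end ext

/-! ### Facts on `x` -/

theorem x_def : J2P.x = (J2P.xw.map s).prod := rfl

theorem x3 : J2P.x ^ 3 = 1 := by
  rw [x_def, ← wpow_prod]
  exact J2P.wd _ (by decide) (by decide +kernel)

theorem dx : s 3 * J2P.x⁻¹ * (s 3)⁻¹ = J2P.x := by
  rw [x_def, word_inv s J2P.s_inv, s_inv']
  have h := weq ([3] ++ J2P.xw.reverse ++ [3]) J2P.xw (by decide) (by decide +kernel)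
  rw [List.map_append, List.prod_append, List.map_append, List.prod_append, List.map_singleton, List.prod_singleton] at h
  exact h

theorem xe3 : (J2P.x * s 4) ^ 3 = 1 := by
  have r := J2P.s_rels (J2P.xw ++ [4], 3) (by decide)
  have r' : (((J2P.xw ++ [4]).map s).prod) ^ 3 = 1 := r
  rw [List.map_append, List.prod_append, List.map_singleton, List.prod_singleton] at r'
  exact r'

theorem cd4 : (s 2 * s 3) ^ 4 = s 0 := by
  have r := J2P.s_rels ([0, 2, 3, 2, 3, 2, 3, 2, 3], 1) (by decide)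
  have r' : s 0 * (s 2 * s 3) ^ 4 = 1 := by simpa [pow_succ, mul_assoc] using r
  have h := eq_inv_of_mul_eq_one_right r'
  rw [h, s_inv']

theorem ab5 : (s 0 * s 1) ^ 5 = 1 := by
  have r := J2P.s_rels ([0, 1], 5) (by decide)
  simpa using r

theorem bc3 : (s 1 * s 2) ^ 3 = 1 := by
  have r := J2P.s_rels ([1, 2], 3) (by decide)
  simpa using r

theorem ed3 : (s 4 * s 3) ^ 3 = 1 := by
  have r := weq (wpow [4, 3] 3) [] (by decide) (by decide +kernel)
  rw [wpow_prod] at r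
  simpa using r

section ext2

variable {Γ : Type*} [Group Γ] (σ : Γ →* J) (hs : Function.Surjective σ) (hc : σ.ker ≤ Subgroup.center Γ)

include hc in
/-- choose a lift of `y` which satisfies the braid relation of length five with the lift `X`. -/
theorem lift_edge5 (hs : Function.Surjective σ) (X : Γ) (x y : J) (hX : σ X = x) (hx : x * x = 1) (hy : y * y = 1)
    (h5 : (x * y) ^ 5 = 1) : ∃ Y, σ Y = y ∧ X * Y * X * Y * X = Y * X * Y * X * Y := by
  obtain ⟨Y0, hY0⟩ := hs y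
  have hx' : x⁻¹ = x := (eq_inv_of_mul_eq_one_left hx).symm
  have hy' : y⁻¹ = y := (eq_inv_of_mul_eq_one_left hy).symm
  have hσ : σ ((X * Y0 * X * Y0) * X * (X * Y0 * X * Y0)⁻¹) = y := by
    simp only [map_mul, map_inv, hX, hY0, mul_inv_rev]
    rw [hx', hy']
    calc x * y * x * y * x * (y * (x * (y * x))) = (x * y) ^ 5 * y⁻¹ := by
          rw [hy']
          have : (x * y) ^ 5 * y = x * y * x * y * x * y * x * y * x * (y * y) := by
            simp only [pow_succ, pow_zero, one_mul, mul_assoc]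
          rw [this, hy, mul_one]
          simp only [mul_assoc]
      _ = y := by rw [h5, hy', one_mul]
  refine ⟨(X * Y0 * X * Y0) * X * (X * Y0 * X * Y0)⁻¹, hσ, ?_⟩
  set Y := (X * Y0 * X * Y0) * X * (X * Y0 * X * Y0)⁻¹ with hYdef
  have h6 : Y = (X * Y * X * Y) * X * (X * Y * X * Y)⁻¹ := by
    conv_lhs => rw [hYdef]
    apply conj_congr σ hc
    simp only [map_mul]
    rw [hY0, hσ]
  calc X * Y * X * Y * X = ((X * Y * X * Y) * X * (X * Y * X * Y)⁻¹) * (X * Y * X * Y) := by group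
    _ = Y * (X * Y * X * Y) := by rw [← h6]
    _ = Y * X * Y * X * Y := by group

include hc in
theorem sq_braid5 (X Y : Γ) (h : X * Y * X * Y * X = Y * X * Y * X * Y) (hx : σ X * σ X = 1) : X * X = Y * Y := by
  have e : Y = (X * Y * X * Y) * X * (X * Y * X * Y)⁻¹ := by
    have : (X * Y * X * Y) * X = Y * (X * Y * X * Y) := by rw [h]; group
    rw [this]; group
  have h2 := cen σ hc (X * X) (by rw [map_mul, hx]) (X * Y * X * Y)
  have h3 : Y * Y = (X * Y * X * Y) * (X * X) * (X * Y * X * Y)⁻¹ := by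
    calc Y * Y = ((X * Y * X * Y) * X * (X * Y * X * Y)⁻¹) * ((X * Y * X * Y) * X * (X * Y * X * Y)⁻¹) := by rw [← e]
      _ = (X * Y * X * Y) * (X * X) * (X * Y * X * Y)⁻¹ := by group
  rw [h3, h2]; group

include hs hc in
theorem exists_X : ∃ X, σ X = J2P.x ∧ X ^ 3 = 1 := by
  obtain ⟨X0, hX0⟩ := hs J2P.x
  obtain ⟨D0, hD0⟩ := hs (s 3)
  set X' := D0 * X0⁻¹ * D0⁻¹ with hX'
  have h1 : σ X' = J2P.x := by
    rw [hX', map_mul, map_mul, map_inv, map_inv, hX0, hD0]; exact dx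
  have hcen := cen σ hc (X' * X0⁻¹) (by rw [map_mul, map_inv, h1, hX0, mul_inv_cancel]) X0
  have hcomm : Commute X0 X' := by
    show X0 * X' = X' * X0
    have e : X' = (X' * X0⁻¹) * X0 := by group
    calc X0 * X' = (X0 * (X' * X0⁻¹)) * X0 := by group
      _ = (X' * X0⁻¹ * X0) * X0 := by rw [hcen]
      _ = X' * X0 := by group
  have hX3 := cen σ hc (X0 ^ 3) (by rw [map_pow, hX0, x3]) D0
  have hX'3 : X' ^ 3 = (X0 ^ 3)⁻¹ := by
    have : X' ^ 3 = D0 * (X0 ^ 3)⁻¹ * D0⁻¹ := by rw [hX', conj_pow, inv_pow]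
    rw [this]
    have h4 : D0 * (X0 ^ 3)⁻¹ = (X0 ^ 3)⁻¹ * D0 := by
      rw [eq_inv_mul_iff_mul_eq, ← mul_assoc, ← hX3]; group
    rw [h4]; group
  have hY3 : (X0 * X') ^ 3 = 1 := by
    rw [hcomm.mul_pow, hX'3, mul_inv_cancel]
  refine ⟨(X0 * X') ^ 2, ?_, ?_⟩
  · rw [map_pow, map_mul, hX0, h1]
    have : (J2P.x * J2P.x) ^ 2 = J2P.x ^ 3 * J2P.x := by simp only [pow_succ, pow_zero, one_mul, mul_assoc]
    rw [this, x3, one_mul]
  · rw [← pow_mul, Nat.mul_comm, pow_mul, hY3, one_pow]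

include hs hc in
theorem exists_E (X : Γ) (hX : σ X = J2P.x) (hX3 : X ^ 3 = 1)
    (hK : ∀ E, σ E = s 4 → (X * E * X⁻¹) * (X⁻¹ * E * X) = (X⁻¹ * E * X) * (X * E * X⁻¹)) :
    ∃ E, σ E = s 4 ∧ E * E = 1 ∧ (X * E) ^ 3 = 1 := by
  obtain ⟨E0, hE0⟩ := hs (s 4)
  set E1 := X * E0 * X⁻¹ with hE1
  set E2 := X⁻¹ * E0 * X with hE2
  have hX2 : X * X = X⁻¹ := by
    rw [eq_inv_iff_mul_eq_one]
    rw [← hX3]; simp only [pow_succ, pow_zero, one_mul]
  have c12 : E1 * E2 = E2 * E1 := hK E0 hE0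
  have k1 : X * E1 * X⁻¹ = E2 := by
    calc X * (X * E0 * X⁻¹) * X⁻¹ = (X * X) * E0 * (X * X)⁻¹ := by group
      _ = X⁻¹ * E0 * X := by rw [hX2, inv_inv]
  have k2 : X * E2 * X⁻¹ = E0 := by rw [hE2]; group
  have k0 : X * E0 * X⁻¹ = E1 := rfl
  have c20 : E2 * E0 = E0 * E2 := by
    have := congrArg (fun g => X * g * X⁻¹) c12
    have e1 : X * (E1 * E2) * X⁻¹ = (X * E1 * X⁻¹) * (X * E2 * X⁻¹) := by group
    have e2 : X * (E2 * E1) * X⁻¹ = (X * E2 * X⁻¹) * (X * E1 * X⁻¹) := by group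
    rw [e1, e2, k1, k2] at this
    exact this
  have c01 : E0 * E1 = E1 * E0 := by
    have := congrArg (fun g => X * g * X⁻¹) c20
    have e1 : X * (E2 * E0) * X⁻¹ = (X * E2 * X⁻¹) * (X * E0 * X⁻¹) := by group
    have e2 : X * (E0 * E2) * X⁻¹ = (X * E0 * X⁻¹) * (X * E2 * X⁻¹) := by group
    rw [e1, e2, k0, k2] at this
    exact this
  set y := E0 * E0 with hy
  have cy : ∀ g, g * y = y * g := fun g => cen σ hc y (by rw [hy, map_mul, hE0, J2P.sq]) g
  have y1 : E1 * E1 = y := by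
    have : E1 * E1 = X * y * X⁻¹ := by rw [hE1, hy]; group
    rw [this, cy X]; group
  have y2 : E2 * E2 = y := by
    have : E2 * E2 = X⁻¹ * y * X := by rw [hE2, hy]; group
    rw [this, cy X⁻¹]; group
  set r := (X * E0) ^ 3 with hr
  have cr : ∀ g, g * r = r * g := fun g => cen σ hc r (by rw [hr, map_pow, map_mul, hX, hE0, xe3]) g
  have r1 : r = E1 * E2 * E0 := by
    have e1 : E1 * E2 * E0 = X * E0 * (X⁻¹ * X⁻¹) * E0 * X * E0 := by rw [hE1, hE2]; group
    have e2 : X⁻¹ * X⁻¹ = X := by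
      rw [← hX2]
      calc X * X * (X * X) = X ^ 3 * X := by simp only [pow_succ, pow_zero, one_mul, mul_assoc]
        _ = X := by rw [hX3, one_mul]
    rw [e1, e2, hr]
    simp only [pow_succ, pow_zero, one_mul, mul_assoc]
  have r2 : r * r = y * y * y := by
    rw [r1]
    calc E1 * E2 * E0 * (E1 * E2 * E0) = E1 * E2 * (E0 * E1) * E2 * E0 := by group
      _ = E1 * (E2 * E1) * E0 * E2 * E0 := by rw [c01]; group
      _ = E1 * E1 * E2 * (E0 * E2) * E0 := by rw [← c12]; group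
      _ = (E1 * E1) * (E2 * E2) * (E0 * E0) := by rw [← c20]; group
      _ = y * y * y := by rw [y1, y2]
  set z := r * y⁻¹ with hz
  have cy' : ∀ g, g * y⁻¹ = y⁻¹ * g := fun g => by
    rw [eq_inv_mul_iff_mul_eq, ← mul_assoc, ← cy g]; group
  have cz : ∀ g, g * z = z * g := fun g => by
    rw [hz]
    calc g * (r * y⁻¹) = (g * r) * y⁻¹ := by group
      _ = r * (g * y⁻¹) := by rw [cr]; group
      _ = r * y⁻¹ * g := by rw [cy']; group
  have z2 : z * z = y := by
    rw [hz]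
    calc r * y⁻¹ * (r * y⁻¹) = r * (y⁻¹ * r) * y⁻¹ := by group
      _ = (r * r) * y⁻¹ * y⁻¹ := by rw [← cy' r]; group
      _ = y := by rw [r2]; group
  have cz' : ∀ g, g * z⁻¹ = z⁻¹ * g := fun g => by
    rw [eq_inv_mul_iff_mul_eq, ← mul_assoc, ← cz g]; group
  have hσz : σ z⁻¹ = 1 := by
    have h1 : σ r = 1 := by rw [hr, map_pow, map_mul, hX, hE0, xe3]
    have h2 : σ y = 1 := by rw [hy, map_mul, hE0, J2P.sq]
    rw [hz, map_inv, map_mul, map_inv, h1, h2]; simp
  refine ⟨E0 * z⁻¹, ?_, ?_, ?_⟩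
  · rw [map_mul, hσz, mul_one, hE0]
  · calc E0 * z⁻¹ * (E0 * z⁻¹) = E0 * (z⁻¹ * E0) * z⁻¹ := by group
      _ = (E0 * E0) * (z * z)⁻¹ := by rw [← cz' E0]; group
      _ = 1 := by rw [z2, ← hy, mul_inv_cancel]
  · have hcm : Commute (X * E0) z⁻¹ := cz' _
    rw [← mul_assoc, hcm.mul_pow, ← hr]
    calc r * z⁻¹ ^ 3 = r * (z * z)⁻¹ * z⁻¹ := by simp only [pow_succ, pow_zero, one_mul, mul_assoc, mul_inv_rev]
      _ = z * z⁻¹ := by rw [z2]
      _ = 1 := mul_inv_cancel z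

include hs hc in
theorem exists_ABC (D : Γ) (hD : σ D = s 3) (hD2 : D * D = 1) : ∃ A B C, σ A = s 0 ∧ σ B = s 1 ∧ σ C = s 2 ∧
    A * A = 1 ∧ B * B = 1 ∧ C * C = 1 ∧ A * B * A * B * A = B * A * B * A * B ∧ B * C * B = C * B * C ∧
    (C * D) ^ 4 = A := by
  obtain ⟨A0, hA0⟩ := hs (s 0)
  obtain ⟨B0, hB0, hAB⟩ := lift_edge5 σ hc hs A0 (s 0) (s 1) hA0 (J2P.sq 0) (J2P.sq 1) ab5
  obtain ⟨C0, hC0, hBC⟩ := lift_edge σ hc hs B0 (s 1) (s 2) hB0 (J2P.sq 1) (J2P.sq 2) bc3
  have sqB : A0 * A0 = B0 * B0 := sq_braid5 σ hc A0 B0 hAB (by rw [hA0, J2P.sq])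
  have sqC : B0 * B0 = C0 * C0 := sq_braid σ hc B0 C0 hBC (by rw [hB0, J2P.sq])
  set z := A0 * A0 with hz
  have cz : ∀ g, g * z = z * g := fun g => cen σ hc z (by rw [hz, map_mul, hA0, J2P.sq]) g
  have cz' : ∀ g, g * z⁻¹ = z⁻¹ * g := fun g => by
    rw [eq_inv_mul_iff_mul_eq, ← mul_assoc, ← cz g]; group
  set P := (C0 * D) ^ 4 with hP
  have hσP : σ P = s 0 := by rw [hP, map_pow, map_mul, hC0, hD, cd4]
  set c := P * A0⁻¹ with hcdef
  have hσc : σ c = 1 := by rw [hcdef, map_mul, map_inv, hσP, hA0, mul_inv_cancel]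
  have cc : ∀ g, g * c = c * g := fun g => cen σ hc c hσc g
  have hPc : P = c * A0 := by rw [hcdef]; group
  have hDA : A0 * D = D * A0 := comm_lift σ hs hc 0 3 (by decide) A0 D hA0 hD
  have hD' : D⁻¹ = D := (eq_inv_of_mul_eq_one_left hD2).symm
  have q1 : (D * C0) ^ 4 = P := by
    have e1 : (D * C0) ^ 4 = D * (C0 * D) ^ 4 * D⁻¹ := by
      simp only [pow_succ, pow_zero, one_mul, mul_assoc, mul_inv_cancel, mul_one]
    rw [e1, ← hP, hPc]
    calc D * (c * A0) * D⁻¹ = (D * c) * A0 * D⁻¹ := by group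
      _ = c * (D * A0) * D⁻¹ := by rw [cc D]; group
      _ = c * A0 := by rw [← hDA]; group
  have q2 : (D * C0) = z * (C0 * D)⁻¹ := by
    rw [mul_inv_rev, hD']
    have e : C0⁻¹ = z⁻¹ * C0 := by
      have h1 : z = C0 * C0 := by rw [← sqC, ← sqB]
      rw [h1]; group
    rw [e]
    calc D * C0 = D * (z * z⁻¹) * C0 := by group
      _ = (D * z) * (z⁻¹ * C0) := by group
      _ = z * (D * (z⁻¹ * C0)) := by rw [cz D]; group
  have q3 : P = z ^ 4 * P⁻¹ := by
    have hcm : Commute z ((C0 * D)⁻¹) := (cz _).symm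
    nth_rewrite 1 [← q1]
    rw [q2, hcm.mul_pow, inv_pow, ← hP]
  have q4 : c * c = z * z * z := by
    have h1 : P * P = z ^ 4 := by
      nth_rewrite 1 [q3]; group
    have h2 : P * P = c * c * z := by
      rw [hPc, hz]
      calc c * A0 * (c * A0) = c * (A0 * c) * A0 := by group
        _ = c * c * (A0 * A0) := by rw [cc A0]; group
    have h3 : c * c * z = z * z * z * z := by
      rw [← h2, h1]; simp only [pow_succ, pow_zero, one_mul]
    exact mul_right_cancel h3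
  set x := c * z⁻¹ with hx
  have cx : ∀ g, g * x = x * g := fun g => by
    rw [hx]
    calc g * (c * z⁻¹) = (g * c) * z⁻¹ := by group
      _ = c * (g * z⁻¹) := by rw [cc]; group
      _ = c * z⁻¹ * g := by rw [cz']; group
  have cx' : ∀ g, g * x⁻¹ = x⁻¹ * g := fun g => by
    rw [eq_inv_mul_iff_mul_eq, ← mul_assoc, ← cx g]; group
  have x2 : x * x = z := by
    rw [hx]
    calc c * z⁻¹ * (c * z⁻¹) = c * (z⁻¹ * c) * z⁻¹ := by group
      _ = (c * c) * z⁻¹ * z⁻¹ := by rw [← cz' c]; group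
      _ = z := by rw [q4]; group
  have hσx : σ x⁻¹ = 1 := by
    have h2 : σ z = 1 := by rw [hz, map_mul, hA0, J2P.sq]
    rw [hx, map_inv, map_mul, map_inv, hσc, h2]; simp
  have sq1 : ∀ g, g * g = z → g * x⁻¹ * (g * x⁻¹) = 1 := by
    intro g hg
    calc g * x⁻¹ * (g * x⁻¹) = g * (x⁻¹ * g) * x⁻¹ := by group
      _ = (g * g) * (x * x)⁻¹ := by rw [← cx' g]; group
      _ = 1 := by rw [x2, hg, mul_inv_cancel]
  have mv : ∀ g h, g * x⁻¹ * h = g * h * x⁻¹ := fun g h => by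
    rw [mul_assoc, ← cx' h, mul_assoc]
  refine ⟨A0 * x⁻¹, B0 * x⁻¹, C0 * x⁻¹, ?_, ?_, ?_, sq1 _ rfl, sq1 _ sqB.symm, sq1 _ (by rw [← sqC, ← sqB]), ?_, ?_, ?_⟩
  · rw [map_mul, hσx, mul_one, hA0]
  · rw [map_mul, hσx, mul_one, hB0]
  · rw [map_mul, hσx, mul_one, hC0]
  · simp only [← mul_assoc, mv]
    rw [hAB]
  · simp only [← mul_assoc, mv]
    rw [hBC]
  · have e1 : C0 * x⁻¹ * D = C0 * D * x⁻¹ := mv C0 D
    have hcm : Commute (C0 * D) x⁻¹ := cx' _
    rw [e1, hcm.mul_pow, ← hP, hPc]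
    have e2 : c * A0 * x⁻¹ ^ 4 = A0 * (c * (x * x)⁻¹ * x⁻¹) * x⁻¹ := by
      rw [← cc A0]
      simp only [pow_succ, pow_zero, one_mul, mul_assoc, mul_inv_rev]
    rw [e2, x2, ← hx, mul_inv_cancel, mul_one]

end ext2

/-! ### Assembling -/

def lets {Γ : Type*} [Group Γ] (A B C D E : Γ) : Nat → Γ
  | 0 => A
  | 1 => B
  | 2 => C
  | 3 => D
  | 4 => E
  | _ => 1

section final

variable {Γ : Type*} [Group Γ] (σ : Γ →* J)

/-- the bound for the subgroup generated by four letters gives the order of `W`. -/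
theorem W15 (t : Nat → Γ) (ht : ∀ l, t l = (t l)⁻¹) (h31 : t 31 = 1)
    (hrel : ∀ p ∈ Pglt.rels2, ((p.1.map t).prod) ^ p.2 = 1) (hσ : ∀ l < 4, σ (t l) = s l) :
    ((wpow [1, 2, 3, 2, 3] 15).map t).prod = 1 := by
  have h1 := A1t.upper (subS t [2]) (subS_inv t _ ht) (subS_31 t _ h31)
    (rels_sub t [2] _ _ hrel (by decide)) ⊥ (by intro w hw; exact absurd hw (by decide +revert)) inferInstance
  have h2 := Dih8t.upper (subS t [2, 3]) (subS_inv t _ ht) (subS_31 t _ h31)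
    (rels_sub t [2, 3] _ _ hrel (by decide)) _ (sub_mem t [2, 3] [2] 1 _ (by decide)) h1.1
  have h3 := Pglt.upper (subS t [0, 1, 2, 3]) (subS_inv t _ ht) (subS_31 t _ h31)
    (rels_sub t [0, 1, 2, 3] _ _ hrel (by decide)) _ (sub_mem t [0, 1, 2, 3] [2, 3] 2 _ (by decide)) h2.1
  have e1 : Nat.card (⊥ : Subgroup Γ) = 1 := by simp
  rw [e1] at h1
  have hL : letterGroup (subS t [0, 1, 2, 3]) 4 = letterGroup t 4 := by
    apply letterGroup_congr
    exact subS_id t [0, 1, 2, 3] 4 (by decide)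
  rw [hL] at h3
  set L := letterGroup t 4 with hLdef
  haveI := h3.1
  have hcard : Nat.card L ≤ 2160 := by omega
  have hle : J2s.K ≤ (σ.comp L.subtype).range := by
    intro g hg
    obtain ⟨w1, m1, w2, m2, w3, m3, rfl⟩ := J2s.K_words g hg
    have key : ∀ w : List Nat, (∀ l ∈ w, l < 4) → (w.map s).prod ∈ (σ.comp L.subtype).range := by
      intro w hw
      apply Subgroup.list_prod_mem
      intro y hy
      obtain ⟨l, hl, rfl⟩ := List.mem_map.1 hy
      exact ⟨⟨t l, Subgroup.subset_closure ⟨l, hw l hl, rfl⟩⟩, hσ l (hw l hl)⟩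
    exact mul_mem (key _ (J2s.V3_lt _ m3)) (mul_mem (key _ (J2s.V2_lt _ m2)) (key _ (J2s.V1_lt _ m1)))
  have h4 : 2160 ≤ Nat.card (σ.comp L.subtype).range := by
    rw [← J2s.card_K]; exact Subgroup.card_le_of_le hle
  have h5 : Function.Bijective (σ.comp L.subtype).rangeRestrict := by
    apply (Nat.bijective_iff_surjective_and_card _).2
    refine ⟨MonoidHom.rangeRestrict_surjective _, ?_⟩
    apply le_antisymm (le_trans hcard h4)
    exact Nat.card_le_card_of_surjective _ (MonoidHom.rangeRestrict_surjective _)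
  have hw : ((wpow [1, 2, 3, 2, 3] 15).map t).prod ∈ L := by
    apply Subgroup.list_prod_mem
    intro y hy
    obtain ⟨l, hl, rfl⟩ := List.mem_map.1 hy
    have : ∀ l ∈ wpow [1, 2, 3, 2, 3] 15, l < 4 := by decide
    exact Subgroup.subset_closure ⟨l, this l hl, rfl⟩
  have h6 : σ ((wpow [1, 2, 3, 2, 3] 15).map t).prod = 1 := by
    rw [map_list_prod, List.map_map]
    have : (wpow [1, 2, 3, 2, 3] 15).map (σ ∘ t) = (wpow [1, 2, 3, 2, 3] 15).map s := by
      apply List.map_congr_left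
      intro l hl
      have : ∀ l ∈ wpow [1, 2, 3, 2, 3] 15, l < 4 := by decide
      exact hσ l (this l hl)
    rw [this]
    exact J2P.wd _ (by decide) (by decide +kernel)
  have h7 : (⟨_, hw⟩ : L) = 1 := by
    apply h5.1
    rw [map_one]
    apply Subtype.ext
    exact h6
  exact congrArg Subtype.val h7

theorem ab5' (A B : Γ) (hA : A * A = 1) (hB : B * B = 1) (h : A * B * A * B * A = B * A * B * A * B) : (A * B) ^ 5 = 1 := by
  calc (A * B) ^ 5 = (A * B * A * B * A) * (B * A * B * A * B) := by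
        simp only [pow_succ, pow_zero, one_mul, mul_assoc]
    _ = (A * B * A * B * A) * (A * B * A * B * A) := by rw [h]
    _ = A * B * A * B * (A * A) * B * A * B * A := by simp only [mul_assoc]
    _ = A * B * A * (B * B) * A * B * A := by rw [hA]; simp only [mul_assoc, one_mul]
    _ = A * B * (A * A) * B * A := by rw [hB]; simp only [mul_assoc, one_mul]
    _ = A * (B * B) * A := by rw [hA]; simp only [mul_assoc, one_mul]
    _ = 1 := by rw [hB, mul_one, hA]

/-- a stem extension of `J₂` in which the lifts of the four-group commute is trivial. -/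
theorem ker_bot (hs : Function.Surjective σ) (hc : σ.ker ≤ Subgroup.center Γ) (hst : σ.ker ≤ commutator Γ)
    (hK : ∀ X E, σ X = J2P.x → σ E = s 4 → (X * E * X⁻¹) * (X⁻¹ * E * X) = (X⁻¹ * E * X) * (X * E * X⁻¹)) :
    σ.ker = ⊥ := by
  obtain ⟨X, hX, hX3⟩ := exists_X σ hs hc
  obtain ⟨E, hE, hE2, hXE⟩ := exists_E σ hs hc X hX hX3 (fun E hE => hK X E hX hE)
  obtain ⟨D, hD, hED⟩ := lift_edge σ hc hs E (s 4) (s 3) hE (J2P.sq 4) (J2P.sq 3) ed3
  have hD2 : D * D = 1 := by rw [← sq_braid σ hc E D hED (by rw [hE, J2P.sq]), hE2]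
  obtain ⟨A, B, C, hA, hB, hC, hA2, hB2, hC2, hAB, hBC, hCD⟩ := exists_ABC σ hs hc D hD hD2
  have cAC : A * C = C * A := comm_lift σ hs hc 0 2 (by decide) A C hA hC
  have cAD : A * D = D * A := comm_lift σ hs hc 0 3 (by decide) A D hA hD
  have cAE : A * E = E * A := comm_lift σ hs hc 0 4 (by decide) A E hA hE
  have cBD : B * D = D * B := comm_lift σ hs hc 1 3 (by decide) B D hB hD
  have cBE : B * E = E * B := comm_lift σ hs hc 1 4 (by decide) B E hB hE
  have cCE : C * E = E * C := comm_lift σ hs hc 2 4 (by decide) C E hC hE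
  have hsq : ∀ l, lets A B C D E l * lets A B C D E l = 1 := by
    intro l
    match l with
    | 0 => exact hA2
    | 1 => exact hB2
    | 2 => exact hC2
    | 3 => exact hD2
    | 4 => exact hE2
    | _ + 5 => exact mul_one 1
  have hσ : ∀ l < 5, σ (lets A B C D E l) = s l := by
    intro l hl
    match l with
    | 0 => exact hA
    | 1 => exact hB
    | 2 => exact hC
    | 3 => exact hD
    | 4 => exact hE
    | _ + 5 => omega
  have r01 : ((([0, 1] : List Nat).map (lets A B C D E)).prod) ^ 5 = 1 := by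
    have := ab5' A B hA2 hB2 hAB
    simpa [lets] using this
  have r02 : ((([0, 2] : List Nat).map (lets A B C D E)).prod) ^ 2 = 1 := by
    simpa [lets] using comm_sq A C hA2 hC2 cAC
  have r03 : ((([0, 3] : List Nat).map (lets A B C D E)).prod) ^ 2 = 1 := by
    simpa [lets] using comm_sq A D hA2 hD2 cAD
  have r04 : ((([0, 4] : List Nat).map (lets A B C D E)).prod) ^ 2 = 1 := by
    simpa [lets] using comm_sq A E hA2 hE2 cAE
  have r12 : ((([1, 2] : List Nat).map (lets A B C D E)).prod) ^ 3 = 1 := by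
    simpa [lets] using braid_cube B C hB2 hC2 hBC
  have r13 : ((([1, 3] : List Nat).map (lets A B C D E)).prod) ^ 2 = 1 := by
    simpa [lets] using comm_sq B D hB2 hD2 cBD
  have r14 : ((([1, 4] : List Nat).map (lets A B C D E)).prod) ^ 2 = 1 := by
    simpa [lets] using comm_sq B E hB2 hE2 cBE
  have r23 : ((([2, 3] : List Nat).map (lets A B C D E)).prod) ^ 8 = 1 := by
    have : (C * D) ^ 8 = 1 := by
      have e : (C * D) ^ 8 = (C * D) ^ 4 * (C * D) ^ 4 := by rw [← pow_add]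
      rw [e, hCD, hA2]
    simpa [lets] using this
  have r24 : ((([2, 4] : List Nat).map (lets A B C D E)).prod) ^ 2 = 1 := by
    simpa [lets] using comm_sq C E hC2 hE2 cCE
  have r34 : ((([3, 4] : List Nat).map (lets A B C D E)).prod) ^ 3 = 1 := by
    simpa [lets] using braid_cube D E hD2 hE2 hED.symm
  have racd : ((([0, 2, 3, 2, 3, 2, 3, 2, 3] : List Nat).map (lets A B C D E)).prod) ^ 1 = 1 := by
    have e : (([0, 2, 3, 2, 3, 2, 3, 2, 3] : List Nat).map (lets A B C D E)).prod = A * (C * D) ^ 4 := by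
      simp [lets, pow_succ, mul_assoc]
    rw [pow_one, e, hCD, hA2]
  have hW15 := W15 σ (lets A B C D E) (fun l => eq_inv_of_mul_eq_one_left (hsq l)) rfl (by
    intro p hp
    have hp' : p = ([0, 1], 5) ∨ p = ([0, 2], 2) ∨ p = ([0, 3], 2) ∨ p = ([1, 2], 3) ∨ p = ([1, 3], 2) ∨
        p = ([2, 3], 8) ∨ p = ([0, 2, 3, 2, 3, 2, 3, 2, 3], 1) := by
      revert p hp; decide
    rcases hp' with rfl | rfl | rfl | rfl | rfl | rfl | rfl
    · exact r01
    · exact r02
    · exact r03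
    · exact r12
    · exact r13
    · exact r23
    · exact racd) (fun l hl => hσ l (by omega))
  have rlast : ((([1, 2, 3, 2, 3, 1, 2, 3, 2, 3, 1, 2, 3, 2, 3, 1, 2, 3, 2, 3, 1, 2, 3, 2, 3, 4] : List Nat).map
      (lets A B C D E)).prod) ^ 3 = 1 := by
    set W := (([1, 2, 3, 2, 3] : List Nat).map (lets A B C D E)).prod with hW
    rw [wpow_prod, ← hW] at hW15
    have e : (([1, 2, 3, 2, 3, 1, 2, 3, 2, 3, 1, 2, 3, 2, 3, 1, 2, 3, 2, 3, 1, 2, 3, 2, 3, 4] : List Nat).map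
      (lets A B C D E)).prod = W ^ 5 * E := by
      have : ([1, 2, 3, 2, 3, 1, 2, 3, 2, 3, 1, 2, 3, 2, 3, 1, 2, 3, 2, 3, 1, 2, 3, 2, 3, 4] : List Nat) =
        wpow [1, 2, 3, 2, 3] 5 ++ [4] := by decide
      rw [this, List.map_append, List.prod_append, wpow_prod, ← hW, List.map_singleton, List.prod_singleton]
      rfl
    rw [e]
    have hσW : σ (W ^ 5) = J2P.x := by
      have e1 : W ^ 5 = ((J2P.xw).map (lets A B C D E)).prod := by
        rw [J2P.xw, wpow_prod]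
      rw [e1, map_list_prod, List.map_map, x_def]
      congr 1
      apply List.map_congr_left
      intro l hl
      have : ∀ l ∈ J2P.xw, l < 5 := by decide
      exact hσ l (this l hl)
    set η := X⁻¹ * W ^ 5 with hη
    have cη : ∀ g, g * η = η * g := fun g => cen σ hc η (by rw [hη, map_mul, map_inv, hX, hσW, inv_mul_cancel]) g
    have hWη : W ^ 5 = X * η := by rw [hη]; group
    have h1 : η ^ 3 = 1 := by
      have hcm : Commute X η := cη X
      have : (W ^ 5) ^ 3 = 1 := by rw [← pow_mul]; exact hW15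
      rw [hWη, hcm.mul_pow, hX3, one_mul] at this
      exact this
    rw [hWη]
    have e2 : X * η * E = X * E * η := by rw [mul_assoc, ← cη E, mul_assoc]
    have hcm : Commute (X * E) η := cη _
    rw [e2, hcm.mul_pow, hXE, h1, one_mul]
  have hrel : ∀ p ∈ J2t.rels2, ((p.1.map (lets A B C D E)).prod) ^ p.2 = 1 := by
    intro p hp
    have hp' : p = ([0, 1], 5) ∨ p = ([0, 2], 2) ∨ p = ([0, 3], 2) ∨ p = ([0, 4], 2) ∨ p = ([1, 2], 3) ∨ p = ([1, 3], 2) ∨
        p = ([1, 4], 2) ∨ p = ([2, 3], 8) ∨ p = ([2, 4], 2) ∨ p = ([3, 4], 3) ∨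
        p = ([0, 2, 3, 2, 3, 2, 3, 2, 3], 1) ∨
        p = ([1, 2, 3, 2, 3, 1, 2, 3, 2, 3, 1, 2, 3, 2, 3, 1, 2, 3, 2, 3, 1, 2, 3, 2, 3, 4], 3) := by
      revert p hp; decide
    rcases hp' with rfl | rfl | rfl | rfl | rfl | rfl | rfl | rfl | rfl | rfl | rfl | rfl
    · exact r01
    · exact r02
    · exact r03
    · exact r04
    · exact r12
    · exact r13
    · exact r14
    · exact r23
    · exact r24
    · exact r34
    · exact racd
    · exact rlast
  apply ker_bot_of_section σ hc hst (J2P.homOf (lets A B C D E) hsq hrel)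
  intro g
  have hg : g ∈ letterGroup s 5 := by rw [show letterGroup s 5 = ⊤ from J2P.s_top]; exact Subgroup.mem_top g
  unfold letterGroup at hg
  induction hg using Subgroup.closure_induction with
  | mem x hx =>
    obtain ⟨l, hl, rfl⟩ := hx
    rw [J2P.homOf_s _ _ _ l hl]
    exact hσ l hl
  | one => rw [map_one, map_one]
  | mul x y _ _ hx hy => rw [map_mul, map_mul, hx, hy]
  | inv x _ hx => rw [map_inv, map_inv, hx]

end final

end Cfsg.Agent.H8.J2M
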