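import Cfsg.Agent.H8.J2Mult
import Cfsg.Agent.H8.Ico10
import Cfsg.Prelude.Def_KGroupFacts

/-!
# The Schur multiplier of `J₂`
-/

set_option Elab.async false
set_option autoImplicit false
set_option linter.all false
set_option maxRecDepth 100000
set_option maxHeartbeats 1000000

namespace Cfsg.Agent.H8.J2M

open Cfsg.Agent.H8.CE
open Cfsg.Agent.H8.J2P (J s)

/-- the two conjugates of `e` by `x` commute. -/
theorem e12 : (J2P.x * s 4 * J2P.x⁻¹) * (J2P.x⁻¹ * s 4 * J2P.x) = (J2P.x⁻¹ * s 4 * J2P.x) * (J2P.x * s 4 * J2P.x⁻¹) := by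
  have h := weq ((J2P.xw ++ [4] ++ J2P.xw.reverse) ++ (J2P.xw.reverse ++ [4] ++ J2P.xw))
    ((J2P.xw.reverse ++ [4] ++ J2P.xw) ++ (J2P.xw ++ [4] ++ J2P.xw.reverse)) (by decide) (by decide +kernel)
  simp only [List.map_append, List.prod_append, List.map_singleton, List.prod_singleton, ← word_inv s J2P.s_inv] at h
  exact h

section

variable {Γ : Type*} [Group Γ] (σ : Γ →* J) (hs : Function.Surjective σ) (hc : σ.ker ≤ Subgroup.center Γ)

include hc in
theorem K_congr2 (x y x' y' : Γ) (hx : σ x = σ x') (hy : σ y = σ y') : K x y = K x' y' := by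
  rw [K_congr σ hc x y y' hy, ← K_inv, K_congr σ hc y' x x' hx, K_inv]

include hs hc in
theorem main_bound (hst : σ.ker ≤ commutator Γ) : ∃ t ∈ σ.ker, t * t = 1 ∧ ∀ z ∈ σ.ker, z = 1 ∨ z = t := by
  obtain ⟨X0, hX0⟩ := hs J2P.x
  obtain ⟨E0, hE0⟩ := hs (s 4)
  set t := K (X0 * E0 * X0⁻¹) (X0⁻¹ * E0 * X0) with ht
  have hcomm : σ (X0 * E0 * X0⁻¹) * σ (X0⁻¹ * E0 * X0) = σ (X0⁻¹ * E0 * X0) * σ (X0 * E0 * X0⁻¹) := by
    simp only [map_mul, map_inv, hX0, hE0]; exact e12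
  have htk : σ t = 1 := K_ker σ _ _ hcomm
  have ht2 : t * t = 1 := K_sq σ hc _ _ (by
    simp only [map_mul, map_inv, hX0, hE0]
    calc J2P.x * s 4 * J2P.x⁻¹ * (J2P.x * s 4 * J2P.x⁻¹) = J2P.x * (s 4 * s 4) * J2P.x⁻¹ := by group
      _ = 1 := by rw [J2P.sq]; group) hcomm
  refine ⟨t, MonoidHom.mem_ker.2 htk, ht2, ?_⟩
  have hct : ∀ g, g * t = t * g := fun g => cen σ hc t htk g
  haveI hN : (Subgroup.zpowers t).Normal := by
    constructor
    intro n hn g
    obtain ⟨k, rfl⟩ := Subgroup.mem_zpowers_iff.1 hn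
    have : g * t ^ k * g⁻¹ = t ^ k := by
      have h : Commute g t := hct g
      rw [(h.zpow_right k).eq]; group
    rw [this]
    exact Subgroup.zpow_mem_zpowers t k
  have hle : Subgroup.zpowers t ≤ σ.ker := by
    rw [Subgroup.zpowers_le]; exact MonoidHom.mem_ker.2 htk
  let σ1 : Γ ⧸ Subgroup.zpowers t →* J := QuotientGroup.lift (Subgroup.zpowers t) σ hle
  have hσ1 : ∀ g : Γ, σ1 (QuotientGroup.mk g) = σ g := fun g => rfl
  have hs1 : Function.Surjective σ1 := by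
    intro j
    obtain ⟨g, hg⟩ := hs j
    exact ⟨QuotientGroup.mk g, hg⟩
  have hc1 : σ1.ker ≤ Subgroup.center (Γ ⧸ Subgroup.zpowers t) := by
    intro g hg
    obtain ⟨g, rfl⟩ := QuotientGroup.mk_surjective g
    rw [Subgroup.mem_center_iff]
    intro h
    obtain ⟨h, rfl⟩ := QuotientGroup.mk_surjective h
    have h1 := cen σ hc g (MonoidHom.mem_ker.1 hg) h
    rw [← QuotientGroup.mk_mul, h1, QuotientGroup.mk_mul]
  have hst1 : σ1.ker ≤ commutator (Γ ⧸ Subgroup.zpowers t) := by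
    intro g hg
    obtain ⟨g, rfl⟩ := QuotientGroup.mk_surjective g
    have h1 : g ∈ commutator Γ := hst (MonoidHom.mem_ker.2 (MonoidHom.mem_ker.1 hg))
    have h2 : QuotientGroup.mk' (Subgroup.zpowers t) g ∈ (commutator Γ).map (QuotientGroup.mk' (Subgroup.zpowers t)) :=
      Subgroup.mem_map_of_mem _ h1
    rw [commutator_def, Subgroup.map_commutator] at h2
    exact Subgroup.commutator_mono le_top le_top h2
  have hK1 : ∀ X E, σ1 X = J2P.x → σ1 E = s 4 →
      (X * E * X⁻¹) * (X⁻¹ * E * X) = (X⁻¹ * E * X) * (X * E * X⁻¹) := by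
    intro X E hX hE
    obtain ⟨X, rfl⟩ := QuotientGroup.mk_surjective X
    obtain ⟨E, rfl⟩ := QuotientGroup.mk_surjective E
    rw [hσ1] at hX hE
    apply comm_of_K
    have e : K (X * E * X⁻¹) (X⁻¹ * E * X) = t := by
      apply K_congr2 σ hc
      · simp only [map_mul, map_inv, hX, hE, hX0, hE0]
      · simp only [map_mul, map_inv, hX, hE, hX0, hE0]
    have e2 : (K (((X : Γ) : Γ ⧸ Subgroup.zpowers t) * ((E : Γ) : Γ ⧸ Subgroup.zpowers t) * ((X : Γ) : Γ ⧸ Subgroup.zpowers t)⁻¹)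
        (((X : Γ) : Γ ⧸ Subgroup.zpowers t)⁻¹ * ((E : Γ) : Γ ⧸ Subgroup.zpowers t) * ((X : Γ) : Γ ⧸ Subgroup.zpowers t))) =
        ((K (X * E * X⁻¹) (X⁻¹ * E * X) : Γ) : Γ ⧸ Subgroup.zpowers t) := rfl
    rw [e2, e, QuotientGroup.eq_one_iff]
    exact Subgroup.mem_zpowers t
  have hb := ker_bot σ1 hs1 hc1 hst1 hK1
  intro z hz
  have h1 : ((z : Γ) : Γ ⧸ Subgroup.zpowers t) ∈ σ1.ker := MonoidHom.mem_ker.2 (MonoidHom.mem_ker.1 hz)
  rw [hb, Subgroup.mem_bot, QuotientGroup.eq_one_iff] at h1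
  obtain ⟨k, rfl⟩ := Subgroup.mem_zpowers_iff.1 h1
  rcases Int.even_or_odd' k with ⟨m, rfl | rfl⟩
  · left
    rw [zpow_mul]
    have : t ^ (2 : ℤ) = 1 := by rw [zpow_ofNat, pow_two, ht2]
    rw [this, one_zpow]
  · right
    rw [zpow_add, zpow_mul]
    have : t ^ (2 : ℤ) = 1 := by rw [zpow_ofNat, pow_two, ht2]
    rw [this, one_zpow, one_mul, zpow_one]

end

theorem exists_surj {A : Type*} [Group A] (t : A) (ht : t * t = 1) (h : ∀ z : A, z = 1 ∨ z = t) :
    ∃ π : Multiplicative (ZMod 2) →* A, Function.Surjective π := by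
  have hpow : t ^ 2 = 1 := by rw [pow_two, ht]
  refine ⟨{ toFun := fun a => t ^ (Multiplicative.toAdd a).val, map_one' := ?_, map_mul' := ?_ }, ?_⟩
  · show t ^ (0 : ZMod 2).val = 1
    rw [ZMod.val_zero, pow_zero]
  · intro a b
    show t ^ ((Multiplicative.toAdd a) + (Multiplicative.toAdd b)).val = _
    rw [ZMod.val_add, ← pow_eq_pow_mod _ hpow, pow_add]
  · intro z
    rcases h z with rfl | rfl
    · exact ⟨1, by show t ^ (0 : ZMod 2).val = 1; rw [ZMod.val_zero, pow_zero]⟩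
    · refine ⟨Multiplicative.ofAdd 1, ?_⟩
      show z ^ (1 : ZMod 2).val = z
      have : (1 : ZMod 2).val = 1 := rfl
      rw [this, pow_one]

theorem schur : Cfsg.HasCyclicSchurMultiplier Cfsg.Spor.J2 2 := by
  refine ⟨⟨↥Cfsg.Spor.twoJ2, inferInstance, Nat.finite_of_card_ne_zero (by rw [Ico.card_twoJ2]; decide),
    QuotientGroup.mk' (Subgroup.center ↥Cfsg.Spor.twoJ2), ⟨QuotientGroup.mk'_surjective _, ?_, ?_⟩, ?_⟩, ?_⟩
  · rw [QuotientGroup.ker_mk']
  · rw [QuotientGroup.ker_mk']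
    intro z hz
    rcases Ico.center_cases hz with rfl | rfl
    · exact one_mem _
    · exact Ico.negL_commutator
  · haveI : Fact (Nat.Prime 2) := ⟨Nat.prime_two⟩
    refine ⟨mulEquivOfPrimeCardEq (p := 2) ?_ ?_⟩
    · rw [QuotientGroup.ker_mk']; exact Ico.card_center
    · rw [Nat.card_eq_of_bijective _ Multiplicative.toAdd.bijective, Nat.card_zmod]
  · intro Γ _ _ σ hσ
    obtain ⟨h1, h2, h3⟩ := hσ
    have hker : (Ico.iso.symm.toMonoidHom.comp σ).ker = σ.ker := by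
      ext g
      rw [MonoidHom.mem_ker, MonoidHom.mem_ker, MonoidHom.comp_apply]
      exact map_eq_one_iff Ico.iso.symm.toMonoidHom Ico.iso.symm.injective
    obtain ⟨t, ht, ht2, hz⟩ := main_bound (Ico.iso.symm.toMonoidHom.comp σ) (Ico.iso.symm.surjective.comp h1)
      (by rw [hker]; exact h2) (by rw [hker]; exact h3)
    rw [hker] at ht hz
    exact exists_surj (⟨t, ht⟩ : σ.ker) (Subtype.ext ht2) (by
      rintro ⟨z, hz'⟩
      rcases hz z hz' with h | h
      · left; exact Subtype.ext h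
      · right; exact Subtype.ext h)

end Cfsg.Agent.H8.J2M
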