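import Cfsg.Agent.H15.StemRed

/-!
# Central extensions by a group of prime order: odd primes with explicit Sylow data
-/

set_option Elab.async false
set_option autoImplicit false
set_option linter.all false
set_option maxHeartbeats 1000000

namespace Cfsg.Agent.H8.PO

open Cfsg.Agent.H15.PExtN

variable {E G : Type*} [Group E] [Group G] {p : ℕ} {τ : E →* G} {z : E}

theorem key (h : PExt p τ z) (hp : p.Prime) (U V g : E) (r i s : ℕ)
    (h1 : τ g * τ U * (τ g)⁻¹ = τ U ^ r * τ V ^ i) (h2 : τ g * τ V * (τ g)⁻¹ = τ V ^ s)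
    (hcm : τ U * τ V = τ V * τ U) (hrs : ¬ (p : ℤ) ∣ (r * s : ℤ) - 1) : U * V = V * U := by
  obtain ⟨a, ha⟩ := h.eq_mul (x := U * V) (y := V * U) (by rw [map_mul, map_mul, hcm])
  have zc : ∀ (n : ℤ) (x : E), x * z ^ n = z ^ n * x := h.centz
  have hU : ∀ m : ℕ, U ^ m * V = V * U ^ m * z ^ (a * m) := by
    intro m
    induction m with
    | zero => simp
    | succ m ih =>
      rw [pow_succ, mul_assoc, ha]
      calc U ^ m * (V * U * z ^ a) = (U ^ m * V) * (U * z ^ a) := by simp only [mul_assoc]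
        _ = V * U ^ m * (z ^ (a * m) * U) * z ^ a := by rw [ih]; simp only [mul_assoc]
        _ = V * U ^ m * (U * z ^ (a * m)) * z ^ a := by rw [zc (a * m) U]
        _ = V * (U ^ m * U) * z ^ (a * ((m + 1 : ℕ) : ℤ)) := by
          push_cast
          rw [mul_add, mul_one, zpow_add]
          simp only [mul_assoc]
  have hUV : ∀ m n : ℕ, U ^ m * V ^ n = V ^ n * U ^ m * z ^ (a * m * n) := by
    intro m n
    induction n with
    | zero => simp
    | succ n ih =>
      rw [pow_succ]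
      calc U ^ m * (V ^ n * V) = (U ^ m * V ^ n) * V := by simp only [mul_assoc]
        _ = V ^ n * U ^ m * (z ^ (a * m * n) * V) := by rw [ih]; simp only [mul_assoc]
        _ = V ^ n * (U ^ m * V) * z ^ (a * m * n) := by rw [← zc (a * m * n) V]; simp only [mul_assoc]
        _ = V ^ n * V * U ^ m * (z ^ (a * m) * z ^ (a * m * n)) := by rw [hU]; simp only [mul_assoc]
        _ = V ^ n * V * U ^ m * z ^ (a * m * ((n + 1 : ℕ) : ℤ)) := by
          rw [← zpow_add]
          congr 2
          push_cast; ring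
  obtain ⟨m', hm⟩ := h.eq_mul (x := g * U * g⁻¹) (y := U ^ r * V ^ i) (by
    rw [map_mul, map_mul, map_inv, map_mul, map_pow, map_pow, h1])
  obtain ⟨n', hn⟩ := h.eq_mul (x := g * V * g⁻¹) (y := V ^ s) (by
    rw [map_mul, map_mul, map_inv, map_pow, h2])
  have e1 : (g * U * g⁻¹) * (g * V * g⁻¹) = (g * V * g⁻¹) * (g * U * g⁻¹) * z ^ a := by
    calc (g * U * g⁻¹) * (g * V * g⁻¹) = g * (U * V) * g⁻¹ := by group
      _ = g * (V * U) * (z ^ a * g⁻¹) := by rw [ha]; simp only [mul_assoc]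
      _ = g * (V * U) * g⁻¹ * z ^ a := by rw [← zc a g⁻¹]; simp only [mul_assoc]
      _ = _ := by group
  rw [hm, hn] at e1
  have e2 : U ^ r * V ^ i * z ^ m' * (V ^ s * z ^ n') = V ^ s * U ^ r * V ^ i * (z ^ (a * r * s) * (z ^ m' * z ^ n')) := by
    calc U ^ r * V ^ i * z ^ m' * (V ^ s * z ^ n') = U ^ r * V ^ i * (z ^ m' * V ^ s) * z ^ n' := by simp only [mul_assoc]
      _ = U ^ r * (V ^ i * V ^ s) * (z ^ m' * z ^ n') := by rw [← zc m' (V ^ s)]; simp only [mul_assoc]
      _ = (U ^ r * V ^ s) * V ^ i * (z ^ m' * z ^ n') := by rw [← pow_add, add_comm, pow_add]; simp only [mul_assoc]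
      _ = V ^ s * U ^ r * (z ^ (a * r * s) * V ^ i) * (z ^ m' * z ^ n') := by rw [hUV]; simp only [mul_assoc]
      _ = _ := by rw [← zc (a * r * s) (V ^ i)]; simp only [mul_assoc]
  have e3 : V ^ s * z ^ n' * (U ^ r * V ^ i * z ^ m') * z ^ a = V ^ s * U ^ r * V ^ i * (z ^ a * (z ^ m' * z ^ n')) := by
    calc V ^ s * z ^ n' * (U ^ r * V ^ i * z ^ m') * z ^ a = V ^ s * (z ^ n' * (U ^ r * V ^ i)) * (z ^ m' * z ^ a) := by simp only [mul_assoc]
      _ = V ^ s * (U ^ r * V ^ i) * (z ^ n' * (z ^ m' * z ^ a)) := by rw [← zc n' (U ^ r * V ^ i)]; simp only [mul_assoc]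
      _ = _ := by
        have : z ^ n' * (z ^ m' * z ^ a) = z ^ a * (z ^ m' * z ^ n') := by
          rw [← zpow_add, ← zpow_add, ← zpow_add, ← zpow_add]; congr 1; ring
        rw [this]; simp only [mul_assoc]
  rw [e2, e3] at e1
  have e4 : z ^ (a * r * s) = z ^ a := mul_right_cancel (mul_left_cancel e1)
  have e5 : z ^ (a * r * s - a) = 1 := by rw [zpow_sub, e4, mul_inv_cancel]
  have e6 : (p : ℤ) ∣ a * ((r * s : ℤ) - 1) := by
    have := (h.zpow_eq_one_iff _).1 e5
    rwa [show a * (r : ℤ) * s - a = a * ((r * s : ℤ) - 1) by ring] at this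
  have e7 : (p : ℤ) ∣ a := by
    rcases (Nat.prime_iff_prime_int.1 hp).dvd_or_dvd e6 with h3 | h3
    · exact h3
    · exact absurd h3 hrs
  rw [ha, (h.zpow_eq_one_iff a).2 e7, mul_one]

theorem comm_closure (S : Set E) (C : E) (hC : ∀ s ∈ S, s * C = C * s)
    (hS : ∀ s ∈ S, ∀ t ∈ S, ∃ k : ℤ, s * t = C ^ k * (t * s)) :
    ∀ g ∈ Subgroup.closure S, ∀ g' ∈ Subgroup.closure S, ∃ k : ℤ, g * g' = C ^ k * (g' * g) := by
  have hcc : ∀ g ∈ Subgroup.closure S, ∀ k : ℤ, g * C ^ k = C ^ k * g := by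
    have h : Subgroup.closure S ≤ Subgroup.centralizer ({C} : Set E) := by
      rw [Subgroup.closure_le]
      intro s hs
      exact Subgroup.mem_centralizer_singleton_iff.2 (hC s hs)
    intro g hg k
    have hgC : Commute g C := Subgroup.mem_centralizer_singleton_iff.1 (h hg)
    exact hgC.zpow_right k
  have right : ∀ g, (∀ k : ℤ, g * C ^ k = C ^ k * g) → (∀ t ∈ S, ∃ k : ℤ, g * t = C ^ k * (t * g)) →
      ∀ g' ∈ Subgroup.closure S, ∃ k : ℤ, g * g' = C ^ k * (g' * g) := by
    intro g hgC hg g' hg'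
    have k2 : g' ∈ Subgroup.closure S ∧ ∃ k : ℤ, g * g' = C ^ k * (g' * g) := by
      induction hg' using Subgroup.closure_induction with
      | mem t ht => exact ⟨Subgroup.subset_closure ht, hg t ht⟩
      | one => exact ⟨Subgroup.one_mem _, 0, by simp⟩
      | mul a b _ _ ha hb =>
        obtain ⟨ha0, k, ha⟩ := ha
        obtain ⟨hb0, l, hb⟩ := hb
        refine ⟨Subgroup.mul_mem _ ha0 hb0, k + l, ?_⟩
        calc g * (a * b) = (g * a) * b := by rw [mul_assoc]
          _ = C ^ k * a * (g * b) := by rw [ha]; simp only [mul_assoc]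
          _ = C ^ k * (a * C ^ l) * (b * g) := by rw [hb]; simp only [mul_assoc]
          _ = _ := by rw [hcc a ha0 l, zpow_add]; simp only [mul_assoc]
      | inv a _ ha =>
        obtain ⟨ha0, k, ha⟩ := ha
        refine ⟨Subgroup.inv_mem _ ha0, -k, ?_⟩
        have e : a * g = C ^ (-k) * (g * a) := by rw [ha, zpow_neg, inv_mul_cancel_left]
        calc g * a⁻¹ = a⁻¹ * (a * g) * a⁻¹ := by group
          _ = (a⁻¹ * C ^ (-k)) * g := by rw [e]; group
          _ = _ := by rw [hcc a⁻¹ (Subgroup.inv_mem _ ha0) (-k), mul_assoc]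
    exact k2.2
  intro g hg
  apply right g (hcc g hg)
  intro t ht
  obtain ⟨k, hk⟩ := right t (hcc t (Subgroup.subset_closure ht)) (fun s hs => hS t ht s hs) g hg
  exact ⟨-k, by rw [hk, zpow_neg, inv_mul_cancel_left]⟩

theorem odd_main [Finite E] (h : PExt p τ z) (hp : p.Prime) (x y c : G) (hx : x ^ p = 1) (hcp : c ^ p = 1)
    (hxy : x * y = c * (y * x)) (hxc : x * c = c * x) (hyc : y * c = c * y)
    (hidx : (Subgroup.closure ({x, y} : Set G)).index.Coprime p)
    (k1 : ∀ X C, τ X = x → τ C = c → X * C = C * X) (k2 : ∀ Y C, τ Y = y → τ C = c → Y * C = C * Y)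
    (k3 : c = 1 → ∀ X Y, τ X = x → τ Y = y → X * Y = Y * X) : z ∉ commutator E := by
  intro hz
  haveI : Fact p.Prime := ⟨hp⟩
  obtain ⟨X, hX⟩ := h.surj x
  obtain ⟨Y, hY⟩ := h.surj y
  set C := X * Y * X⁻¹ * Y⁻¹ with hCd
  have hC : τ C = c := by
    rw [hCd, map_mul, map_mul, map_mul, map_inv, map_inv, hX, hY, hxy]; group
  have cXC := k1 X C hX hC
  have cYC := k2 Y C hY hC
  have hXY : X * Y = C * (Y * X) := by rw [hCd]; group
  set H := (Subgroup.closure ({x, y} : Set G)).comap τ with hH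
  have hHi : H.index.Coprime p := by rw [hH, Subgroup.index_comap_of_surjective _ h.surj]; exact hidx
  have hz2 := h.mem_comm_of_index hp hz H hHi
  have hHc : H ≤ Subgroup.closure ({X, Y, z} : Set E) := by
    intro g hg
    have hg' : τ g ∈ (Subgroup.closure ({X, Y} : Set E)).map τ := by
      rw [MonoidHom.map_closure, Set.image_pair, hX, hY]; exact hg
    obtain ⟨w, hw, hwg⟩ := hg'
    obtain ⟨n, hn⟩ := h.eq_mul (x := g) (y := w) hwg.symm
    rw [hn]
    apply Subgroup.mul_mem
    · exact Subgroup.closure_mono (by intro t ht; rcases ht with rfl | rfl <;> simp) hw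
    · apply Subgroup.zpow_mem
      exact Subgroup.subset_closure (by simp)
  have hzC : z ∈ Subgroup.zpowers C := by
    have hle : ⁅H, H⁆ ≤ Subgroup.zpowers C := by
      rw [Subgroup.commutator_le]
      intro g hg g' hg'
      obtain ⟨k, hk⟩ := comm_closure ({X, Y, z} : Set E) C (by
        rintro s (rfl | rfl | rfl)
        · exact cXC
        · exact cYC
        · exact (h.cent C).symm) (by
        rintro s (rfl | rfl | rfl) t (rfl | rfl | rfl)
        · exact ⟨0, by simp⟩
        · exact ⟨1, by rw [zpow_one]; exact hXY⟩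
        · exact ⟨0, by rw [zpow_zero, one_mul]; exact h.cent _⟩
        · exact ⟨-1, by rw [zpow_neg, zpow_one, hXY, inv_mul_cancel_left]⟩
        · exact ⟨0, by simp⟩
        · exact ⟨0, by rw [zpow_zero, one_mul]; exact h.cent _⟩
        · exact ⟨0, by rw [zpow_zero, one_mul]; exact (h.cent _).symm⟩
        · exact ⟨0, by rw [zpow_zero, one_mul]; exact (h.cent _).symm⟩
        · exact ⟨0, by simp⟩) g (hHc hg) g' (hHc hg')
      rw [commutatorElement_def, hk]
      refine ⟨k, ?_⟩
      change C ^ k = _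
      group
    exact hle hz2
  obtain ⟨m, hm⟩ := hzC
  have hm' : C ^ m = z := hm
  have hCp : C ^ p = 1 := by
    have hm1 : ∀ m : ℕ, X ^ m * Y = C ^ m * (Y * X ^ m) := by
      intro m
      induction m with
      | zero => simp
      | succ m ih =>
        have hXCm : X * C ^ m = C ^ m * X := by
          have : Commute X C := cXC
          exact this.pow_right m
        calc X ^ (m + 1) * Y = X * (X ^ m * Y) := by rw [pow_succ', mul_assoc]
          _ = (X * C ^ m) * (Y * X ^ m) := by rw [ih, mul_assoc]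
          _ = C ^ m * (X * Y) * X ^ m := by rw [hXCm]; simp only [mul_assoc]
          _ = C ^ m * C * (Y * (X * X ^ m)) := by rw [hXY]; simp only [mul_assoc]
          _ = _ := by rw [← pow_succ, ← pow_succ']
    obtain ⟨n, hn⟩ := h.eq_zpow (x := X ^ p) (by rw [map_pow, hX, hx])
    have e1 := hm1 p
    rw [hn, h.centz n Y] at e1
    have e2 : C ^ p * (z ^ n * Y) = 1 * (z ^ n * Y) := by rw [one_mul]; exact e1.symm
    exact mul_right_cancel e2
  have hz1 : z ≠ 1 := h.ne_one hp
  by_cases hc1 : c = 1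
  · have hcomm := k3 hc1 X Y hX hY
    have : C = 1 := by
      have h3 : X * Y = C * (X * Y) := by
        calc X * Y = C * (Y * X) := hXY
          _ = C * (X * Y) := by rw [← hcomm]
      exact (mul_right_cancel (show 1 * (X * Y) = C * (X * Y) by rw [one_mul]; exact h3)).symm
    rw [this, one_zpow] at hm'
    exact hz1 hm'.symm
  · have ho : orderOf c = p := orderOf_eq_prime hcp hc1
    have h4 : c ^ m = 1 := by
      rw [← hC, ← map_zpow, hm', h.tz]
    have h5 : (p : ℤ) ∣ m := by rw [← ho]; exact orderOf_dvd_iff_zpow_eq_one.2 h4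
    obtain ⟨q, rfl⟩ := h5
    rw [zpow_mul, zpow_natCast, hCp, one_zpow] at hm'
    exact hz1 hm'.symm

end Cfsg.Agent.H8.PO
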