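import Cfsg.Agent.H8.CosetCls
import Cfsg.Agent.H8.F4Vec

/-!
# Checks for block actions and matrices over `F4` in dimension four
-/

set_option autoImplicit false
set_option linter.all false

namespace Cfsg.Agent.H8

/-- for points of class two, the block label is mapped by the permutation `P`. -/
noncomputable def ckBl (C bl P : Nat → Nat) (fs : List (Nat → Nat)) (i : Nat) : Bool :=
  @Bool.rec (fun _ => Bool) true
    (force (P (bl i)) fun b => trT fs (fun j => Nat.beq (bl j) b) i) (Nat.beq (C i) (nat_lit 2))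

theorem ckBl_sound (C bl P : Nat → Nat) (T : Nat → Nat → Nat) (w : List Nat) (i : Nat)
    (h : ckBl C bl P (w.map T) i = true) (hi : C i = 2) : bl (trN T w i) = P (bl i) := by
  unfold ckBl at h
  have h2 : Nat.beq (C i) 2 = true := by rw [hi]; rfl
  have h3 : @Bool.rec (fun _ => Bool) true
    (force (P (bl i)) fun b => trT (w.map T) (fun j => Nat.beq (bl j) b) i) (Nat.beq (C i) (nat_lit 2)) = true := h
  have h4 : (Nat.beq (C i) (nat_lit 2)) = true := h2
  rw [h4] at h3
  have h5 : (force (P (bl i)) fun b => trT (w.map T) (fun j => Nat.beq (bl j) b) i) = true := h3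
  rw [force_eq, trT_eq] at h5
  exact Nat.eq_of_beq_eq_true h5

/-- representatives of the blocks. -/
noncomputable def ckRoot (C bl rt : Nat → Nat) (p : Nat) : Bool :=
  force (rt p) fun i => @Bool.rec (fun _ => Bool) false
    (@Bool.rec (fun _ => Bool) false (Nat.ble (Nat.succ i) (nat_lit 2058)) (Nat.beq (bl i) p)) (Nat.beq (C i) (nat_lit 2))

theorem ckRoot_sound (C bl rt : Nat → Nat) (p : Nat) (h : ckRoot C bl rt p = true) :
    C (rt p) = 2 ∧ bl (rt p) = p ∧ rt p < 2058 := by
  unfold ckRoot at h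
  rw [force_eq] at h
  cases h1 : Nat.beq (C (rt p)) (nat_lit 2)
  · rw [h1] at h; exact absurd (show false = true from h) Bool.false_ne_true
  rw [h1] at h
  cases h2 : Nat.beq (bl (rt p)) p
  · rw [h2] at h; exact absurd (show false = true from h) Bool.false_ne_true
  rw [h2] at h
  exact ⟨Nat.eq_of_beq_eq_true h1, Nat.eq_of_beq_eq_true h2, Nat.le_of_ble_eq_true h⟩

noncomputable def F4id (a : F4) : F4 := a
noncomputable def F4sq (a : F4) : F4 := F4.mul' a a

/-- a row of a matrix applied to a vector. -/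
noncomputable def rowE (f : F4 → F4) (m c k : Nat) : F4 :=
  force (Nat.mul (nat_lit 4) k) fun q =>
  F4.add' (F4.mul' (comp m q) (f (comp c (nat_lit 0))))
    (F4.add' (F4.mul' (comp m (Nat.add q (nat_lit 1))) (f (comp c (nat_lit 1))))
      (F4.add' (F4.mul' (comp m (Nat.add q (nat_lit 2))) (f (comp c (nat_lit 2))))
        (F4.mul' (comp m (Nat.add q (nat_lit 3))) (f (comp c (nat_lit 3))))))

noncomputable def ckRow (f : F4 → F4) (m c c' : Nat) (a : F4) : Bool :=
  band (F4.beq' (rowE f m c (nat_lit 0)) (F4.mul' a (comp c' (nat_lit 0))))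
    (band (F4.beq' (rowE f m c (nat_lit 1)) (F4.mul' a (comp c' (nat_lit 1))))
      (band (F4.beq' (rowE f m c (nat_lit 2)) (F4.mul' a (comp c' (nat_lit 2))))
        (F4.beq' (rowE f m c (nat_lit 3)) (F4.mul' a (comp c' (nat_lit 3))))))

noncomputable def ckMv (f : F4 → F4) (m : Nat) (vc P : Nat → Nat) (p : Nat) : Bool :=
  force (vc p) fun c => force (vc (P p)) fun c' =>
    @Bool.rec (fun _ => Bool) (@Bool.rec (fun _ => Bool) (ckRow f m c c' F4.v) true (ckRow f m c c' F4.w))
      true (ckRow f m c c' F4.o)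

/-- index of a coordinate. -/
def ixS : Fin 2 ⊕ Fin 2 → Nat := Sum.elim (fun k => k) (fun k => 2 + k)

/-- the vector of a code. -/
noncomputable def vecS (c : Nat) : Fin 2 ⊕ Fin 2 → F4 := fun k => comp c (ixS k)

/-- the matrix of a code. -/
noncomputable def matS (m : Nat) : Matrix (Fin 2 ⊕ Fin 2) (Fin 2 ⊕ Fin 2) F4 := fun i j => comp m (4 * ixS i + ixS j)

theorem row_eq (f : F4 → F4) (m c : Nat) (k : Fin 2 ⊕ Fin 2) :
    (matS m).mulVec (fun j => f (vecS c j)) k = rowE f m c (ixS k) := by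
  unfold rowE
  rw [force_eq]
  simp only [Matrix.mulVec, dotProduct, Fintype.sum_sum_type, Fin.sum_univ_two]
  rw [add_assoc]
  rfl

theorem ckMv_sound (f : F4 → F4) (m : Nat) (vc P : Nat → Nat) (p : Nat) (h : ckMv f m vc P p = true) :
    ∃ a : F4, a ≠ 0 ∧ (matS m).mulVec (fun j => f (vecS (vc p) j)) = a • vecS (vc (P p)) := by
  have key : ∀ a, ckRow f m (vc p) (vc (P p)) a = true →
      (matS m).mulVec (fun j => f (vecS (vc p) j)) = a • vecS (vc (P p)) := by
    intro a h
    unfold ckRow at h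
    rw [band_eq_true, band_eq_true, band_eq_true] at h
    obtain ⟨h0, h1, h2, h3⟩ := h
    funext k
    rw [row_eq]
    rcases k with k | k <;> fin_cases k
    · exact F4.eq_of_beq' h0
    · exact F4.eq_of_beq' h1
    · exact F4.eq_of_beq' h2
    · exact F4.eq_of_beq' h3
  unfold ckMv at h
  rw [force_eq, force_eq] at h
  cases h1 : ckRow f m (vc p) (vc (P p)) F4.o
  · rw [h1] at h
    cases h2 : ckRow f m (vc p) (vc (P p)) F4.w
    · rw [h2] at h
      exact ⟨F4.v, by decide, key _ h⟩
    · exact ⟨F4.w, by decide, key _ h2⟩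
  · exact ⟨F4.o, by decide, key _ h1⟩

/-! ### Symplectic matrices -/

/-- one entry of the symplectic condition. -/
noncomputable def ckSpE (m i j : Nat) : Bool :=
  force (Nat.mul (nat_lit 4) i) fun p => force (Nat.mul (nat_lit 4) j) fun q =>
  F4.beq' (F4.add' (F4.mul' (comp m p) (comp m (Nat.add q (nat_lit 2))))
    (F4.add' (F4.mul' (comp m (Nat.add p (nat_lit 1))) (comp m (Nat.add q (nat_lit 3))))
      (F4.add' (F4.mul' (comp m (Nat.add p (nat_lit 2))) (comp m q))
        (F4.mul' (comp m (Nat.add p (nat_lit 3))) (comp m (Nat.add q (nat_lit 1)))))))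
    (@Bool.rec (fun _ => F4) (@Bool.rec (fun _ => F4) F4.z F4.o (Nat.beq j (Nat.add i (nat_lit 2)))) F4.o
      (Nat.beq i (Nat.add j (nat_lit 2))))

noncomputable def ckSp (m : Nat) : Bool :=
  allR (fun i => allR (fun j => ckSpE m i j) (nat_lit 0) (nat_lit 4)) (nat_lit 0) (nat_lit 4)

theorem mulJ (M : Matrix (Fin 2 ⊕ Fin 2) (Fin 2 ⊕ Fin 2) F4) (i j : Fin 2 ⊕ Fin 2) :
    (M * Matrix.J (Fin 2) F4 * M.transpose) i j =
      M i (Sum.inl 0) * M j (Sum.inr 0) + (M i (Sum.inl 1) * M j (Sum.inr 1) +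
        (M i (Sum.inr 0) * M j (Sum.inl 0) + M i (Sum.inr 1) * M j (Sum.inl 1))) := by
  have hn : ∀ a : F4, -a = a := fun a => rfl
  simp only [Matrix.mul_apply, Matrix.J, Matrix.transpose_apply, Fintype.sum_sum_type, Fin.sum_univ_two,
    Matrix.fromBlocks_apply₁₁, Matrix.fromBlocks_apply₁₂, Matrix.fromBlocks_apply₂₁, Matrix.fromBlocks_apply₂₂,
    Matrix.zero_apply, Matrix.neg_apply, Matrix.one_apply, hn]
  simp
  ring

theorem ckSp_sound (m : Nat) (h : ckSp m = true) : matS m ∈ Matrix.symplecticGroup (Fin 2) F4 := by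
  have h1 : ∀ i < 4, ∀ j < 4, ckSpE m i j = true := by
    intro i hi j hj
    exact allR_zero _ _ (allR_zero _ _ h i hi) j hj
  have hn : ∀ a : F4, -a = a := fun a => rfl
  rw [SymplecticGroup.mem_iff]
  ext i j
  rw [mulJ]
  have h2 : ∀ i j : Fin 2 ⊕ Fin 2, ckSpE m (ixS i) (ixS j) = true := by
    intro i j
    apply h1
    · rcases i with i | i <;> fin_cases i <;> decide
    · rcases j with j | j <;> fin_cases j <;> decide
  have h3 := h2 i j
  unfold ckSpE at h3
  rw [force_eq, force_eq] at h3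
  have h4 := F4.eq_of_beq' h3
  refine Eq.trans h4 ?_
  simp only [Matrix.J]
  rcases i with i | i <;> rcases j with j | j <;> fin_cases i <;> fin_cases j <;> rfl

end Cfsg.Agent.H8
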