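import Cfsg.Agent.H8.OutTool2
import Cfsg.Agent.H5.SpOrder

/-!
# Two matrices generating `Sp(6,2)`
-/

set_option Elab.async false
set_option autoImplicit false
set_option linter.all false
set_option maxRecDepth 100000
set_option maxHeartbeats 1000000

namespace Cfsg.Agent.H8.Sp6

open Matrix
open Cfsg.Agent.H8

abbrev V6 := Fin 3 ⊕ Fin 3 → ZMod 2
abbrev SP := ↥(Matrix.symplecticGroup (Fin 3) (ZMod 2))
abbrev Mt6 := Matrix (Fin 3 ⊕ Fin 3) (Fin 3 ⊕ Fin 3) (ZMod 2)

def cd : Fin 3 ⊕ Fin 3 → ℕ := Sum.elim (fun j => (j : ℕ)) (fun j => (j : ℕ) + 3)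

def matOf (r : List ℕ) : Mt6 := fun i j => (((r.getD (cd i) 0) >>> (cd j)) % 2 : ℕ)

noncomputable def LT0c0 : Nat := nat_lit 0xb7e8b121b1d4833bfc156299689546fecc235c460bca1f6e0d031f9b5a7a39d052af8937d27ee844278de6ada570f4c0
noncomputable def LT0 : Nat → Nat := (fun i => Nat.land (Nat.shiftRight LT0c0 (Nat.mul (nat_lit 6) (Nat.land i (nat_lit 63)))) (nat_lit 63))
noncomputable def LT1c0 : Nat := nat_lit 0xafe8743581d240568fda3f29d60fea4c664c39b111a3d8b7709583eafc259f2b780542de09721d931bbbe6cce67ca540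
noncomputable def LT1 : Nat → Nat := (fun i => Nat.land (Nat.shiftRight LT1c0 (Nat.mul (nat_lit 6) (Nat.land i (nat_lit 63)))) (nat_lit 63))
noncomputable def LT2c0 : Nat := nat_lit 0x9e04d44959a1df00c4085db1ebd3893c8efcaad7997d8aec2ccff8fb928d6dcbe8ba969d5918a58e45d0181cb5cf41c0
noncomputable def LT2 : Nat → Nat := (fun i => Nat.land (Nat.shiftRight LT2c0 (Nat.mul (nat_lit 6) (Nat.land i (nat_lit 63)))) (nat_lit 63))
noncomputable def LT3c0 : Nat := nat_lit 0x75bba8a6f69cdf11020c5c365539a0867494ff930a2cde3e8e54165d192224febcf7b388aed61e7d9b2a047cb4d73180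
noncomputable def LT3 : Nat → Nat := (fun i => Nat.land (Nat.shiftRight LT3c0 (Nat.mul (nat_lit 6) (Nat.land i (nat_lit 63)))) (nat_lit 63))

noncomputable def LT : Nat → Nat → Nat := fun l => (@Nat.rec (fun _ => Nat → Nat) LT0 (fun l _ => (@Nat.rec (fun _ => Nat → Nat) LT1 (fun l _ => (@Nat.rec (fun _ => Nat → Nat) LT2 (fun l _ => LT3) l)) l)) l)
def Linv : Nat → Nat := fun l => [1, 0, 3, 2].getD l 0

def M1 : SP := ⟨matOf [19, 15, 37, 13, 55, 46], SymplecticGroup.mem_iff.2 (by decide +kernel)⟩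
def M1i : SP := ⟨matOf [21, 10, 38, 59, 30, 55], SymplecticGroup.mem_iff.2 (by decide +kernel)⟩
def M2 : SP := ⟨matOf [7, 52, 53, 16, 29, 44], SymplecticGroup.mem_iff.2 (by decide +kernel)⟩
def M2i : SP := ⟨matOf [6, 51, 52, 42, 8, 62], SymplecticGroup.mem_iff.2 (by decide +kernel)⟩

theorem M1_mul : M1 * M1i = 1 := by apply Subtype.ext; decide +kernel
theorem M2_mul : M2 * M2i = 1 := by apply Subtype.ext; decide +kernel

/-- the letters -/
def ls (l : Nat) : SP := if l = 0 then M1 else if l = 1 then M1i else if l = 2 then M2 else M2i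

/-- the vector with a given code -/
def labOf (v : Nat) : V6 := fun j => ((v >>> (cd j)) % 2 : Nat)

/-- codes of vectors -/
def enc (v : V6) : Fin 64 := ⟨(v (Sum.inl 0)).val + 2 * (v (Sum.inl 1)).val + 4 * (v (Sum.inl 2)).val + 8 * (v (Sum.inr 0)).val + 16 * (v (Sum.inr 1)).val + 32 * (v (Sum.inr 2)).val, by
  have h0 := ZMod.val_lt (v (Sum.inl 0))
  have h1 := ZMod.val_lt (v (Sum.inl 1))
  have h2 := ZMod.val_lt (v (Sum.inl 2))
  have h3 := ZMod.val_lt (v (Sum.inr 0))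
  have h4 := ZMod.val_lt (v (Sum.inr 1))
  have h5 := ZMod.val_lt (v (Sum.inr 2))
  omega⟩

theorem enc_labOf : ∀ i : Fin 64, enc (labOf i) = i := by decide +kernel

theorem labOf_inj : Function.Injective (fun i : Fin 64 => labOf i) := fun a b h => by
  have h' := congrArg enc h
  simpa only [enc_labOf] using h'

theorem labOf_bij : Function.Bijective (fun i : Fin 64 => labOf i) := by
  refine (Nat.bijective_iff_injective_and_card _).2 ⟨labOf_inj, ?_⟩
  simp [V6]

theorem labOf_enc (v : V6) : labOf (enc v) = v := by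
  obtain ⟨i, rfl⟩ := labOf_bij.2 v
  exact congrArg (fun j : Fin 64 => labOf j) (enc_labOf i)

noncomputable def eqv : Fin 64 ≃ V6 := Equiv.ofBijective _ labOf_bij

theorem eqv_apply (i : Fin 64) : eqv i = labOf i := rfl

def rmul (g : SP) : Equiv.Perm V6 where
  toFun v := v ᵥ* ((g⁻¹ : SP) : Mt6)
  invFun v := v ᵥ* (g : Mt6)
  left_inv v := by
    change (v ᵥ* ((g⁻¹ : SP) : Mt6)) ᵥ* (g : Mt6) = v
    rw [Matrix.vecMul_vecMul, ← Submonoid.coe_mul, inv_mul_cancel, Submonoid.coe_one, Matrix.vecMul_one]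
  right_inv v := by
    change (v ᵥ* (g : Mt6)) ᵥ* ((g⁻¹ : SP) : Mt6) = v
    rw [Matrix.vecMul_vecMul, ← Submonoid.coe_mul, mul_inv_cancel, Submonoid.coe_one, Matrix.vecMul_one]

def rhoV : SP →* Equiv.Perm V6 where
  toFun := rmul
  map_one' := by
    ext1 v
    change v ᵥ* ((1⁻¹ : SP) : Mt6) = v
    rw [inv_one, Submonoid.coe_one, Matrix.vecMul_one]
  map_mul' g h := by
    ext1 v
    change v ᵥ* (((g * h)⁻¹ : SP) : Mt6) = (v ᵥ* ((h⁻¹ : SP) : Mt6)) ᵥ* ((g⁻¹ : SP) : Mt6)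
    rw [Matrix.vecMul_vecMul, _root_.mul_inv_rev, Submonoid.coe_mul]

noncomputable def rhoL : SP →* Equiv.Perm (Fin 64) := (eqv.symm.permCongrHom.toMonoidHom).comp rhoV

theorem rhoL_apply (g : SP) (i : Fin 64) : labOf (rhoL g i : Fin 64) = labOf i ᵥ* ((g⁻¹ : SP) : Mt6) := by
  change labOf (eqv.symm (rmul g (eqv i)) : Fin 64) = _
  rw [← eqv_apply, Equiv.apply_symm_apply]
  rfl

theorem Ltok : TableOK 64 4 LT Linv where
  lt := by
    have h : ∀ l < 4, allR (ckPerm (nat_lit 64) (LT l) (LT (Linv l))) 0 64 = true := by decide +kernel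
    intro l hl i hi
    exact (ckPerm_sound _ _ _ _ (allR_zero _ _ (h l hl) i hi)).1
  inv_lt := by decide
  inv_inv := by decide
  inv_apply := by
    have h : ∀ l < 4, allR (ckPerm (nat_lit 64) (LT l) (LT (Linv l))) 0 64 = true := by decide +kernel
    intro l hl i hi
    exact (ckPerm_sound _ _ _ _ (allR_zero _ _ (h l hl) i hi)).2

theorem ls_inv : ∀ l < 4, (ls l)⁻¹ = ls (Linv l) := by
  have e1 : M1⁻¹ = M1i := inv_eq_of_mul_eq_one_right M1_mul
  have e2 : M2⁻¹ = M2i := inv_eq_of_mul_eq_one_right M2_mul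
  intro l hl
  have : l = 0 ∨ l = 1 ∨ l = 2 ∨ l = 3 := by omega
  rcases this with rfl | rfl | rfl | rfl
  · exact e1
  · change M1i⁻¹ = M1
    rw [← e1, inv_inv]
  · exact e2
  · change M2i⁻¹ = M2
    rw [← e2, inv_inv]

theorem ls_tab : ∀ l < 4, ∀ i < 64, labOf (LT l i) = labOf i ᵥ* (ls l : Mt6) := by
  decide +kernel

theorem hrhoL : ∀ l < 4, rhoL (ls l) = permL Ltok l := by
  intro l hl
  ext1 i
  apply labOf_inj
  change labOf (rhoL (ls l) i : Fin 64) = labOf (permL Ltok l i : Fin 64)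
  rw [rhoL_apply, permL_apply Ltok l hl, ls_inv l hl]
  exact (ls_tab _ (Ltok.inv_lt l hl) i i.2).symm

noncomputable def LQ0c0 : Nat := nat_lit 0x2011ca2552b8c480441a1186c44239008e512095c60302810c8e47218d0a0472b91c8a352b158a25121108aa40230cc4051229448a402094088442814ca45218884a241289082000
noncomputable def LQ0 : Nat → Nat := (fun i => Nat.land (Nat.shiftRight LQ0c0 (Nat.mul (nat_lit 9) (Nat.land i (nat_lit 63)))) (nat_lit 511))
def LG0 : List (List Nat) := [[0], [2], [2, 2, 2], [0, 2, 2, 2, 1], [3, 1, 3, 3, 1, 3, 0, 3, 1, 2, 2], [1, 2, 0, 0, 0, 3, 0], [1, 2, 2, 2, 0], [1, 1, 2, 0, 0, 0, 3, 0, 0]]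
noncomputable def LQ1c0 : Nat := nat_lit 0x1018888651a944845000000000000000000018954ca5022900a6650000000000000000001a1846450211cc667300000000000000000021140a65328a04e010000000000000000000
noncomputable def LQ1 : Nat → Nat := (fun i => Nat.land (Nat.shiftRight LQ1c0 (Nat.mul (nat_lit 9) (Nat.land i (nat_lit 63)))) (nat_lit 511))
def LG1 : List (List Nat) := [[2, 2, 2], [0, 2, 2, 2, 1], [3, 1, 3, 3, 1, 3, 0, 3, 1, 2, 2], [1, 2, 0, 0, 0, 3, 0], [1, 2, 2, 2, 0], [1, 1, 2, 0, 0, 0, 3, 0, 0]]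
noncomputable def LQ2c0 : Nat := nat_lit 0x1080032001500044000000000000000000001400074001900062000000000000000000001040043000800031000000000000000000001400072000400000
noncomputable def LQ2 : Nat → Nat := (fun i => Nat.land (Nat.shiftRight LQ2c0 (Nat.mul (nat_lit 9) (Nat.land i (nat_lit 63)))) (nat_lit 511))
def LG2 : List (List Nat) := [[0, 2, 2, 2, 1], [3, 1, 3, 3, 1, 3, 0, 3, 1, 2, 2], [1, 2, 0, 0, 0, 3, 0], [1, 2, 2, 2, 0], [1, 1, 2, 0, 0, 0, 3, 0, 0]]
noncomputable def LQ3c0 : Nat := nat_lit 0x840031000cc0043000000000000000000000000000000000000000000000000000000000c80030000800010000000000000000000000000000000000000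
noncomputable def LQ3 : Nat → Nat := (fun i => Nat.land (Nat.shiftRight LQ3c0 (Nat.mul (nat_lit 9) (Nat.land i (nat_lit 63)))) (nat_lit 511))
def LG3 : List (List Nat) := [[3, 1, 3, 3, 1, 3, 0, 3, 1, 2, 2], [1, 2, 0, 0, 0, 3, 0], [1, 2, 2, 2, 0], [1, 1, 2, 0, 0, 0, 3, 0, 0]]
noncomputable def LQ4c0 : Nat := nat_lit 0x20000000031000000000000000000000000000000000000000000000000000000000000010000000000
noncomputable def LQ4 : Nat → Nat := (fun i => Nat.land (Nat.shiftRight LQ4c0 (Nat.mul (nat_lit 9) (Nat.land i (nat_lit 63)))) (nat_lit 511))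
def LG4 : List (List Nat) := [[1, 2, 2, 2, 0], [1, 1, 2, 0, 0, 0, 3, 0, 0]]
noncomputable def LQ5c0 : Nat := nat_lit 0x20000000010000000000000000000000000000000000000000000000000000000000000000000000000
noncomputable def LQ5 : Nat → Nat := (fun i => Nat.land (Nat.shiftRight LQ5c0 (Nat.mul (nat_lit 9) (Nat.land i (nat_lit 63)))) (nat_lit 511))
def LG5 : List (List Nat) := [[1, 1, 2, 0, 0, 0, 3, 0, 0]]

theorem Lcount : 1451520 ≤ Nat.card (wordGroup ls LG0) := by
  have k0 := card_step ls Ltok rhoL hrhoL LQ0 63 LG0 LG1 (by decide) ⟨1, by decide⟩ (by decide +kernel) (by decide +kernel)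
    (by decide) (by decide +kernel) inferInstance
  have k1 := card_step ls Ltok rhoL hrhoL LQ1 32 LG1 LG2 (by decide) ⟨8, by decide⟩ (by decide +kernel) (by decide +kernel)
    (by decide) (by decide +kernel) inferInstance
  have k2 := card_step ls Ltok rhoL hrhoL LQ2 15 LG2 LG3 (by decide) ⟨2, by decide⟩ (by decide +kernel) (by decide +kernel)
    (by decide) (by decide +kernel) inferInstance
  have k3 := card_step ls Ltok rhoL hrhoL LQ3 8 LG3 LG4 (by decide) ⟨16, by decide⟩ (by decide +kernel) (by decide +kernel)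
    (by decide) (by decide +kernel) inferInstance
  have k4 := card_step ls Ltok rhoL hrhoL LQ4 3 LG4 LG5 (by decide) ⟨4, by decide⟩ (by decide +kernel) (by decide +kernel)
    (by decide) (by decide +kernel) inferInstance
  have k5 := card_step ls Ltok rhoL hrhoL LQ5 2 LG5 ([] : List (List Nat)) (by decide) ⟨32, by decide⟩ (by decide +kernel) (by decide +kernel)
    (by decide) (by decide +kernel) inferInstance
  have kl : 1 ≤ Nat.card (wordGroup ls ([] : List (List Nat))) := Nat.card_pos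
  have e : (1451520 : ℕ) = 63 * (32 * (15 * (8 * (3 * (2 * 1))))) := by norm_num
  rw [e]
  refine le_trans ?_ k0
  refine Nat.mul_le_mul_left _ (le_trans ?_ k1)
  refine Nat.mul_le_mul_left _ (le_trans ?_ k2)
  refine Nat.mul_le_mul_left _ (le_trans ?_ k3)
  refine Nat.mul_le_mul_left _ (le_trans ?_ k4)
  refine Nat.mul_le_mul_left _ (le_trans ?_ k5)
  exact Nat.mul_le_mul_left _ kl

theorem Lclosure : wordGroup ls LG0 ≤ Subgroup.closure ({M1, M2} : Set SP) := by
  have h1 : M1 ∈ Subgroup.closure ({M1, M2} : Set SP) := Subgroup.subset_closure (Or.inl rfl)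
  have h2 : M2 ∈ Subgroup.closure ({M1, M2} : Set SP) := Subgroup.subset_closure (Or.inr rfl)
  have hl : ∀ l < 4, ls l ∈ Subgroup.closure ({M1, M2} : Set SP) := by
    intro l hl
    have : l = 0 ∨ l = 1 ∨ l = 2 ∨ l = 3 := by omega
    rcases this with rfl | rfl | rfl | rfl
    · exact h1
    · have := Subgroup.inv_mem _ h1
      rwa [show M1⁻¹ = ls 1 from ls_inv 0 (by decide)] at this
    · exact h2
    · have := Subgroup.inv_mem _ h2
      rwa [show M2⁻¹ = ls 3 from ls_inv 2 (by decide)] at this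
  unfold wordGroup
  rw [Subgroup.closure_le]
  rintro g ⟨w, hw, rfl⟩
  apply Subgroup.list_prod_mem
  intro x hx
  obtain ⟨l, hl', rfl⟩ := List.mem_map.1 hx
  exact hl l ((show ∀ w ∈ LG0, ∀ l ∈ w, l < 4 by decide) w hw l hl')

theorem M_card : 1451520 ≤ Nat.card (Subgroup.closure ({M1, M2} : Set SP)) :=
  Lcount.trans (Subgroup.card_le_of_le Lclosure)

theorem SP_card : Nat.card SP = 1451520 := by
  have h := Cfsg.Agent.H5.card_Sp (F := ZMod 2) (q := 2) (ZMod.card 2) 3
  change Nat.card (Matrix.symplecticGroup (Fin 3) (ZMod 2)) = _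
  rw [h]
  decide

theorem M_top : Subgroup.closure ({M1, M2} : Set SP) = ⊤ := by
  haveI : Finite SP := Nat.finite_of_card_ne_zero (by rw [SP_card]; decide)
  apply Subgroup.eq_top_of_le_card
  rw [SP_card]
  exact M_card

theorem trans_ne (j : Fin 64) (hj : j ≠ 0) : ∃ g : SP, rhoL g 1 = j := by
  obtain ⟨h, _, hh⟩ := reach ls Ltok rhoL hrhoL LQ0 LG0 (by decide) (1 : Fin 64) (fun i hi => allR_zero _ _ (show allR (ckReach LQ0 (LG0.map (·.map LT)) 1) 0 64 = true by decide +kernel) i hi) j (by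
    have key : ∀ j : Fin 64, j ≠ 0 → LQ0 j ≠ 0 := by decide +kernel
    exact key j hj)
  exact ⟨h, hh⟩

theorem rhoL_zero (g : SP) : rhoL g 0 = 0 := by
  apply labOf_inj
  change labOf (rhoL g 0 : Fin 64) = labOf ((0 : Fin 64) : ℕ)
  rw [rhoL_apply, show labOf ((0 : Fin 64) : ℕ) = 0 by decide +kernel, Matrix.zero_vecMul]

theorem rhoL_inj (g : SP) (h : rhoL g = 1) : g = 1 := by
  have h1 : ∀ v : V6, v ᵥ* ((g⁻¹ : SP) : Mt6) = v := by
    intro v
    obtain ⟨i, rfl⟩ := labOf_bij.2 v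
    have h2 := rhoL_apply g i
    rw [h] at h2
    exact h2.symm
  have h3 : ((g⁻¹ : SP) : Mt6) = 1 := by
    apply Matrix.ext_of_single_vecMul
    intro i
    rw [h1, Matrix.vecMul_one]
  have h4 : g⁻¹ = 1 := Subtype.ext h3
  exact inv_eq_one.1 h4

/-- `Sp(6,2)` has no nontrivial normal 2-subgroup. -/
theorem no_two (N : Subgroup SP) [hN : N.Normal] (h2 : IsPGroup 2 N) : N = ⊥ := by
  haveI : Fact (Nat.Prime 2) := ⟨Nat.prime_two⟩
  letI : MulAction N (Fin 64) := MulAction.compHom _ (rhoL.comp N.subtype)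
  obtain ⟨b, hb, hb0⟩ := h2.exists_fixed_point_of_prime_dvd_card_of_fixed_point (Fin 64)
    (by rw [Nat.card_eq_fintype_card, Fintype.card_fin]; decide) (a := (0 : Fin 64)) (fun g => rhoL_zero g)
  have hb' : ∀ g ∈ N, rhoL g b = b := fun g hg => hb ⟨g, hg⟩
  rw [Subgroup.eq_bot_iff_forall]
  intro g hg
  apply rhoL_inj
  ext1 j
  by_cases hj : j = 0
  · rw [hj, rhoL_zero]; rfl
  · obtain ⟨x, hx⟩ := trans_ne b (Ne.symm hb0)
    obtain ⟨y, hy⟩ := trans_ne j hj
    have e : rhoL (y * x⁻¹) b = j := by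
      rw [map_mul, Equiv.Perm.mul_apply, map_inv, ← hx, show (rhoL x)⁻¹ (rhoL x 1) = 1 from Equiv.symm_apply_apply _ _, hy]
    set h := y * x⁻¹ with hh
    have h2 := hb' (h⁻¹ * g * h) (by have := hN.conj_mem g hg h⁻¹; simpa using this)
    rw [map_mul, map_mul, Equiv.Perm.mul_apply, Equiv.Perm.mul_apply, e, map_inv, Equiv.Perm.inv_eq_iff_eq, e] at h2
    rw [h2]; rfl

end Cfsg.Agent.H8.Sp6
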