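import Cfsg.Agent.H8.SuzPres
import Cfsg.Agent.H8.T.Suz2t
import Cfsg.Agent.H8.T.Suz2tP

/-!
# A subgroup of index 22880 in the presented Suzuki group
-/

set_option autoImplicit false
set_option linter.all false
set_option maxRecDepth 100000
set_option maxHeartbeats 400000

namespace Cfsg.Agent.H8.SuzP

open Cfsg.Spor

theorem base2 : ∀ p ∈ Suz2t.rels2, ((p.1.map s).prod) ^ p.2 = 1 := by
  have e : Suz2t.rels2 = Suzt.rels2 := by decide
  rw [e]
  exact base

noncomputable def ρ₂ : Suz →* Equiv.Perm (Fin 22880) :=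
  homOf (permL Suz2t.tok) (permL_sq Suz2t.tok) (by
    have e : Suzt.relsP = Suz2t.relsP := by decide
    rw [e]
    exact Suz2t.relp)

theorem hρ₂ : ∀ l < 7, ρ₂ (s l) = permL Suz2t.tok l := homOf_s _ _ _

theorem index_stab₂ : (wordGroup s Suz2t.subw).index = 22880 ∧
    wordGroup s Suz2t.subw = stabOf ρ₂ ⟨0, by decide⟩ := by
  have hle : wordGroup s Suz2t.subw ≤ stabOf ρ₂ ⟨0, by decide⟩ :=
    wordGroup_le_stabOf s Suz2t.tok ρ₂ hρ₂ _ _ (by decide +kernel)
  have h2 := Suz2t.upperIndex s s_inv s_31 base2 (wordGroup s Suz2t.subw)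
    (fun w hw => mem_wordGroup s _ w hw) s_top
  exact index_and_stab ρ₂ _ _ hle (Suz2t.rho_tr s ρ₂ hρ₂) h2 (by decide)

theorem H2_eq : ((Subgroup.closure ({Suz.a, Suz.b, Suz.c, Suz.d, Suz.f, Suz.g} : Set (FreeGroup Suz.Gen))).map
    (PresentedGroup.mk (coxRelators Suz.edges ∪ {r | r ∈ Suz.extra}))) = wordGroup s Suz2t.subw := by
  apply map_closure_eq
  · intro x hx
    simp only [Set.mem_insert_iff, Set.mem_singleton_iff] at hx
    rcases hx with rfl | rfl | rfl | rfl | rfl | rfl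
    · exact ⟨[0], by decide, by simp [s, sF, PresentedGroup.of]⟩
    · exact ⟨[1], by decide, by simp [s, sF, PresentedGroup.of]⟩
    · exact ⟨[2], by decide, by simp [s, sF, PresentedGroup.of]⟩
    · exact ⟨[3], by decide, by simp [s, sF, PresentedGroup.of]⟩
    · exact ⟨[5], by decide, by simp [s, sF, PresentedGroup.of]⟩
    · exact ⟨[6], by decide, by simp [s, sF, PresentedGroup.of]⟩
  · intro w hw
    simp only [Suz2t.subw, List.mem_cons, List.not_mem_nil, or_false] at hw
    rcases hw with rfl | rfl | rfl | rfl | rfl | rfl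
    · exact ⟨Suz.a, by simp, by simp [s, sF, PresentedGroup.of]⟩
    · exact ⟨Suz.b, by simp, by simp [s, sF, PresentedGroup.of]⟩
    · exact ⟨Suz.c, by simp, by simp [s, sF, PresentedGroup.of]⟩
    · exact ⟨Suz.d, by simp, by simp [s, sF, PresentedGroup.of]⟩
    · exact ⟨Suz.f, by simp, by simp [s, sF, PresentedGroup.of]⟩
    · exact ⟨Suz.g, by simp, by simp [s, sF, PresentedGroup.of]⟩

end Cfsg.Agent.H8.SuzP
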