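import Cfsg.Agent.H5.Orth2
import Cfsg.Agent.H5.Orth3
import Cfsg.Agent.H5.Orth4
import Cfsg.Agent.H5.Vec
import Cfsg.Prelude.Def_SporadicB

/-!
# Orthogonal transvections over the field with two elements
-/

set_option autoImplicit false
set_option linter.all false
set_option maxHeartbeats 400000

namespace Cfsg.Agent.H8.TTO

open Cfsg.Agent.H5 Matrix

abbrev K := ZMod 2

theorem k_cases (a : K) : a = 0 ∨ a = 1 := by
  revert a; decide

theorem k_one {a : K} (h : a ≠ 0) : a = 1 := (k_cases a).resolve_left h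

section
variable {V : Type*} [AddCommGroup V] [Module K V] {Q : QuadraticForm K V}

theorem neg_eq' (v : V) : -v = v := by
  have h : (2 : K) • v = 0 := by
    have : (2 : K) = 0 := by decide
    rw [this, zero_smul]
  rw [two_smul] at h
  exact neg_eq_of_add_eq_zero_left h

theorem refl_eq {v : V} (hv : Q v ≠ 0) (x : V) : H5.refl hv x = x + (pB Q v x) • v := by
  rw [refl_apply, k_one hv, inv_one, one_mul, sub_eq_add_neg, neg_eq']

/-- isometries moving by a rank one map are reflections. -/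
theorem refl_of (hnd : ND Q) (g : OG Q) (v : V) (hv : v ≠ 0) (f : V → K) (hf : ∀ x y, f (x + y) = f x + f y)
    (hf0 : ∃ x, f x ≠ 0) (hg : ∀ x, g x = x + f x • v) : ∃ hv : Q v ≠ 0, g = H5.refl hv := by
  obtain ⟨x0, hx0⟩ := hf0
  have hx1 := k_one hx0
  have key : ∀ x, f x = 1 → pB Q v x = Q v := by
    intro x hx
    have h := og_q g x
    rw [hg, hx, one_smul, q_add, pB_symm] at h
    have h2 : Q v + pB Q v x = 0 := by
      have : Q x + (Q v + pB Q v x) = Q x + 0 := by rw [add_zero, ← add_assoc]; exact h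
      exact add_left_cancel this
    have h3 : pB Q v x = - Q v := eq_neg_of_add_eq_zero_right h2
    rw [h3]
    rcases k_cases (Q v) with h | h <;> rw [h] <;> decide
  have key0 : ∀ x, f x = 0 → pB Q v x = 0 := by
    intro x hx
    have h1 := key (x + x0) (by rw [hf, hx, hx1, zero_add])
    rw [pr_add, key x0 hx1] at h1
    exact add_eq_right.1 h1
  have hQ : Q v ≠ 0 := by
    intro h0
    apply hv
    apply hnd
    intro y
    rcases k_cases (f y) with h | h
    · exact key0 y h
    · rw [key y h, h0]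
  refine ⟨hQ, ?_⟩
  apply og_ext
  intro x
  rw [hg, refl_eq]
  rcases k_cases (f x) with h | h
  · rw [h, key0 x h]
  · rw [h, key x h, k_one hQ]

theorem refl_ne_one (hnd : ND Q) {v : V} (hv : Q v ≠ 0) : H5.refl hv ≠ (1 : OG Q) := by
  intro h
  have hv0 : v ≠ 0 := by rintro rfl; exact hv (q_zero Q)
  obtain ⟨y, hy⟩ := hnd.one hv0
  have h1 : H5.refl hv y = y := by rw [h]; rfl
  rw [refl_eq, hy, one_smul, add_eq_left] at h1
  exact hv0 h1

theorem refl_order (hnd : ND Q) {v : V} (hv : Q v ≠ 0) : orderOf (H5.refl hv) = 2 := by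
  apply orderOf_eq_prime
  · rw [pow_two, refl_mul_self]
  · exact refl_ne_one hnd hv

theorem refl_congr {u v : V} (hu : Q u ≠ 0) (hv : Q v ≠ 0) (h : u = v) : H5.refl hu = H5.refl hv := by
  subst h; rfl

theorem refl_prod {u v : V} (hu : Q u ≠ 0) (hv : Q v ≠ 0) :
    (H5.refl hu * H5.refl hv) ^ 2 = 1 ∨ (H5.refl hu * H5.refl hv) ^ 3 = 1 := by
  rcases k_cases (pB Q u v) with h | h
  · left
    have hc : H5.refl hu * H5.refl hv * (H5.refl hu)⁻¹ = H5.refl hv := by
      have e : H5.refl hu v = v := by rw [refl_eq, h, zero_smul, add_zero]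
      have hv' : Q (H5.refl hu v) ≠ 0 := by rw [og_q]; exact hv
      rw [refl_conj (H5.refl hu) hv hv']
      exact refl_congr hv' hv e
    rw [mul_inv_eq_iff_eq_mul] at hc
    rw [pow_two]
    calc H5.refl hu * H5.refl hv * (H5.refl hu * H5.refl hv) = H5.refl hu * H5.refl hv * (H5.refl hv * H5.refl hu) := by rw [hc]
      _ = H5.refl hu * (H5.refl hv * H5.refl hv) * H5.refl hu := by simp only [mul_assoc]
      _ = 1 := by rw [refl_mul_self, mul_one, refl_mul_self]
  · right
    have h' : pB Q v u = 1 := by rw [pB_symm]; exact h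
    have e1 : H5.refl hu v = v + u := by rw [refl_eq, h, one_smul]
    have e2 : H5.refl hv u = v + u := by rw [refl_eq, h', one_smul, add_comm]
    have hv' : Q (H5.refl hu v) ≠ 0 := by rw [og_q]; exact hv
    have hu' : Q (H5.refl hv u) ≠ 0 := by rw [og_q]; exact hu
    have c1 := refl_conj (H5.refl hu) hv hv'
    have c2 := refl_conj (H5.refl hv) hu hu'
    have e : H5.refl hv' = H5.refl hu' := refl_congr hv' hu' (e1.trans e2.symm)
    rw [← e, ← c1, refl_inv, refl_inv] at c2
    have : (H5.refl hu * H5.refl hv) ^ 3 = (H5.refl hu * H5.refl hv * H5.refl hu) * (H5.refl hv * H5.refl hu * H5.refl hv) := by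
      simp only [pow_succ, pow_zero, one_mul, mul_assoc]
    rw [this, c2]
    have e5 : H5.refl hu * H5.refl hv * H5.refl hu * (H5.refl hu * H5.refl hv * H5.refl hu) =
        H5.refl hu * (H5.refl hv * (H5.refl hu * H5.refl hu) * H5.refl hv) * H5.refl hu := by simp only [mul_assoc]
    rw [e5, refl_mul_self, mul_one, refl_mul_self, mul_one, refl_mul_self]

/-- the reflections form a class of 3-transpositions. -/
theorem refl_class [FiniteDimensional K V] (hnd : ND Q) (hdim : Module.finrank K V ≠ 4) (h0 : 0 < Module.finrank K V) :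
    Cfsg.IsThreeTranspositionClass {g : OG Q | ∃ (v : V) (hv : Q v ≠ 0), g = H5.refl hv} := by
  have hex : ∃ v : V, Q v ≠ 0 := by
    by_contra hcon
    push Not at hcon
    have : Nontrivial V := Module.finrank_pos_iff.1 h0
    obtain ⟨v, hv⟩ := exists_ne (0 : V)
    apply hv
    apply hnd
    intro y
    have h1 := hcon (v + y)
    rw [q_add, hcon v, hcon y, zero_add, zero_add] at h1
    exact h1
  refine ⟨⟨?_, ?_⟩, ?_, ?_⟩
  · rintro _ ⟨v, hv, rfl⟩
    exact refl_order hnd hv
  · rintro _ ⟨u, hu, rfl⟩ _ ⟨v, hv, rfl⟩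
    exact refl_prod hu hv
  · obtain ⟨v, hv⟩ := hex
    refine ⟨H5.refl hv, ⟨v, hv, rfl⟩, ?_⟩
    ext g
    show _ ↔ IsConj _ _
    rw [isConj_iff]
    constructor
    · rintro ⟨w, hw, rfl⟩
      obtain ⟨g, hg⟩ := og_witt1 hnd (x := v) (y := w) (by rintro rfl; exact hv (q_zero Q))
        (by rintro rfl; exact hw (q_zero Q)) (by rw [k_one hv, k_one hw])
      refine ⟨g, ?_⟩
      have hv' : Q (g v) ≠ 0 := by rw [og_q]; exact hv
      rw [refl_conj g hv hv']
      exact refl_congr hv' hw hg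
    · rintro ⟨g, rfl⟩
      have hv' : Q (g v) ≠ 0 := by rw [og_q]; exact hv
      exact ⟨g v, hv', refl_conj g hv hv'⟩
  · exact rg_top hnd (fun _ => hdim)

end

/-! ### Transport -/

theorem class_of_equiv {G H : Type*} [Group G] [Group H] (e : G ≃* H) (D : Set G) (E : Set H)
    (h : ∀ g, g ∈ D ↔ e g ∈ E) (hE : Cfsg.IsThreeTranspositionClass E) : Cfsg.IsThreeTranspositionClass D := by
  obtain ⟨⟨h1, h2⟩, ⟨d, hd, hd2⟩, h3⟩ := hE
  refine ⟨⟨?_, ?_⟩, ?_, ?_⟩
  · intro g hg
    rw [← MulEquiv.orderOf_eq e g]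
    exact h1 _ ((h g).1 hg)
  · intro g hg k hk
    rcases h2 _ ((h g).1 hg) _ ((h k).1 hk) with h4 | h4
    · left; apply e.injective; rw [map_pow, map_mul, map_one]; exact h4
    · right; apply e.injective; rw [map_pow, map_mul, map_one]; exact h4
  · refine ⟨e.symm d, (h _).2 (by rw [e.apply_symm_apply]; exact hd), ?_⟩
    ext g
    rw [h, hd2]
    show IsConj _ _ ↔ IsConj _ _
    rw [isConj_iff, isConj_iff]
    constructor
    · rintro ⟨c, hc⟩
      refine ⟨e.symm c, ?_⟩
      apply e.injective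
      rw [map_mul, map_mul, map_inv, e.apply_symm_apply, e.apply_symm_apply]
      exact hc
    · rintro ⟨c, rfl⟩
      refine ⟨e c, ?_⟩
      rw [map_mul, map_mul, map_inv, e.apply_symm_apply]
  · rw [eq_top_iff]
    intro g _
    have h5 : e g ∈ Subgroup.closure E := by rw [h3]; exact Subgroup.mem_top _
    have h6 : E = e '' D := by
      ext y
      constructor
      · intro hy
        exact ⟨e.symm y, (h _).2 (by rw [e.apply_symm_apply]; exact hy), e.apply_symm_apply y⟩
      · rintro ⟨x, hx, rfl⟩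
        exact (h x).1 hx
    rw [h6] at h5
    have h7 : Subgroup.closure (⇑e '' D) = (Subgroup.closure D).map e.toMonoidHom := (MonoidHom.map_closure e.toMonoidHom D).symm
    rw [h7] at h5
    obtain ⟨x, hx, hxg⟩ := h5
    have : x = g := e.injective hxg
    rw [← this]
    exact hx

section
variable {ι : Type} [Fintype ι] [DecidableEq ι] (Q : QuadraticForm K (ι → K))

theorem rank_refl (hnd : ND Q) {v : ι → K} (hv : Q v ≠ 0) (g : Cfsg.isometryGroup K ⇑Q) (hg : ogEquiv Q g = H5.refl hv) :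
    (((g : GL ι K) : Matrix ι ι K) - 1).rank = 1 := by
  have hv0 : v ≠ 0 := by rintro rfl; exact hv (q_zero Q)
  have h1 : ∀ x, ((g : GL ι K) : Matrix ι ι K).mulVec x = x + (pB Q v x) • v := by
    intro x
    rw [← ogEquiv_apply, hg, refl_eq]
  have e : (((g : GL ι K) : Matrix ι ι K) - 1) = vecMulVec v (Cfsg.polarVec (⇑Q) v) := by
    apply Matrix.toLin'.injective
    apply LinearMap.ext
    intro x
    rw [Matrix.toLin'_apply, Matrix.toLin'_apply, Matrix.sub_mulVec, Matrix.one_mulVec, h1,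
      Cfsg.Agent.H5.vecMulVec_mulVec_eq, polarVec_dot]
    abel
  rw [e]
  apply le_antisymm
  · exact Matrix.rank_vecMulVec_le _ _
  · rw [Nat.one_le_iff_ne_zero]
    intro h0
    have h2 : (vecMulVec v (Cfsg.polarVec (⇑Q) v)).mulVecLin = 0 := by
      rw [← LinearMap.range_eq_bot]
      exact Submodule.finrank_eq_zero.1 h0
    obtain ⟨y, hy⟩ := hnd.one hv0
    have h3 : (vecMulVec v (Cfsg.polarVec (⇑Q) v)).mulVec y = 0 := by
      rw [← Matrix.mulVecLin_apply, h2]; rfl
    rw [Cfsg.Agent.H5.vecMulVec_mulVec_eq, polarVec_dot, hy, one_smul] at h3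
    exact hv0 h3

theorem refl_of_rank (hnd : ND Q) (g : Cfsg.isometryGroup K ⇑Q)
    (h : (((g : GL ι K) : Matrix ι ι K) - 1).rank = 1) : ∃ (v : ι → K) (hv : Q v ≠ 0), ogEquiv Q g = H5.refl hv := by
  obtain ⟨u, w, hu, hw, e⟩ := exists_vecMulVec_of_rank_eq_one h
  obtain ⟨hv, h2⟩ := refl_of hnd (ogEquiv Q g) u hu (fun x => w ⬝ᵥ x) (fun x y => dotProduct_add _ _ _)
    (by
      obtain ⟨i, hi⟩ := Function.ne_iff.1 hw
      exact ⟨Pi.single i 1, by simpa using hi⟩)
    (by
      intro x
      rw [ogEquiv_apply]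
      have h3 : ((g : GL ι K) : Matrix ι ι K) = 1 + vecMulVec u w := by rw [← e]; abel
      rw [h3, Matrix.add_mulVec, Matrix.one_mulVec, Cfsg.Agent.H5.vecMulVec_mulVec_eq])
  exact ⟨u, hv, h2⟩

theorem main (hnd : ND Q) (hdim : Fintype.card ι ≠ 4) (h0 : 0 < Fintype.card ι) :
    Cfsg.IsThreeTranspositionClass {g : ↥(Cfsg.isometryGroup K ⇑Q) |
      (((g : GL ι K) : Matrix ι ι K) - 1).rank = 1} := by
  refine class_of_equiv (ogEquiv Q) _ {g : OG Q | ∃ (v : ι → K) (hv : Q v ≠ 0), g = H5.refl hv} ?_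
    (refl_class hnd (by rw [Module.finrank_fintype_fun_eq_card]; exact hdim)
      (by rw [Module.finrank_fintype_fun_eq_card]; exact h0))
  intro g
  constructor
  · intro h
    exact refl_of_rank Q hnd g h
  · rintro ⟨v, hv, h⟩
    exact rank_refl Q hnd hv g h

end

end Cfsg.Agent.H8.TTO
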