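import Cfsg.Agent.H5.UnitSimple
import Cfsg.Agent.H5.UnitGen3
import Cfsg.Agent.H5.Vec
import Cfsg.Prelude.Def_SporadicB

/-!
# Unitary transvections over the field with four elements
-/

set_option autoImplicit false
set_option linter.all false
set_option maxHeartbeats 400000

namespace Cfsg.Agent.H8.TTU

open Cfsg.Agent.H5 Matrix Cfsg FormData

variable {F : Type*} [Field F] {σ : F →+* F} {n : ℕ}

local notation "h⟪" x ", " y "⟫" => hB (Fin _) σ x y

/-- the element acts as the transvection with centre `v`. -/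
def Tv (σ : F →+* F) (v : Fin n → F) (A : SU n F 2) : Prop := ∀ x, sv A x = x + hB (Fin n) σ v x • v

theorem two_zero [Fintype F] (hF : Fintype.card F = 2 ^ 2) (hσ : ∀ x, σ x = x ^ 2) : (2 : F) = 0 := by
  have h1 : σ 2 = 2 := map_ofNat σ 2
  rw [hσ] at h1
  have h2 : (2 : F) * 1 = 0 := by linear_combination h1
  simpa using h2

theorem Tv_uniq {v : Fin n → F} {A B : SU n F 2} (hA : Tv σ v A) (hB' : Tv σ v B) : A = B :=
  sv_ext fun x => by rw [hA, hB']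

theorem Tv_exists [Fintype F] (hF : Fintype.card F = 2 ^ 2) (hσ : ∀ x, σ x = x ^ 2) (hσ2 : ∀ a, σ (σ a) = a)
    {v : Fin n → F} (hv : h⟪v, v⟫ = 0) : ∃ A : SU n F 2, Tv σ v A := by
  obtain ⟨A, _, hA⟩ := exists_suT (n := n) (q := 2) hσ hσ2 hv (c := 1) (by
    rw [map_one]
    have := two_zero hF hσ
    linear_combination this)
  exact ⟨A, fun x => by rw [hA, one_mul]⟩

theorem Tv_smul [Fintype F] (hF : Fintype.card F = 2 ^ 2) (hσ : ∀ x, σ x = x ^ 2) {a : F} (ha : a ≠ 0)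
    {v : Fin n → F} {A : SU n F 2} (hA : Tv σ v A) : Tv σ (a • v) A := by
  intro x
  rw [hA, bl_smul, smul_smul]
  have h1 : σ a * a = 1 := norm_q2 hF hσ ha
  have e : σ a * h⟪v, x⟫ * a = h⟪v, x⟫ := by linear_combination h⟪v, x⟫ * h1
  rw [e]

theorem Tv_sq [Fintype F] (hF : Fintype.card F = 2 ^ 2) (hσ : ∀ x, σ x = x ^ 2) {v : Fin n → F}
    (hv : h⟪v, v⟫ = 0) {A : SU n F 2} (hA : Tv σ v A) : A * A = 1 := by
  apply sv_ext
  intro x
  rw [sv_mul, sv_one, hA (sv A x), hA x, br_add, br_smul, hv]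
  have h2 := two_zero hF hσ
  have : h⟪v, x⟫ • v + (h⟪v, x⟫ + h⟪v, x⟫ * 0) • v = (0 : Fin n → F) := by
    rw [← add_smul]
    have e : h⟪v, x⟫ + (h⟪v, x⟫ + h⟪v, x⟫ * 0) = 0 := by linear_combination h⟪v, x⟫ * h2
    rw [e, zero_smul]
  rw [add_assoc, this, add_zero]

theorem Tv_inv [Fintype F] (hF : Fintype.card F = 2 ^ 2) (hσ : ∀ x, σ x = x ^ 2) {v : Fin n → F}
    (hv : h⟪v, v⟫ = 0) {A : SU n F 2} (hA : Tv σ v A) : A⁻¹ = A :=
  inv_eq_of_mul_eq_one_left (Tv_sq hF hσ hv hA)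

theorem Tv_ne_one {v : Fin n → F} (hv : v ≠ 0) {A : SU n F 2} (hA : Tv σ v A) : A ≠ 1 := by
  rintro rfl
  apply hv
  apply hB_nd (σ := σ)
  intro y
  have h := hA y
  rw [sv_one, left_eq_add, smul_eq_zero] at h
  exact h.resolve_right hv

theorem Tv_conj (hσ : ∀ x, σ x = x ^ 2) {v : Fin n → F} {A : SU n F 2} (hA : Tv σ v A) (C : SU n F 2) :
    Tv σ (sv C v) (C * A * C⁻¹) := by
  intro x
  rw [sv_mul, sv_mul, hA, sv_add, sv_smul, sv_inv']
  have h1 := sv_isom (σ := σ) (q := 2) hσ C v (sv C⁻¹ x)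
  rw [sv_inv'] at h1
  rw [h1]

/-- transitivity on isotropic points. -/
theorem trans [Fintype F] (hσ : ∀ x, σ x = x ^ 2) (hσ1 : σ ≠ RingHom.id F)
    (hσ2 : ∀ a, σ (σ a) = a) {u v : Fin n → F} (hu0 : u ≠ 0) (hv0 : v ≠ 0) (hu : h⟪u, u⟫ = 0) (hv : h⟪v, v⟫ = 0) :
    ∃ (A : SU n F 2) (a : F), a ≠ 0 ∧ sv A u = a • v := by
  obtain ⟨M, hM, hMu⟩ := gu_witt_family hσ1 hσ2 (fun _ : Fin 1 => u) (fun _ => v)
    (linearIndependent_unique_iff.2 hu0) (linearIndependent_unique_iff.2 hv0) (fun _ _ => by rw [hu, hv])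
  obtain ⟨w, hw, hvw⟩ : ∃ w : Fin n → F, h⟪w, w⟫ = 0 ∧ h⟪v, w⟫ = 1 := by
    have hW : UW (hB (Fin n) σ) n ⊤ := ⟨by simp, fun x _ hx => hB_nd x (fun y => hx y Submodule.mem_top)⟩
    obtain ⟨w, _, hw⟩ := UW_partner hσ1 hσ2 hW (Submodule.mem_top (x := v)) hv0 hv
    exact ⟨w, hw.1, hw.2⟩
  obtain ⟨A, a, ha, hA⟩ := su_correct hσ hσ1 hσ2 M hM hv hw hvw
  have hwv : h⟪w, v⟫ = 1 := by rw [← hB_symm hσ2, hvw, map_one]
  refine ⟨A, a, ha, ?_⟩
  have h1 := hA u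
  have hMu' : M.mulVec u = v := hMu 0
  rw [hMu', hv, hwv, zero_smul, add_zero, one_smul, sub_smul, one_smul] at h1
  rw [h1]; abel

theorem Tv_prod [Fintype F] (hF : Fintype.card F = 2 ^ 2) (hσ : ∀ x, σ x = x ^ 2) (hσ2 : ∀ a, σ (σ a) = a)
    {v w : Fin n → F} (hv : h⟪v, v⟫ = 0) (hw : h⟪w, w⟫ = 0) {A B : SU n F 2} (hA : Tv σ v A) (hB' : Tv σ w B) :
    (A * B) ^ 2 = 1 ∨ (A * B) ^ 3 = 1 := by
  have iA := Tv_inv hF hσ hv hA
  have iB := Tv_inv hF hσ hw hB'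
  have sA := Tv_sq hF hσ hv hA
  have sB := Tv_sq hF hσ hw hB'
  have c1 := Tv_conj hσ hB' A
  have c2 := Tv_conj hσ hA B
  rw [iA] at c1
  rw [iB] at c2
  have e1 : sv A w = w + h⟪v, w⟫ • v := hA w
  have e2 : sv B v = v + h⟪w, v⟫ • w := hB' v
  by_cases h0 : h⟪v, w⟫ = 0
  · left
    rw [e1, h0, zero_smul, add_zero] at c1
    have hc : A * B * A = B := Tv_uniq c1 hB'
    rw [pow_two]
    calc A * B * (A * B) = (A * B * A) * B := by simp only [mul_assoc]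
      _ = 1 := by rw [hc, sB]
  · right
    have hwv : h⟪w, v⟫ = σ h⟪v, w⟫ := (hB_symm hσ2 v w).symm
    have hN : σ h⟪v, w⟫ * h⟪v, w⟫ = 1 := norm_q2 hF hσ h0
    have e3 : sv A w = h⟪v, w⟫ • sv B v := by
      rw [e1, e2, hwv, smul_add, smul_smul, mul_comm, hN, one_smul, add_comm]
    have c3 := Tv_smul hF hσ h0 c2
    rw [← e3] at c3
    have hc : A * B * A = B * A * B := Tv_uniq c1 c3
    have : (A * B) ^ 3 = (A * B * A) * (B * A * B) := by
      simp only [pow_succ, pow_zero, one_mul, mul_assoc]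
    rw [this, ← hc]
    have e5 : A * B * A * (A * B * A) = A * (B * (A * A) * B) * A := by simp only [mul_assoc]
    rw [e5, sA, mul_one, sB, mul_one, sA]

theorem rank_of {v : Fin n → F} (hσ : ∀ x, σ x = x ^ 2) (hv : v ≠ 0) {A : SU n F 2} (hA : Tv σ v A) :
    (((A : Matrix.SpecialLinearGroup (Fin n) F) : Matrix (Fin n) (Fin n) F) - 1).rank = 1 := by
  have e : (((A : Matrix.SpecialLinearGroup (Fin n) F) : Matrix (Fin n) (Fin n) F) - 1) =
      vecMulVec v (fun i => σ (v i)) := by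
    apply Matrix.ext_of_mulVec_single
    intro i
    have h1 := hA (Pi.single i 1)
    have h2 : ((A : Matrix.SpecialLinearGroup (Fin n) F) : Matrix (Fin n) (Fin n) F).mulVec (Pi.single i 1) =
      Pi.single i 1 + hB (Fin n) σ v (Pi.single i 1) • v := h1
    rw [Matrix.sub_mulVec, Matrix.one_mulVec, h2, add_sub_cancel_left]
    funext k
    simp only [Matrix.mulVec, Matrix.vecMulVec_apply, dotProduct, Pi.smul_apply, smul_eq_mul, hB_apply,
      Finset.sum_mul]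
    apply Finset.sum_congr rfl
    intro j _
    ring
  rw [e]
  apply le_antisymm
  · exact Matrix.rank_vecMulVec_le _ _
  · rw [Nat.one_le_iff_ne_zero]
    intro h0
    have h2 : (vecMulVec v (fun i => σ (v i))).mulVecLin = 0 := by
      rw [← LinearMap.range_eq_bot]
      exact Submodule.finrank_eq_zero.1 h0
    obtain ⟨i, hi⟩ := Function.ne_iff.1 hv
    have h3 : (vecMulVec v (fun i => σ (v i))) = 0 := by
      apply Matrix.ext_of_mulVec_single
      intro j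
      rw [← Matrix.mulVecLin_apply, h2, Matrix.zero_mulVec]; rfl
    have h4 := congrFun (congrFun h3 i) i
    rw [Matrix.vecMulVec_apply, Matrix.zero_apply, mul_eq_zero] at h4
    rcases h4 with h4 | h4
    · exact hi h4
    · exact hi ((map_eq_zero σ).1 h4)

theorem of_rank [Fintype F] (hF : Fintype.card F = 2 ^ 2) (hσ : ∀ x, σ x = x ^ 2) (hσ2 : ∀ a, σ (σ a) = a)
    (A : SU n F 2)
    (h : (((A : Matrix.SpecialLinearGroup (Fin n) F) : Matrix (Fin n) (Fin n) F) - 1).rank = 1) :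
    ∃ v : Fin n → F, v ≠ 0 ∧ h⟪v, v⟫ = 0 ∧ Tv σ v A := by
  obtain ⟨u, w, hu, hw, e⟩ := exists_vecMulVec_of_rank_eq_one h
  have hM : ((A : Matrix.SpecialLinearGroup (Fin n) F) : Matrix (Fin n) (Fin n) F) = 1 + vecMulVec u w := by
    rw [← e]; abel
  have hA : ∀ x, sv A x = x + (w ⬝ᵥ x) • u := by
    intro x
    unfold sv
    rw [hM, Matrix.add_mulVec, Matrix.one_mulVec]
    congr 1
    funext k
    simp only [Matrix.mulVec, Matrix.vecMulVec_apply, dotProduct, Pi.smul_apply, smul_eq_mul, Finset.sum_mul]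
    apply Finset.sum_congr rfl
    intro j _
    ring
  have hdet : w ⬝ᵥ u = 0 := by
    have h1 := (A : Matrix.SpecialLinearGroup (Fin n) F).2
    rw [hM, det_one_add_vecMulVec'] at h1
    exact add_eq_left.1 h1
  have hiso : ∀ x y, (w ⬝ᵥ y) * h⟪x, u⟫ + σ (w ⬝ᵥ x) * h⟪u, y⟫ + σ (w ⬝ᵥ x) * (w ⬝ᵥ y) * h⟪u, u⟫ = 0 := by
    intro x y
    have h1 := sv_isom (σ := σ) (q := 2) hσ A x y
    rw [hA, hA] at h1
    simp only [bl_add, br_add, bl_smul, br_smul] at h1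
    linear_combination h1
  obtain ⟨x0, hx0⟩ : ∃ x0, w ⬝ᵥ x0 = 1 := by
    obtain ⟨i, hi⟩ := Function.ne_iff.1 hw
    refine ⟨Pi.single i (w i)⁻¹, ?_⟩
    rw [dotProduct_single, mul_inv_cancel₀ hi]
  have h1 : ∀ y, h⟪u, y⟫ = -(h⟪x0, u⟫ + h⟪u, u⟫) * (w ⬝ᵥ y) := by
    intro y
    have := hiso x0 y
    rw [hx0, map_one] at this
    linear_combination this
  set d := -(h⟪x0, u⟫ + h⟪u, u⟫) with hd
  have hd0 : d ≠ 0 := by
    intro h0
    apply hu
    apply hB_nd (σ := σ)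
    intro y
    rw [h1, h0, zero_mul]
  have huu : h⟪u, u⟫ = 0 := by rw [h1, hdet, mul_zero]
  have hw' : ∀ y, w ⬝ᵥ y = d⁻¹ * h⟪u, y⟫ := by
    intro y
    rw [h1, ← mul_assoc, inv_mul_cancel₀ hd0, one_mul]
  have hc : d⁻¹ + σ d⁻¹ = 0 := by
    obtain ⟨y, hy⟩ : ∃ y, h⟪u, y⟫ ≠ 0 := by
      by_contra hcon
      push Not at hcon
      exact hu (hB_nd (σ := σ) u hcon)
    have h2 := hiso y y
    rw [hw', huu, mul_zero, add_zero, map_mul, ← hB_symm hσ2 u y] at h2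
    have h3 : (d⁻¹ + σ d⁻¹) * (h⟪u, y⟫ * σ h⟪u, y⟫) = 0 := by linear_combination h2
    rcases mul_eq_zero.1 h3 with h4 | h4
    · exact h4
    · exfalso
      rcases mul_eq_zero.1 h4 with h5 | h5
      · exact hy h5
      · exact hy ((map_eq_zero σ).1 h5)
  have hc1 : d⁻¹ = 1 := by
    rw [hσ] at hc
    have hd1 : d⁻¹ ≠ 0 := inv_ne_zero hd0
    have h2 := two_zero hF hσ
    have h3 : d⁻¹ * (d⁻¹ - 1) = 0 := by linear_combination hc - d⁻¹ * h2
    rcases mul_eq_zero.1 h3 with h4 | h4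
    · exact absurd h4 hd1
    · exact sub_eq_zero.1 h4
  refine ⟨u, hu, huu, ?_⟩
  intro x
  rw [hA, hw', hc1, one_mul]

theorem main [Fintype F] (hF : Fintype.card F = 4) (hn : 4 ≤ n) :
    Cfsg.IsThreeTranspositionClass {g : ↥(Cfsg.SU n F 2) |
      (((g : Matrix.SpecialLinearGroup (Fin n) F) : Matrix (Fin n) (Fin n) F) - 1).rank = 1} := by
  have hF : Fintype.card F = 2 ^ 2 := hF
  obtain ⟨σ, hσ, hσ2, hσ1⟩ := exists_frob hF
  have hiff : ∀ g : SU n F 2, (((g : Matrix.SpecialLinearGroup (Fin n) F) : Matrix (Fin n) (Fin n) F) - 1).rank = 1 ↔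
      ∃ v : Fin n → F, v ≠ 0 ∧ hB (Fin n) σ v v = 0 ∧ Tv σ v g :=
    fun g => ⟨fun h => of_rank hF hσ hσ2 g h, fun ⟨v, hv, _, hg⟩ => rank_of hσ hv hg⟩
  have hset : {g : ↥(Cfsg.SU n F 2) |
      (((g : Matrix.SpecialLinearGroup (Fin n) F) : Matrix (Fin n) (Fin n) F) - 1).rank = 1} =
      {g : SU n F 2 | ∃ v : Fin n → F, v ≠ 0 ∧ hB (Fin n) σ v v = 0 ∧ Tv σ v g} := by
    ext g; exact hiff g
  rw [hset]
  -- an isotropic vector
  obtain ⟨v0, hv0, hvv0⟩ : ∃ v : Fin n → F, v ≠ 0 ∧ hB (Fin n) σ v v = 0 := by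
    refine ⟨Pi.single ⟨0, by omega⟩ 1 + Pi.single ⟨1, by omega⟩ 1, ?_, ?_⟩
    · intro h0
      have := congrFun h0 ⟨0, by omega⟩
      simp at this
    · rw [bl_add, br_add, br_add, hB_single, hB_single, hB_single, hB_single]
      have h2 := two_zero hF hσ
      simp
      linear_combination h2
  refine ⟨⟨?_, ?_⟩, ?_, ?_⟩
  · rintro g ⟨v, hv, hvv, hg⟩
    apply orderOf_eq_prime
    · rw [pow_two]; exact Tv_sq hF hσ hvv hg
    · exact Tv_ne_one hv hg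
  · rintro g ⟨v, hv, hvv, hg⟩ k ⟨w, hw, hww, hk⟩
    exact Tv_prod hF hσ hσ2 hvv hww hg hk
  · obtain ⟨A, hA⟩ := Tv_exists (n := n) hF hσ hσ2 hvv0
    refine ⟨A, ⟨v0, hv0, hvv0, hA⟩, ?_⟩
    ext g
    show _ ↔ IsConj _ _
    rw [isConj_iff]
    constructor
    · rintro ⟨v, hv, hvv, hg⟩
      obtain ⟨C, a, ha, hC⟩ := trans hσ hσ1 hσ2 hv0 hv hvv0 hvv
      refine ⟨C, ?_⟩
      have h1 := Tv_conj hσ hA C
      rw [hC] at h1
      exact Tv_uniq h1 (Tv_smul hF hσ ha hg)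
    · rintro ⟨C, rfl⟩
      refine ⟨sv C v0, sv_ne_zero C hv0, ?_, Tv_conj hσ hA C⟩
      rw [sv_isom (σ := σ) (q := 2) hσ C]
      exact hvv0
  · rw [eq_top_iff, ← suT_eq_top hF (by omega) (by omega)]
    unfold suT
    rw [Subgroup.closure_le]
    rintro g ⟨v, c, hv, hg⟩
    by_cases hg1 : g = 1
    · rw [hg1]; exact one_mem _
    apply Subgroup.subset_closure
    rw [← hset]
    show (((g : Matrix.SpecialLinearGroup (Fin n) F) : Matrix (Fin n) (Fin n) F) - 1).rank = 1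
    have e : (((g : Matrix.SpecialLinearGroup (Fin n) F) : Matrix (Fin n) (Fin n) F) - 1) =
        vecMulVec (c • v) (fun j => v j ^ 2) := by
      rw [hg]
      unfold Cfsg.unitaryTransvection
      rw [add_sub_cancel_left, Matrix.smul_vecMulVec]
    apply le_antisymm
    · rw [e]; exact Matrix.rank_vecMulVec_le _ _
    · rw [Nat.one_le_iff_ne_zero]
      intro h0
      apply hg1
      have h2 : (((g : Matrix.SpecialLinearGroup (Fin n) F) : Matrix (Fin n) (Fin n) F) - 1).mulVecLin = 0 := by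
        rw [← LinearMap.range_eq_bot]
        exact Submodule.finrank_eq_zero.1 h0
      apply sv_ext
      intro x
      have h3 : (((g : Matrix.SpecialLinearGroup (Fin n) F) : Matrix (Fin n) (Fin n) F) - 1).mulVec x = 0 := by
        rw [← Matrix.mulVecLin_apply, h2]; rfl
      rw [Matrix.sub_mulVec, Matrix.one_mulVec, sub_eq_zero] at h3
      rw [sv_one]
      exact h3

end Cfsg.Agent.H8.TTU
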