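import Cfsg.Agent.H8.TitsT

/-!
# Simplicity of the Tits group
-/

set_option Elab.async false
set_option autoImplicit false
set_option linter.all false
set_option maxRecDepth 100000
set_option maxHeartbeats 1000000

namespace Cfsg.Agent.H8.Tits

open Cfsg.Lie

theorem wT_pow (w : List ℕ) (k : ℕ) : wT w ^ k = wT ((List.replicate k w).flatten) := by
  induction k with
  | zero => rfl
  | succ k ih => rw [pow_succ', ih, List.replicate_succ, List.flatten_cons, wT_append]

/-- a normal subgroup of order divisible by `p` contains `r`, given a Sylow `p`-subgroup all of whose nontrivial elements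
have `r` in their normal closure -/
theorem syl {G : Type*} [Group G] [Finite G] (p k m : ℕ) (hp : p.Prime) (hG : Nat.card G = p ^ k * m) (hm : ¬ p ∣ m)
    (P : Subgroup G) (hP : Nat.card P = p ^ k) (r : G) (N : Subgroup G) [hN : N.Normal]
    (hr : ∀ x ∈ P, x ≠ 1 → x ∈ N → r ∈ N) (hpN : p ∣ Nat.card N) : r ∈ N := by
  haveI : Fact p.Prime := ⟨hp⟩
  obtain ⟨g, hg⟩ := exists_prime_orderOf_dvd_card' (G := N) p hpN
  have hg' : orderOf (g : G) = p := by rw [Subgroup.orderOf_coe]; exact hg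
  have hpg : IsPGroup p (Subgroup.zpowers (g : G)) := by
    apply IsPGroup.of_card (n := 1)
    rw [Nat.card_zpowers, hg', pow_one]
  obtain ⟨Q, hQ⟩ := hpg.exists_le_sylow
  have hf : p ^ (Nat.card G).factorization p = p ^ k := by
    congr 1
    rw [hG, Nat.factorization_mul (pow_ne_zero _ hp.ne_zero) (by rintro rfl; exact hm (dvd_zero _))]
    rw [Finsupp.add_apply, hp.factorization_pow, Finsupp.single_eq_same, Nat.factorization_eq_zero_of_not_dvd hm]
    rfl
  obtain ⟨c, hc⟩ := MulAction.exists_smul_eq G (Sylow.ofCard P (by rw [hP, hf])) Q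
  have h1 : (g : G) ∈ Q := hQ (Subgroup.mem_zpowers _)
  have h2 : c⁻¹ * g * c ∈ P := by
    rw [← hc] at h1
    have h3 := (Subgroup.mem_pointwise_smul_iff_inv_smul_mem (S := ((Sylow.ofCard P (by rw [hP, hf]) : Sylow p G) : Subgroup G)) (a := MulAut.conj c)).1 h1
    simpa [mul_assoc] using h3
  apply hr _ h2
  · intro h
    have h4 : (g : G) = 1 := by
      have : (g : G) = c * (c⁻¹ * g * c) * c⁻¹ := by group
      rw [this, h]; group
    rw [h4, orderOf_one] at hg'
    exact hp.one_lt.ne hg'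
  · have := hN.conj_mem g g.2 c⁻¹
    simpa using this

theorem prime_gen {G : Type*} [Group G] [Finite G] (p : ℕ) (hp : p.Prime) (x : G) (hx : x ^ p = 1) (hx1 : x ≠ 1)
    (N : Subgroup G) : Nat.card (Subgroup.zpowers x) = p ∧ ∀ y ∈ Subgroup.zpowers x, y ≠ 1 → y ∈ N → x ∈ N := by
  haveI : Fact p.Prime := ⟨hp⟩
  have ho : orderOf x = p := orderOf_eq_prime hx hx1
  have hc : Nat.card (Subgroup.zpowers x) = p := by rw [Nat.card_zpowers, ho]
  refine ⟨hc, ?_⟩
  intro y hy hy1 hyN
  have h1 : Subgroup.zpowers y ≤ Subgroup.zpowers x := by rwa [Subgroup.zpowers_le]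
  have hyp : y ^ p = 1 := by
    obtain ⟨k, rfl⟩ := Subgroup.mem_zpowers_iff.1 hy
    rw [← zpow_natCast, ← zpow_mul, mul_comm, zpow_mul, zpow_natCast, hx, one_zpow]
  have hoy : orderOf y = p := orderOf_eq_prime hyp hy1
  have h2 : Subgroup.zpowers y = Subgroup.zpowers x := by
    apply Subgroup.eq_of_le_of_card_ge h1
    rw [Nat.card_zpowers, Nat.card_zpowers, ho, hoy]
  have h3 : x ∈ Subgroup.zpowers y := by rw [h2]; exact Subgroup.mem_zpowers x
  exact (Subgroup.zpowers_le.2 hyN) h3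

theorem top_of_xy (N : Subgroup TitsGroup) (h6 : wT [6] ∈ N) (h8 : wT [8] ∈ N) : N = ⊤ := by
  have e1 : ∀ l, wT [l] = sT l := fun l => by unfold wT; simp
  have hinv : ∀ l m : ℕ, l ∈ LL → m ∈ LL → (∀ i ∈ bse, trN T' [l, m] i = trN T' [] i) → sT m = (sT l)⁻¹ := by
    intro l m hl hm h
    have := weqT [l, m] [] (by
      intro a ha
      rcases List.mem_cons.1 ha with rfl | ha
      · exact hl
      · rw [List.mem_singleton] at ha; rw [ha]; exact hm) (by simp) h
    rw [show wT [l, m] = sT l * sT m by unfold wT; simp, show wT [] = 1 from rfl] at this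
    exact eq_inv_of_mul_eq_one_right this
  have g6 : sT 6 ∈ N := by rw [← e1]; exact h6
  have g8 : sT 8 ∈ N := by rw [← e1]; exact h8
  have g7 : sT 7 ∈ N := by rw [hinv 6 7 (by decide) (by decide) (by decide +kernel)]; exact N.inv_mem g6
  have g9 : sT 9 ∈ N := by rw [hinv 8 9 (by decide) (by decide) (by decide +kernel)]; exact N.inv_mem g8
  have hw : ∀ w : List ℕ, (∀ l ∈ w, sT l ∈ N) → wT w ∈ N := by
    intro w h
    unfold wT
    apply Subgroup.list_prod_mem
    intro x hx
    obtain ⟨l, hl, rfl⟩ := List.mem_map.1 hx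
    exact h l hl
  have hA : ∀ l ∈ ([6, 7, 8, 9] : List ℕ), sT l ∈ N :=
    List.forall_mem_cons.2 ⟨g6, List.forall_mem_cons.2 ⟨g7, List.forall_mem_cons.2 ⟨g8, List.forall_mem_cons.2 ⟨g9, by simp⟩⟩⟩⟩
  have sub : ∀ (w S : List ℕ), (∀ l ∈ S, sT l ∈ N) → (w.all fun l => S.contains l) = true → wT w ∈ N := by
    intro w S hS h
    apply hw
    intro l hl
    have := List.all_eq_true.1 h l hl
    exact hS l (by simpa using this)
  have g10 : sT 10 ∈ N := by
    rw [← e1, weqT [10] [8, 8, 8, 6, 8, 8, 7, 8, 8] (by decide) (by decide) (by decide +kernel)]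
    exact sub _ _ hA (by decide)
  have g12 : sT 12 ∈ N := by
    rw [← e1, weqT [12] [7, 7, 8, 8, 8, 8, 6, 8, 8] (by decide) (by decide) (by decide +kernel)]
    exact sub _ _ hA (by decide)
  have g11 : sT 11 ∈ N := by rw [hinv 10 11 (by decide) (by decide) (by decide +kernel)]; exact N.inv_mem g10
  have g13 : sT 13 ∈ N := by rw [hinv 12 13 (by decide) (by decide) (by decide +kernel)]; exact N.inv_mem g12
  have hB : ∀ l ∈ ([10, 11, 12, 13] : List ℕ), sT l ∈ N :=
    List.forall_mem_cons.2 ⟨g10, List.forall_mem_cons.2 ⟨g11, List.forall_mem_cons.2 ⟨g12, List.forall_mem_cons.2 ⟨g13, by simp⟩⟩⟩⟩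
  have g14 : sT 14 ∈ N := by
    rw [← e1, weqT [14] [10, 12, 11, 13, 11, 12, 11] (by decide) (by decide) (by decide +kernel)]
    exact sub _ _ hB (by decide)
  have g16 : sT 16 ∈ N := by
    rw [← e1, weqT [16] [12, 12, 11, 13, 13, 11, 12, 12] (by decide) (by decide) (by decide +kernel)]
    exact sub _ _ hB (by decide)
  have g15 : sT 15 ∈ N := by rw [hinv 14 15 (by decide) (by decide) (by decide +kernel)]; exact N.inv_mem g14
  have hC : ∀ l ∈ ([14, 15, 16] : List ℕ), sT l ∈ N :=
    List.forall_mem_cons.2 ⟨g14, List.forall_mem_cons.2 ⟨g15, List.forall_mem_cons.2 ⟨g16, by simp⟩⟩⟩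
  have hall : ∀ l ∈ LL, sT l ∈ N := by
    intro l hl
    have hl' : l ∈ [6, 7, 8, 9] ++ ([10, 11, 12, 13] ++ [14, 15, 16]) := hl
    rcases List.mem_append.1 hl' with h | h
    · exact hA l h
    · rcases List.mem_append.1 h with h | h
      · exact hB l h
      · exact hC l h
  rw [Subgroup.eq_top_iff']
  intro g
  have hg : (g : TG) ∈ wordGroup s tG0 := by rw [← comm_eq]; exact g.2
  have key : wordGroup s tG0 ≤ N.map (commutator TG).subtype := by
    unfold wordGroup
    rw [Subgroup.closure_le]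
    rintro _ ⟨w, hw, rfl⟩
    have hw' : ∃ l ∈ LL, w = [l] := by
      revert w
      decide
    obtain ⟨l, hl, rfl⟩ := hw'
    refine ⟨sT l, hall l hl, ?_⟩
    rw [wd]
    exact sT_coe l hl
  obtain ⟨g', hg', he⟩ := key hg
  have : g = g' := Subtype.ext he.symm
  rw [this]; exact hg'

theorem T_simple : IsSimpleGroup TitsGroup := by
  haveI : Nontrivial TitsGroup := ⟨⟨wT [6], 1, ne_one [6] (by decide) 0 (by decide) (by decide +kernel)⟩⟩
  refine ⟨?_⟩
  intro N hN
  haveI := hN
  have hcard := comm_card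
  have h13 : 13 ∣ Nat.card N → N = ⊤ := by
    intro h
    have k6 := prime_gen 13 (by norm_num) (wT [6]) (by
      rw [wT_pow, show (1 : TitsGroup) = wT [] from rfl]
      exact weqT _ _ (by decide) (by decide) (by decide +kernel))
      (ne_one [6] (by decide) 0 (by decide) (by decide +kernel)) N
    have k8 := prime_gen 13 (by norm_num) (wT [8]) (by
      rw [wT_pow, show (1 : TitsGroup) = wT [] from rfl]
      exact weqT _ _ (by decide) (by decide) (by decide +kernel))
      (ne_one [8] (by decide) 0 (by decide) (by decide +kernel)) N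
    apply top_of_xy
    · exact syl 13 1 1382400 (by norm_num) (hcard.trans (by norm_num)) (by norm_num) _ (by rw [k6.1]; rfl) _ N k6.2 h
    · exact syl 13 1 1382400 (by norm_num) (hcard.trans (by norm_num)) (by norm_num) _ (by rw [k8.1]; rfl) _ N k8.2 h
  have h13' : ∀ w : List ℕ, (∀ l ∈ w, l ∈ LL) → wT w ∈ N → (∀ i ∈ bse, trN T' ((List.replicate 13 w).flatten) i = trN T' [] i) →
      trN T' w 0 ≠ 0 → N = ⊤ := by
    intro w hw hwN h h0
    apply h13
    have h1 : wT w ^ 13 = 1 := by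
      rw [wT_pow, show (1 : TitsGroup) = wT [] from rfl]
      exact weqT _ _ (by
        intro l hl
        rw [List.mem_flatten] at hl
        obtain ⟨v, hv, hl⟩ := hl
        rw [List.eq_of_mem_replicate hv] at hl
        exact hw l hl) (by simp) h
    haveI : Fact (Nat.Prime 13) := ⟨by norm_num⟩
    have ho : orderOf (wT w) = 13 := orderOf_eq_prime h1 (ne_one w hw 0 (by decide) h0)
    have h2 := Subgroup.orderOf_mk (wT w) hwN
    rw [ho] at h2
    rw [← h2]
    exact orderOf_dvd_natCard _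
  have cj : ∀ (r c : List ℕ) (c' : List ℕ), (∀ l ∈ c ++ c', l ∈ LL) → (∀ i ∈ bse, trN T' (c ++ c') i = trN T' [] i) → wT r ∈ N →
      wT (r ++ (c ++ (r ++ c'))) ∈ N := by
    intro r c c' hcL hc hr
    have h1 := weqT (c ++ c') [] hcL (by simp) hc
    rw [wT_append, show wT [] = 1 from rfl] at h1
    have h2 : wT c' = (wT c)⁻¹ := eq_inv_of_mul_eq_one_right h1
    rw [wT_append, wT_append, wT_append, h2, ← mul_assoc (wT c)]
    exact N.mul_mem hr (hN.conj_mem _ hr _)
  have h3 : 3 ∣ Nat.card N → N = ⊤ := by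
    intro h
    obtain ⟨hP1, hP2⟩ := P27_data
    have hr := syl 3 3 665600 (by norm_num) (hcard.trans (by norm_num)) (by norm_num) P27 (by rw [hP1]; rfl) (wT [8, 12]) N (by
      intro x hx hx1 hxN
      obtain ⟨c, hc⟩ := hP2 x hx hx1
      have : wT [8, 12] = c⁻¹ * x * c⁻¹⁻¹ := by rw [hc]; group
      rw [this]; exact hN.conj_mem _ hxN _) h
    exact h13' ([8, 12] ++ ([6] ++ ([8, 12] ++ [7]))) (by decide) (cj [8, 12] [6] [7] (by decide) (by decide +kernel) hr)
      (by decide +kernel) (by decide +kernel)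
  have h5 : 5 ∣ Nat.card N → N = ⊤ := by
    intro h
    obtain ⟨hP1, hP2⟩ := E25_data
    have hr := syl 5 2 718848 (by norm_num) (hcard.trans (by norm_num)) (by norm_num) E25 (by rw [hP1]; rfl) (wT [14]) N (by
      intro x hx hx1 hxN
      obtain ⟨c, hc⟩ := hP2 x hx hx1
      have : wT [14] = c⁻¹ * x * c⁻¹⁻¹ := by rw [hc]; group
      rw [this]; exact hN.conj_mem _ hxN _) h
    exact h13' ([14] ++ ([6, 6] ++ ([14] ++ [7, 7]))) (by decide) (cj [14] [6, 6] [7, 7] (by decide) (by decide +kernel) hr)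
      (by decide +kernel) (by decide +kernel)
  by_cases c3 : 3 ∣ Nat.card N
  · exact Or.inr (h3 c3)
  by_cases c5 : 5 ∣ Nat.card N
  · exact Or.inr (h5 c5)
  by_cases c13 : 13 ∣ Nat.card N
  · exact Or.inr (h13 c13)
  left
  -- `N` is a 2-group
  have hdv : Nat.card N ∣ 2 ^ 11 * (3 ^ 3 * 5 ^ 2 * 13) := by
    have := Subgroup.card_subgroup_dvd_card N
    rw [hcard] at this
    exact this
  have hcop : (Nat.card N).Coprime (3 ^ 3 * 5 ^ 2 * 13) := by
    apply Nat.Coprime.mul_right
    · apply Nat.Coprime.mul_right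
      · apply Nat.Coprime.pow_right
        exact ((Nat.Prime.coprime_iff_not_dvd (by norm_num)).2 c3).symm
      · apply Nat.Coprime.pow_right
        exact ((Nat.Prime.coprime_iff_not_dvd (by norm_num)).2 c5).symm
    · exact ((Nat.Prime.coprime_iff_not_dvd (by norm_num)).2 c13).symm
  have h2 : Nat.card N ∣ 2 ^ 11 := hcop.dvd_of_dvd_mul_right hdv
  obtain ⟨k, _, hk⟩ := (Nat.dvd_prime_pow Nat.prime_two).1 h2
  haveI : Fact (Nat.Prime 2) := ⟨Nat.prime_two⟩
  have hpg : IsPGroup 2 N := IsPGroup.of_card hk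
  -- action on 1755 points
  let φ : TitsGroup →* Equiv.Perm (Fin 1755) := ρ.comp (commutator TG).subtype
  letI : MulAction N (Fin 1755) := MulAction.compHom _ (φ.comp N.subtype)
  have hfix : (MulAction.fixedPoints N (Fin 1755)).Nonempty := by
    apply hpg.nonempty_fixed_point_of_prime_not_dvd_card
    rw [Nat.card_eq_fintype_card, Fintype.card_fin]
    decide
  obtain ⟨p, hp⟩ := hfix
  have hp' : ∀ g ∈ N, φ g p = p := fun g hg => hp ⟨g, hg⟩
  rw [Subgroup.eq_bot_iff_forall]
  intro g hg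
  have htr : ∀ q : Fin 1755, ∃ h : TitsGroup, φ h p = q := by
    have hr : ∀ q : Fin 1755, ∃ h : TitsGroup, φ h p0 = q := by
      intro q
      obtain ⟨h, hh1, hh⟩ := reach s tok ρ hρ tQ0 tG0 (by decide) p0 (fun i hi => allR_zero _ _ tr0 i hi) q (by
        have key : allR (fun i => Nat.ble (nat_lit 1) (tQ0 i)) (nat_lit 0) (nat_lit 1755) = true := by decide +kernel
        have h1 : 1 ≤ tQ0 q := Nat.le_of_ble_eq_true (allR_zero _ _ key q q.2)
        omega)
      exact ⟨⟨h, by rw [comm_eq]; exact hh1⟩, hh⟩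
    intro q
    obtain ⟨a, ha⟩ := hr p
    obtain ⟨b, hb⟩ := hr q
    refine ⟨b * a⁻¹, ?_⟩
    rw [map_mul, Equiv.Perm.mul_apply, map_inv, ← ha, show (φ a)⁻¹ (φ a p0) = p0 from Equiv.symm_apply_apply _ _, hb]
  have h1 : φ g = 1 := by
    ext1 q
    obtain ⟨h, hh⟩ := htr q
    have h2 := hp' (h⁻¹ * g * h) (by have := hN.conj_mem g hg h⁻¹; simpa using this)
    rw [map_mul, map_mul, Equiv.Perm.mul_apply, Equiv.Perm.mul_apply, hh, map_inv, Equiv.Perm.inv_eq_iff_eq, hh] at h2
    rw [h2]; rfl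
  have h3 : (g : TG) = 1 := ρ_inj (by rw [map_one]; exact h1)
  exact Subtype.ext h3

theorem T_noncomm : ¬ IsMulCommutative TitsGroup := by
  intro h
  have h1 : wT [6] * wT [8] = wT [8] * wT [6] := h.is_comm.comm _ _
  rw [← wT_append, ← wT_append] at h1
  have h2 := wT_ne _ _ (by decide) (by decide) 0 (by decide) h1
  revert h2
  decide +kernel

end Cfsg.Agent.H8.Tits
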