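import Cfsg.Agent.H8.RelGroup
import Cfsg.Agent.H8.T.Fi24atL
import Cfsg.Agent.H8.T.Fi24at
import Cfsg.Agent.H8.T.E8t
import Cfsg.Agent.H8.T.E7t
import Cfsg.Agent.H8.T.E6t
import Cfsg.Agent.H8.T.D5t
import Cfsg.Agent.H8.T.A4t
import Cfsg.Agent.H8.T.A3t
import Cfsg.Agent.H8.T.A2t
import Cfsg.Agent.H8.T.A1t

/-!
# The group with diagram `Y₅₂₂` and the relation `l = (abcdefh)⁹`: order 9904359628800

Letters `l, k, a, b, c, d, e, f, h, i` are `0, …, 9`.
-/

set_option autoImplicit false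
set_option linter.all false
set_option maxRecDepth 100000
set_option maxHeartbeats 400000

namespace Cfsg.Agent.H8.YP

/-- upper bound, for any group with these relations. -/
theorem upper_of {G : Type*} [Group G] (s : Nat → G) (hinv : ∀ l, s l = (s l)⁻¹) (h31 : s 31 = 1)
    (base : ∀ p ∈ Fi24at.rels2, ((p.1.map s).prod) ^ p.2 = 1) :
    Finite (letterGroup s 10) ∧ Nat.card (letterGroup s 10) ≤ 9904359628800 := by
  have h1 := A1t.upper (subS s [3]) (subS_inv s _ hinv) (subS_31 s _ h31)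
    (rels_sub s [3] _ _ base (by decide)) ⊥ (by intro w hw; exact absurd hw (by decide +revert)) inferInstance
  have h2 := A2t.upper (subS s [3, 4]) (subS_inv s _ hinv) (subS_31 s _ h31)
    (rels_sub s [3, 4] _ _ base (by decide)) _ (sub_mem s [3, 4] [3] 1 _ (by decide)) h1.1
  have h3 := A3t.upper (subS s [3, 4, 5]) (subS_inv s _ hinv) (subS_31 s _ h31)
    (rels_sub s [3, 4, 5] _ _ base (by decide)) _ (sub_mem s [3, 4, 5] [3, 4] 2 _ (by decide)) h2.1
  have h4 := A4t.upper (subS s [3, 4, 5, 6]) (subS_inv s _ hinv) (subS_31 s _ h31)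
    (rels_sub s [3, 4, 5, 6] _ _ base (by decide)) _ (sub_mem s [3, 4, 5, 6] [3, 4, 5] 3 _ (by decide)) h3.1
  have h5 := D5t.upper (subS s [3, 4, 5, 6, 8]) (subS_inv s _ hinv) (subS_31 s _ h31)
    (rels_sub s [3, 4, 5, 6, 8] _ _ base (by decide)) _ (sub_mem s [3, 4, 5, 6, 8] [3, 4, 5, 6] 4 _ (by decide)) h4.1
  have h6 := E6t.upper (subS s [3, 4, 5, 6, 7, 8]) (subS_inv s _ hinv) (subS_31 s _ h31)
    (rels_sub s [3, 4, 5, 6, 7, 8] _ _ base (by decide)) _
    (sub_mem s [3, 4, 5, 6, 7, 8] [3, 4, 5, 6, 8] 5 _ (by decide)) h5.1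
  have h7 := E7t.upper (subS s [2, 3, 4, 5, 6, 7, 8]) (subS_inv s _ hinv) (subS_31 s _ h31)
    (rels_sub s [2, 3, 4, 5, 6, 7, 8] _ _ base (by decide)) _
    (sub_mem s [2, 3, 4, 5, 6, 7, 8] [3, 4, 5, 6, 7, 8] 6 _ (by decide)) h6.1
  have hl : s 0 ∈ letterGroup (subS s [2, 3, 4, 5, 6, 7, 8]) 7 := by
    have h := base ([0] ++ wpow [2, 3, 4, 5, 6, 7, 8] 9, 1) (by decide)
    rw [pow_one] at h
    change (([0] ++ wpow [2, 3, 4, 5, 6, 7, 8] 9).map s).prod = 1 at h
    rw [List.map_append, List.prod_append, wpow_prod, List.map_singleton, List.prod_singleton] at h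
    rw [mul_eq_one_iff_eq_inv.1 h]
    refine Subgroup.inv_mem _ (Subgroup.pow_mem _ ?_ 9)
    refine Subgroup.list_prod_mem _ ?_
    intro x hx
    obtain ⟨l, hl, rfl⟩ := List.mem_map.1 hx
    have key : ∀ l ∈ [2, 3, 4, 5, 6, 7, 8], ∃ k < 7, [2, 3, 4, 5, 6, 7, 8].getD k 31 = l := by decide
    obtain ⟨k, hk, hk'⟩ := key l hl
    exact Subgroup.subset_closure ⟨k, hk, by rw [subS, hk']⟩
  have h8 := E8t.upper (subS s [0, 1, 2, 3, 4, 5, 6, 7, 8]) (subS_inv s _ hinv) (subS_31 s _ h31)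
    (rels_sub s [0, 1, 2, 3, 4, 5, 6, 7, 8] _ _ base (by decide)) (letterGroup (subS s [2, 3, 4, 5, 6, 7, 8]) 7) (by
      intro w hw
      by_cases h0 : w = [0]
      · subst h0
        simpa [subS] using hl
      · exact sub_mem s [0, 1, 2, 3, 4, 5, 6, 7, 8] [2, 3, 4, 5, 6, 7, 8] 7 [[2], [3], [4], [5], [6], [7], [8]]
          (by decide) w (by revert w hw h0; decide)) h7.1
  have h9 := Fi24at.upper s hinv h31 base (letterGroup (subS s [0, 1, 2, 3, 4, 5, 6, 7, 8]) 9) (by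
    intro w hw
    have := sub_mem s [0, 1, 2, 3, 4, 5, 6, 7, 8, 9] [0, 1, 2, 3, 4, 5, 6, 7, 8] 9 Fi24at.subw (by decide) w hw
    have h5 : w.map (subS s [0, 1, 2, 3, 4, 5, 6, 7, 8, 9]) = w.map s := by
      apply List.map_congr_left
      intro l hl
      have : ∀ w ∈ Fi24at.subw, ∀ l ∈ w, l < 10 := by decide
      exact subS_id s [0, 1, 2, 3, 4, 5, 6, 7, 8, 9] 10 (by decide) l (this w hw l hl)
    rw [h5] at this
    exact this) h8.1
  refine ⟨h9.1, ?_⟩
  have e1 : Nat.card (⊥ : Subgroup G) = 1 := by simp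
  rw [e1] at h1
  omega

/-- the abstract presented group. -/
abbrev J : Type := RG 10 Fi24at.rels2

noncomputable def s : Nat → J := RG.gen 10 Fi24at.rels2

theorem s_inv : ∀ l, s l = (s l)⁻¹ := RG.gen_inv 10 Fi24at.rels2
theorem s_31 : s 31 = 1 := RG.gen_ge 10 Fi24at.rels2 31 (by decide)
theorem s_rels : ∀ p ∈ Fi24at.rels2, ((p.1.map s).prod) ^ p.2 = 1 := RG.gen_rels 10 Fi24at.rels2
theorem s_top : letterGroup s 10 = ⊤ := RG.letterGroup_top 10 Fi24at.rels2

theorem finite_and_card_le : Finite J ∧ Nat.card J ≤ 9904359628800 := by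
  have h := upper_of s s_inv s_31 s_rels
  rw [s_top] at h
  refine ⟨?_, ?_⟩
  · have := h.1
    exact Finite.of_equiv _ Subgroup.topEquiv.toEquiv
  · rw [Subgroup.card_top] at h
    exact h.2

instance J_finite : Finite J := finite_and_card_le.1

noncomputable def ρ : J →* Equiv.Perm (Fin 28431) :=
  RG.lift 10 Fi24at.rels2 (permL Fi24at.tok) (permL_sq Fi24at.tok)
    (fun l hl => permL_ge Fi24at.tok l (by omega)) Fi24at.relp

theorem hρ' : ∀ l, ρ (s l) = permL Fi24at.tok l := fun l => RG.lift_gen 10 Fi24at.rels2 _ _ _ _ l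
theorem hρ : ∀ l < 10, ρ (s l) = permL Fi24at.tok l := fun l _ => hρ' l

theorem lowerP : 9904359628800 ≤ Nat.card (wordGroup (permL Fi24at.tok) Fi24at.chG0) := by
  have h1 := Fi24at.ch_lower (permL Fi24at.tok) (MonoidHom.id _) (fun l _ => rfl)
  omega

theorem ρ_injective : Function.Injective ρ := by
  apply injective_of_card ρ (wordGroup (permL Fi24at.tok) Fi24at.chG0)
  · rw [← RG.map_wordGroup ρ s _ hρ' Fi24at.chG0]
    rintro _ ⟨x, _, rfl⟩
    exact ⟨x, rfl⟩
  · exact le_trans finite_and_card_le.2 lowerP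
  · infer_instance

/-- power identities through the faithful table. -/
theorem wdp (u : List Nat) (k : Nat) (hu : ∀ l ∈ u, l < 10)
    (h : allR (fun i => powT (u.map Fi24at.T) i k i) 0 28431 = true) : ((u.map s).prod) ^ k = 1 := by
  apply ρ_injective
  rw [map_one, map_pow, map_list_prod, List.map_map]
  have h1 := pow_eq_one_of_powT Fi24at.tok u hu k (fun i hi => allR_zero _ _ h i hi)
  have e : u.map (⇑ρ ∘ s) = u.map (permL Fi24at.tok) := List.map_congr_left fun l hl => hρ l (hu l hl)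
  rw [e]
  exact h1

/-- transfer of an identity to any group with these relations. -/
theorem trp {P : Type*} [Group P] (t : Nat → P) (hsq : ∀ l, t l * t l = 1) (hge : ∀ l, 10 ≤ l → t l = 1)
    (hrel : ∀ p ∈ Fi24at.rels2, ((p.1.map t).prod) ^ p.2 = 1) (u : List Nat) (k : Nat) (hu : ∀ l ∈ u, l < 10)
    (h : allR (fun i => powT (u.map Fi24at.T) i k i) 0 28431 = true) : ((u.map t).prod) ^ k = 1 := by
  have h1 := congrArg (RG.lift 10 Fi24at.rels2 t hsq hge hrel) (wdp u k hu h)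
  rw [map_one, map_pow, map_list_prod, List.map_map] at h1
  have h2 : (⇑(RG.lift 10 Fi24at.rels2 t hsq hge hrel) ∘ s) = t := by
    funext l
    exact RG.lift_gen 10 Fi24at.rels2 _ _ _ _ l
  rw [h2] at h1
  exact h1

/-- the spider relation. -/
theorem spk : allR (fun i => powT ([Fi24at.T5, Fi24at.T4, Fi24at.T3, Fi24at.T5, Fi24at.T6, Fi24at.T7, Fi24at.T5,
    Fi24at.T8, Fi24at.T9]) i 10 i) 0 28431 = true := by decide +kernel

theorem spider {P : Type*} [Group P] (t : Nat → P) (hsq : ∀ l, t l * t l = 1) (hge : ∀ l, 10 ≤ l → t l = 1)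
    (hrel : ∀ p ∈ Fi24at.rels2, ((p.1.map t).prod) ^ p.2 = 1) :
    ((([5, 4, 3, 5, 6, 7, 5, 8, 9] : List Nat).map t).prod) ^ 10 = 1 :=
  trp t hsq hge hrel [5, 4, 3, 5, 6, 7, 5, 8, 9] 10 (by decide) spk

end Cfsg.Agent.H8.YP
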